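/-
Sections of finite groups with a large abelian subgroup `T` controlling fusion.
-/
import Mathlib
import Cfsg.Agent.H1.Basic

set_option autoImplicit false
set_option linter.unusedSectionVars false

namespace Cfsg.Agent.H7.Alt

open Subgroup H1 Equiv
open scoped commutatorElement

section frat
variable {H Q : Type*} [Group H] [Finite H] [Group Q] (φ : H →* Q)

lemma frat {l : ℕ} [Fact l.Prime] (H0 : Subgroup H) {A : Subgroup Q} (hA : IsPGroup l A)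
    (h : A ≤ H0.map φ) : ∃ P ≤ H0, IsPGroup l P ∧ P.map φ = A ∧
      ∀ b ∈ H0.map φ, b ∈ normalizer (A : Set Q) → b ∈ (H0 ⊓ normalizer (P : Set H)).map φ := by
  obtain ⟨P, hP⟩ := exists_isSylowIn (p := l) (H0 ⊓ A.comap φ)
  have h1 : (H0 ⊓ A.comap φ).map φ = A := by
    refine le_antisymm ((map_mono inf_le_right).trans (map_comap_le _ _)) fun a ha => ?_
    obtain ⟨x, hx, rfl⟩ := h ha
    exact ⟨x, ⟨hx, ha⟩, rfl⟩
  have h2 : P.map φ = A := by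
    have := hP.map φ
    rw [h1] at this
    exact (this.eq_of_le hA this.le le_rfl).symm
  refine ⟨P, hP.le.trans inf_le_left, hP.isPGroup, h2, ?_⟩
  rintro _ ⟨x, hx, rfl⟩ hb
  obtain ⟨n, hn, hn'⟩ := hP.frattini (H := zpowers x) (x := x) (by
    rw [zpowers_le]
    refine mem_normalizer_of_conj_mem fun y hy => ⟨?_, ?_⟩
    · exact H0.mul_mem (H0.mul_mem hx hy.1) (H0.inv_mem hx)
    · show φ _ ∈ A
      rw [map_mul, map_mul, map_inv]
      exact conj_mem_of_mem_normalizer hb hy.2) (mem_zpowers x)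
  obtain ⟨s, hs, e⟩ : φ n ∈ P.map φ := h2 ▸ hn.2
  refine ⟨s⁻¹ * (n * x), ⟨H0.mul_mem (H0.inv_mem (hP.le hs).1) (H0.mul_mem hn.1 hx),
    Subgroup.mul_mem _ (Subgroup.inv_mem _ (le_normalizer hs)) hn'⟩, ?_⟩
  rw [map_mul, map_mul, map_inv, e]; group

lemma restrict {r r' : ℕ} (h : r' ≤ r) (φ : H →* Perm (Fin r))
    (hφ : ∀ σ, Perm.sign σ = 1 → σ ∈ φ.range) :
    ∃ (H' : Subgroup H) (φ' : H' →* Perm (Fin r')), ∀ σ, Perm.sign σ = 1 → σ ∈ φ'.range := by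
  classical
  let ι := Perm.extendDomainHom (Fin.castLEEmb h).toEquivRange
  have hι : Function.Injective ι := Perm.extendDomainHom_injective _
  refine ⟨ι.range.comap φ, (MonoidHom.ofInjective hι).symm.toMonoidHom.comp
    ((φ.comp (Subgroup.subtype _)).codRestrict ι.range fun x => x.2), fun σ hσ => ?_⟩
  obtain ⟨x, hx⟩ := hφ (ι σ) ((Perm.sign_extendDomain σ _).trans hσ)
  refine ⟨⟨x, σ, hx.symm⟩, ?_⟩
  simp only [MonoidHom.comp_apply, MulEquiv.toMonoidHom_eq_coe, MonoidHom.coe_coe,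
    MulEquiv.symm_apply_eq]
  exact Subtype.ext hx

omit [Finite H] in
lemma of_quot {r : ℕ} (K : Subgroup H) [K.Normal]
    (h : Nonempty (H ⧸ K ≃* alternatingGroup (Fin r))) :
    ∃ φ : H →* Perm (Fin r), ∀ σ, Perm.sign σ = 1 → σ ∈ φ.range := by
  obtain ⟨e⟩ := h
  refine ⟨(alternatingGroup (Fin r)).subtype.comp (e.toMonoidHom.comp (QuotientGroup.mk' K)),
    fun σ hσ => ?_⟩
  obtain ⟨x, hx⟩ := QuotientGroup.mk'_surjective K (e.symm ⟨σ, hσ⟩)
  exact ⟨x, by simp only [MonoidHom.comp_apply, hx]; simp⟩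

end frat

variable {Γ : Type*} [Group Γ] [Finite Γ] {T G : Subgroup Γ}

lemma mem_zpowers_pow {x : Γ} {l k : ℕ} (hx : ∃ n, x ^ l ^ n = 1) (hc : l.Coprime k) :
    x ∈ zpowers (x ^ k) := by
  obtain ⟨n, hn⟩ := hx
  rw [mem_zpowers_pow_iff]
  exact (Nat.Coprime.coprime_dvd_left (orderOf_dvd_of_pow_eq_one hn) (hc.pow_left n)).symm

lemma exists_pow_of_isPGroup {l : ℕ} {P : Subgroup Γ} (hP : IsPGroup l P) {x : Γ} (hx : x ∈ P) :
    ∃ n, x ^ l ^ n = 1 := by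
  obtain ⟨n, hn⟩ := hP ⟨x, hx⟩
  exact ⟨n, congrArg Subtype.val hn⟩

lemma isPGroup_zpowers {l : ℕ} {x : Γ} (hx : ∃ n, x ^ l ^ n = 1) : IsPGroup l (zpowers x) := by
  obtain ⟨n, hn⟩ := hx
  rintro ⟨_, k, rfl⟩
  exact ⟨n, Subtype.ext (by
    show (x ^ k) ^ l ^ n = 1
    rw [← zpow_natCast, ← zpow_mul, mul_comm, zpow_mul, zpow_natCast, hn, one_zpow])⟩

lemma conj_pow_eq {g n : Γ} {P : Subgroup Γ} (hg : g ∈ normalizer (P : Set Γ))
    (h : ∀ x ∈ P, g * x * g⁻¹ = n * x * n⁻¹) (k : ℕ) :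
    ∀ x ∈ P, g ^ k * x * (g ^ k)⁻¹ = n ^ k * x * (n ^ k)⁻¹ := by
  induction k with
  | zero => simp
  | succ k ih =>
    intro x hx
    calc g ^ (k + 1) * x * (g ^ (k + 1))⁻¹ = g ^ k * (g * x * g⁻¹) * (g ^ k)⁻¹ := by group
      _ = n ^ k * (g * x * g⁻¹) * (n ^ k)⁻¹ := ih _ (conj_mem_of_mem_normalizer hg hx)
      _ = _ := by rw [h x hx]; group

variable (hT : ∀ x ∈ T, ∀ y ∈ T, x * y = y * x)
include hT

lemma mem_syl {l : ℕ} [Fact l.Prime] {S : Subgroup Γ} (hS : IsSylowIn l S (T ⊓ G)) {x : Γ}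
    (hx : x ∈ T ⊓ G) (h : ∃ n, x ^ l ^ n = 1) : x ∈ S := by
  refine zpowers_le.mp (hS.le_of_le_normalizer (isPGroup_zpowers h) (zpowers_le.mpr hx) ?_)
  rw [zpowers_le]
  refine mem_normalizer_of_conj_mem fun y hy => ?_
  rwa [hT x hx.1 y (hS.le hy).1, mul_inv_cancel_right]

section odd
variable {l k : ℕ} [Fact l.Prime] (hc : l.Coprime k)
  (hreg : ∀ g ∈ G, (∀ x ∈ T ⊓ G, x ^ l = 1 → g⁻¹ * x * g ∈ T) → g ^ k ∈ T)
include hc hreg

lemma syl_odd {S : Subgroup Γ} (hS : IsSylowIn l S (T ⊓ G)) : IsSylowIn l S G := by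
  refine isSylowIn_of_maximal hS.isPGroup (hS.le.trans inf_le_right) fun Q hQ hSQ hQG => ?_
  by_contra hne
  obtain ⟨g, hg, hg'⟩ := SetLike.exists_of_lt
    (lt_inf_normalizer_of_isPGroup hQ (lt_of_le_of_ne hSQ (Ne.symm hne)))
  have h1 := hreg g (hQG hg.1) fun x hx h =>
    (hS.le (conj_mem_of_mem_normalizer' hg.2 (mem_syl hT hS hx ⟨1, by simpa using h⟩))).1
  have h2 := exists_pow_of_isPGroup hQ hg.1
  exact hg' (mem_syl hT hS ⟨zpowers_le.mpr h1 (mem_zpowers_pow h2 hc), hQG hg.1⟩ h2)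

lemma cent_pow {P : Subgroup Γ} (hP : IsPGroup l P) (hPG : P ≤ G) {h : Γ} (hG : h ∈ G)
    (hn : h ∈ normalizer (P : Set Γ)) : ∀ x ∈ P, h ^ k * x * (h ^ k)⁻¹ = x := by
  obtain ⟨S0, hS0⟩ := exists_isSylowIn (p := l) (T ⊓ G)
  obtain ⟨c, hcG, hle⟩ := (syl_odd hT hc hreg hS0).exists_cj_le hP hPG
  have hS := (syl_odd hT hc hreg hS0).cj_of_mem (inv_mem hcG)
  set S := cj c⁻¹ S0 with hSd
  have hPS : P ≤ S := cj_le_iff_le_cj_inv.mp hle
  have hcomm : ∀ x ∈ cj c⁻¹ T, ∀ y ∈ cj c⁻¹ T, x * y = y * x := by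
    rintro _ ⟨x, hx, rfl⟩ _ ⟨y, hy, rfl⟩
    rw [← map_mul, ← map_mul, hT x hx y hy]
  have hST : S ≤ cj c⁻¹ T := cj_mono _ (hS0.le.trans inf_le_left)
  have hSC : S ≤ G ⊓ centralizer (P : Set Γ) :=
    le_inf hS.le fun x hx => mem_centralizer_iff.mpr fun y hy => hcomm y (hST (hPS hy)) x (hST hx)
  have hS' := hS.of_le hSC inf_le_left
  obtain ⟨n, hnC, hn'⟩ := hS'.frattini (H := zpowers h) (x := h) (by
    rw [zpowers_le, ← cj_eq_iff_mem_normalizer, cj_inf, cj_eq_of_mem hG, cj_centralizer,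
      cj_eq_iff_mem_normalizer.mpr hn]) (mem_zpowers h)
  have h1 : (n * h) ^ k ∈ cj c⁻¹ T := by
    rw [mem_cj, inv_inv, ← conj_pow]
    refine hreg _ (mul_mem (mul_mem hcG (mul_mem hnC.1 hG)) (inv_mem hcG)) fun x hx hl => ?_
    have h2 : c⁻¹ * x * c⁻¹⁻¹ ∈ S := conj_mem_cj (mem_syl hT hS0 hx ⟨1, by simpa using hl⟩)
    have h3 := hST (conj_mem_of_mem_normalizer' hn' h2)
    rw [mem_cj] at h3
    convert h3 using 1; group
  intro x hx
  rw [conj_pow_eq hn (n := n * h) (fun y hy => ?_) k x hx, hcomm _ h1 x (hST (hPS hx)),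
    mul_inv_cancel_right]
  have := mem_centralizer_iff.mp hnC.2 _ (conj_mem_of_mem_normalizer hn hy)
  calc h * y * h⁻¹ = n * (h * y * h⁻¹) * n⁻¹ := by rw [← this]; group
    _ = _ := by group

theorem odd_case {H Q : Type*} [Group H] [Group Q] (ι : H →* Γ) (hι : Function.Injective ι)
    (hG : ∀ x, ι x ∈ G) (φ : H →* Q) {y g : Q} (hy : y ∈ φ.range) (hg : g ∈ φ.range)
    (hl : y ^ l = 1) {e : ℕ} (he : g * y * g⁻¹ = y ^ e) : g ^ k * y * (g ^ k)⁻¹ = y := by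
  haveI := Finite.of_injective _ hι
  haveI : Finite φ.range := Finite.of_surjective _ φ.rangeRestrict_surjective
  have h0 : IsPGroup l (zpowers y) := by
    rintro ⟨_, j, rfl⟩
    exact ⟨1, Subtype.ext (by
      show (y ^ j) ^ l ^ 1 = 1
      rw [pow_one, ← zpow_natCast, ← zpow_mul, mul_comm, zpow_mul, zpow_natCast, hl, one_zpow])⟩
  haveI : Finite (zpowers y) := Finite.of_injective _ (inclusion_injective (zpowers_le.mpr hy))
  obtain ⟨P, -, hP, h1, h2⟩ := frat φ ⊤ h0 (by rwa [← MonoidHom.range_eq_map, zpowers_le])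
  obtain ⟨h, hh, rfl⟩ := h2 g (by rwa [← MonoidHom.range_eq_map]) (by
    refine mem_normalizer_fintype ?_
    rintro _ ⟨j, rfl⟩
    show _ ∈ zpowers y
    rw [← conj_zpow, he]
    exact zpow_mem (pow_mem (mem_zpowers y) e) j)
  obtain ⟨x, hx, rfl⟩ : y ∈ P.map φ := h1 ▸ mem_zpowers y
  have := cent_pow hT hc hreg (hP.map ι) (by rintro _ ⟨z, -, rfl⟩; exact hG z) (hG h)
    (le_normalizer_map ι (mem_map_of_mem ι hh.2)) _ (mem_map_of_mem ι hx)
  rw [← map_pow, ← map_inv, ← map_mul, ← map_mul] at this ⊢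
  rw [hι this]

end odd

theorem two_case
    (hreg : ∀ g ∈ G, (∀ x ∈ T ⊓ G, x ^ 4 = 1 → g⁻¹ * x ^ 2 * g ∈ T) →
      g ∈ normalizer (T : Set Γ) ∧ g ^ 6 ∈ T)
    {P : Subgroup Γ} (hP : IsPGroup 2 P) (hPG : P ≤ G) : ∃ c : Γ, cj c ⁅P, P⁆ ≤ T ⊓ G := by
  set N := G ⊓ normalizer (T : Set Γ) with hN
  have hTN : T ⊓ G ≤ N := le_inf inf_le_right (inf_le_left.trans le_normalizer)
  obtain ⟨S, hS⟩ := exists_isSylowIn (p := 2) (T ⊓ G)
  obtain ⟨P0, hSP, hP0⟩ := exists_isSylowIn_ge hS.isPGroup (hS.le.trans hTN)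
  have hsq : ∀ x ∈ P0, x ^ 2 ∈ T := by
    intro x hx
    have h1 := (hreg x (hP0.le hx).1 fun y hy _ =>
      conj_mem_of_mem_normalizer' (hP0.le hx).2 (pow_mem hy.1 2)).2
    have h2 := mem_zpowers_pow (k := 3) (exists_pow_of_isPGroup hP0.isPGroup (pow_mem hx 2))
      (by norm_num)
    rw [← pow_mul] at h2
    exact zpowers_le.mpr h1 h2
  have hsyl : IsSylowIn 2 P0 G := by
    refine isSylowIn_of_maximal hP0.isPGroup (hP0.le.trans inf_le_left) fun Q hQ hSQ hQG => ?_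
    by_contra hne
    obtain ⟨g, hg, hg'⟩ := SetLike.exists_of_lt
      (lt_inf_normalizer_of_isPGroup hQ (lt_of_le_of_ne hSQ (Ne.symm hne)))
    have h1 := (hreg g (hQG hg.1) fun x hx h => by
      have := hsq _ (conj_mem_of_mem_normalizer' hg.2
        (hSP (mem_syl hT hS hx ⟨2, by simpa using h⟩)))
      convert this using 1
      rw [pow_two, pow_two]; group).1
    exact hg' (zpowers_le.mp (hP0.le_of_le_normalizer
      (isPGroup_zpowers (exists_pow_of_isPGroup hQ hg.1)) (zpowers_le.mpr ⟨hQG hg.1, h1⟩)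
      (zpowers_le.mpr hg.2)))
  obtain ⟨c, -, hc⟩ := hsyl.exists_cj_le hP hPG
  refine ⟨c, ?_⟩
  rw [cj_commutator]
  refine (commutator_mono hc hc).trans (commutator_le.mpr fun a ha b hb => ⟨?_, ?_⟩)
  · have : ⁅a, b⁆ = (a * b) ^ 2 * (b⁻¹ * (a ^ 2)⁻¹ * b) * (b ^ 2)⁻¹ := by
      rw [commutatorElement_def]; simp only [pow_two]; group
    rw [this]
    exact T.mul_mem (T.mul_mem (hsq _ (P0.mul_mem ha hb))
      (conj_mem_of_mem_normalizer' (hP0.le hb).2 (T.inv_mem (hsq a ha)))) (T.inv_mem (hsq b hb))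
  · exact hsyl.le (P0.mul_mem (P0.mul_mem (P0.mul_mem ha hb) (P0.inv_mem ha)) (P0.inv_mem hb))

theorem both_case {l l' k : ℕ} [Fact l.Prime] [Fact l'.Prime] (hc : l.Coprime k) (hc' : l'.Coprime k)
    (hreg : ∀ g ∈ G, (∀ x ∈ T ⊓ G, x ^ l = 1 → g⁻¹ * x * g ∈ T) → g ^ k ∈ T)
    (hreg' : ∀ g ∈ G, (∀ x ∈ T ⊓ G, x ^ l' = 1 → g⁻¹ * x * g ∈ T) → g ^ k ∈ T)
    {P P' : Subgroup Γ} (hP : IsPGroup l P) (hPG : P ≤ G) (hP' : IsPGroup l' P') (hPG' : P' ≤ G)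
    (hn : P' ≤ normalizer (P : Set Γ)) : ∃ c ∈ G, cj c P ≤ T ∧ cj c P' ≤ T := by
  have h1 : P' ≤ centralizer (P : Set Γ) := fun x hx => by
    refine zpowers_le.mpr ?_ (mem_zpowers_pow (exists_pow_of_isPGroup hP' hx) hc')
    refine mem_centralizer_iff.mpr fun y hy => ?_
    exact (mul_inv_eq_iff_eq_mul.mp (cent_pow hT hc hreg hP hPG (hPG' hx) (hn hx) y hy)).symm
  obtain ⟨S, hS⟩ := exists_isSylowIn (p := l) (T ⊓ G)
  obtain ⟨S', hS'⟩ := exists_isSylowIn (p := l') (T ⊓ G)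
  obtain ⟨c, hcG, hle⟩ := (syl_odd hT hc hreg hS).exists_cj_le hP hPG
  have h2 : cj c P ≤ T := hle.trans (hS.le.trans inf_le_left)
  have h3 := (syl_odd hT hc' hreg' hS').of_le (K := G ⊓ centralizer (cj c P : Set Γ))
    (le_inf (hS'.le.trans inf_le_right) fun x hx => mem_centralizer_iff.mpr fun y hy =>
      hT y (h2 hy) x (hS'.le hx).1) inf_le_left
  obtain ⟨c', hc', hle'⟩ := h3.exists_cj_le (isPGroup_cj c hP') (le_inf (cj_le_of_le hcG hPG')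
    (by rw [← cj_centralizer]; exact cj_mono c h1))
  refine ⟨c' * c, mul_mem hc'.1 hcG, ?_, ?_⟩
  · rwa [cj_mul, cj_eq_iff_mem_normalizer.mpr (centralizer_le_normalizer _ hc'.2)]
  · rw [cj_mul]; exact hle'.trans (hS'.le.trans inf_le_left)

omit hT in
lemma rank_two {Y C Q : Type*} [CommGroup Y] [Finite Y] [Group C] [Group Q] {m : C}
    (hC : ∀ c : C, c ^ 2 = 1 → c = 1 ∨ c = m) (ψ : Y →* C × C) (hψ : Function.Injective ψ)
    (φ : Y →* Q) (hφ : ∀ y, φ y ^ 2 = 1) : Nat.card φ.range ≤ 4 := by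
  classical
  rw [← index_ker]
  have h1 : (powMonoidHom 2 : Y →* Y).range ≤ φ.ker := by
    rintro _ ⟨y, rfl⟩
    simpa using hφ y
  refine (Nat.le_of_dvd (Nat.pos_of_ne_zero index_ne_zero_of_finite) (index_dvd_of_le h1)).trans ?_
  rw [index_range]
  have h2 : Function.Injective fun y : (powMonoidHom 2 : Y →* Y).ker =>
      (decide ((ψ y).1 = 1), decide ((ψ y).2 = 1)) := by
    intro a b hab
    simp only [Prod.mk.injEq, decide_eq_decide] at hab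
    have h3 : ∀ y : (powMonoidHom 2 : Y →* Y).ker, (ψ y) ^ 2 = 1 := fun y => by
      rw [← map_pow, show (y : Y) ^ 2 = 1 from y.2, map_one]
    refine Subtype.ext (hψ (Prod.ext ?_ ?_))
    · rcases hC _ (congrArg Prod.fst (h3 a)) with h | h <;>
        rcases hC _ (congrArg Prod.fst (h3 b)) with h' | h' <;> simp_all
    · rcases hC _ (congrArg Prod.snd (h3 a)) with h | h <;>
        rcases hC _ (congrArg Prod.snd (h3 b)) with h' | h' <;> simp_all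
  simpa using Nat.card_le_card_of_injective _ h2

end Cfsg.Agent.H7.Alt
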