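/-
Local obstructions to alternating sections.
-/
import Cfsg.Agent.H7.AltSec

set_option autoImplicit false
set_option linter.unusedSectionVars false

namespace Cfsg.Agent.H7.Alt

open Subgroup H1 Equiv
open scoped commutatorElement

def sw {n : ℕ} (L : List (Fin n × Fin n)) : Perm (Fin n) := (L.map fun x => swap x.1 x.2).prod

lemma sign_sw {n : ℕ} (L : List (Fin n × Fin n)) (h : ∀ x ∈ L, x.1 ≠ x.2) (h2 : Even L.length) :
    Perm.sign (sw L) = 1 := by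
  rw [sw, Perm.sign_prod_list_swap, List.length_map, h2.neg_one_pow]
  intro g hg
  obtain ⟨x, hx, rfl⟩ := List.mem_map.mp hg
  exact ⟨_, _, h x hx, rfl⟩

def BL {α β : Type*} (f : α → β) : Subgroup (Perm α) where
  carrier := {σ | ∀ x y, f (σ x) = f (σ y) ↔ f x = f y}
  mul_mem' {a b} ha hb x y := (ha _ _).trans (hb x y)
  one_mem' _ _ := Iff.rfl
  inv_mem' {a} ha x y := by simpa using (ha (a⁻¹ x) (a⁻¹ y)).symm

lemma BL_step {α β γ : Type*} {f : α → β} {g : α → γ} {σ : Perm α} (h : σ ∈ BL f)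
    (hg : ∀ x, g (σ x) = g x)
    (h2 : ∀ x y z, g y = g x → g z = g y → f y ≠ f x → f z ≠ f y → f z = f x) (x : α) :
    f ((σ * σ) x) = f x := by
  by_cases h1 : f (σ x) = f x
  · exact ((h _ _).mpr h1).trans h1
  · exact h2 x (σ x) (σ (σ x)) (hg x) (hg _) h1 fun e => h1 ((h _ _).mp e)

def S8 : Subgroup (Perm (Fin 8)) :=
  alternatingGroup (Fin 8) ⊓ BL (fun x => x.1 / 2) ⊓ BL (fun x => x.1 / 4)

lemma isPGroup_S8 : IsPGroup 2 S8 := by
  rintro ⟨σ, ⟨-, h2⟩, h4⟩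
  refine ⟨3, Subtype.ext (Equiv.ext fun x => ?_)⟩
  have e1 := BL_step (g := fun _ => ()) h4 (fun _ => rfl) (by decide)
  have e2 := BL_step (g := fun x => x.1 / 4) (mul_mem h2 h2) e1 (by decide)
  have e3 := BL_step (f := id) (g := fun x => x.1 / 2) (σ := σ * σ * (σ * σ)) (fun x y => (Equiv.injective _).eq_iff) e2
    (by decide) x
  show (σ ^ 2 ^ 3) x = x
  rw [show σ ^ 2 ^ 3 = σ * σ * (σ * σ) * (σ * σ * (σ * σ)) by
    simp only [pow_succ, pow_zero, one_mul, mul_assoc, Nat.reducePow, Nat.reduceMul]]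
  exact e3

lemma sw_mem_S8 {L : List (Fin 8 × Fin 8)} (h : (∀ x ∈ L, x.1 ≠ x.2) ∧ Even L.length ∧
    (∀ x y, (sw L x).1 / 2 = (sw L y).1 / 2 ↔ x.1 / 2 = y.1 / 2) ∧
    (∀ x y, (sw L x).1 / 4 = (sw L y).1 / 4 ↔ x.1 / 4 = y.1 / 4)) : sw L ∈ S8 :=
  ⟨⟨sign_sw L h.1 h.2.1, h.2.2.1⟩, h.2.2.2⟩

variable {Γ : Type*} [Group Γ] [Finite Γ] {T G : Subgroup Γ}
  (hT : ∀ x ∈ T, ∀ y ∈ T, x * y = y * x) {H : Type*} [Group H] (ι : H →* Γ)
  (hι : Function.Injective ι) (hG : ∀ x, ι x ∈ G) {r : ℕ} (φ : H →* Perm (Fin r))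
  (hφ : ∀ σ, Perm.sign σ = 1 → σ ∈ φ.range)
include hT hι hG hφ

theorem no_odd {l k n e : ℕ} [Fact l.Prime] (hc : l.Coprime k)
    (hreg : ∀ g ∈ G, (∀ x ∈ T ⊓ G, x ^ l = 1 → g⁻¹ * x * g ∈ T) → g ^ k ∈ T) (hn : n ≤ r)
    (Y L : List (Fin n × Fin n)) (h : ((∀ x ∈ Y, x.1 ≠ x.2) ∧ Even Y.length) ∧
      ((∀ x ∈ L, x.1 ≠ x.2) ∧ Even L.length) ∧ (∀ x, (sw Y)^[l] x = x) ∧
      (∀ x, sw L (sw Y x) = (sw Y)^[e] (sw L x)) ∧
      ¬ ∀ x, (sw L)^[k] (sw Y x) = sw Y ((sw L)^[k] x)) : False := by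
  haveI := Finite.of_injective _ hι
  obtain ⟨H', φ', h'⟩ := restrict hn φ hφ
  obtain ⟨h1, h2, h3, h4, h5⟩ := h
  have := odd_case hT hc hreg (ι.comp H'.subtype) (hι.comp Subtype.val_injective) (fun x => hG x) φ'
    (h' _ (sign_sw Y h1.1 h1.2)) (h' _ (sign_sw L h2.1 h2.2)) (e := e)
    (Equiv.ext fun x => by rw [Perm.coe_pow]; exact h3 x)
    (mul_inv_eq_iff_eq_mul.mpr (Equiv.ext fun x => by
      rw [Perm.mul_apply, Perm.mul_apply, Perm.coe_pow]; exact h4 x))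
  refine h5 fun x => ?_
  have := congrArg (fun σ : Perm (Fin n) => σ x) (mul_inv_eq_iff_eq_mul.mp this)
  simpa only [Perm.mul_apply, Perm.coe_pow] using this

theorem no_five (hreg : ∀ g ∈ G, (∀ x ∈ T ⊓ G, x ^ 5 = 1 → g⁻¹ * x * g ∈ T) → g ^ 6 ∈ T) :
    r ≤ 6 := by
  by_contra hr
  haveI : Fact (Nat.Prime 5) := ⟨by norm_num⟩
  exact no_odd hT ι hι hG φ hφ (n := 7) (e := 2) (by norm_num) hreg (by omega)
    [(0, 4), (0, 3), (0, 2), (0, 1)] [(1, 3), (1, 4), (1, 2), (5, 6)] (by decide +kernel)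

theorem no_seven (hreg : ∀ g ∈ G, (∀ x ∈ T ⊓ G, x ^ 7 = 1 → g⁻¹ * x * g ∈ T) → g ^ 8 ∈ T) :
    r ≤ 6 := by
  by_contra hr
  haveI : Fact (Nat.Prime 7) := ⟨by norm_num⟩
  exact no_odd hT ι hι hG φ hφ (n := 7) (e := 2) (by norm_num) hreg (by omega)
    [(0, 6), (0, 5), (0, 4), (0, 3), (0, 2), (0, 1)] [(1, 4), (1, 2), (3, 5), (3, 6)]
    (by decide +kernel)

theorem no_eleven (hreg : ∀ g ∈ G, (∀ x ∈ T ⊓ G, x ^ 11 = 1 → g⁻¹ * x * g ∈ T) → g ^ 24 ∈ T) :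
    r ≤ 10 := by
  by_contra hr
  haveI : Fact (Nat.Prime 11) := ⟨by norm_num⟩
  exact no_odd hT ι hι hG φ hφ (n := 11) (e := 3) (by norm_num) hreg (by omega)
    [(0, 10), (0, 9), (0, 8), (0, 7), (0, 6), (0, 5), (0, 4), (0, 3), (0, 2), (0, 1)]
    [(1, 4), (1, 5), (1, 9), (1, 3), (2, 8), (2, 10), (2, 7), (2, 6)] (by decide +kernel)

theorem no_eight (hreg : ∀ g ∈ G, (∀ x ∈ T ⊓ G, x ^ 4 = 1 → g⁻¹ * x ^ 2 * g ∈ T) →
      g ∈ normalizer (T : Set Γ) ∧ g ^ 6 ∈ T) {A C : Type*} [CommGroup A] [Group C] [Finite C]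
    (D : A →* Γ) (hD : T = D.range) (ψ : A →* C × C) (hψ : ∀ a, D a ∈ G → ψ a = 1 → a = 1)
    {m : C} (hC : ∀ c : C, c ^ 2 = 1 → c = 1 ∨ c = m) : r ≤ 7 := by
  by_contra hr
  haveI := Finite.of_injective _ hι
  obtain ⟨H', φ', h'⟩ := restrict (show 8 ≤ r by omega) φ hφ
  obtain ⟨P, -, hP, h1, -⟩ := frat φ' ⊤ isPGroup_S8 (fun σ hσ => by
    rw [← MonoidHom.range_eq_map]; exact h' σ hσ.1.1)
  set j := ι.comp H'.subtype
  have hj : Function.Injective j := hι.comp Subtype.val_injective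
  obtain ⟨c, hc⟩ := two_case hT hreg (hP.map j) (by rintro _ ⟨x, -, rfl⟩; exact hG x)
  rw [← map_commutator] at hc
  let Y := (cj c (⁅P, P⁆.map j)).comap D
  have hY : Function.Injective (ψ.comp Y.subtype) := (injective_iff_map_eq_one _).mpr fun a ha =>
    Subtype.ext (hψ a (hc a.2).2 ha)
  haveI := Finite.of_injective _ hY
  let κ : Y →* H' := (MonoidHom.ofInjective hj).symm.toMonoidHom.comp
    (((MulAut.conj c⁻¹).toMonoidHom.comp (D.comp Y.subtype)).codRestrict j.range fun y => by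
      obtain ⟨x, -, e⟩ := mem_cj.mp y.2
      exact ⟨x, by simpa using e⟩)
  let Y0 := ((φ'.comp κ).comp (powMonoidHom 2)).ker
  have h2 := rank_two hC ((ψ.comp Y.subtype).comp Y0.subtype) (hY.comp Subtype.val_injective)
    ((φ'.comp κ).comp Y0.subtype) fun y => by
      have := y.2
      rwa [MonoidHom.mem_ker, MonoidHom.comp_apply, powMonoidHom_apply, map_pow] at this
  have h3 : ∀ σ ∈ ⁅S8, S8⁆, σ ^ 2 = 1 → σ ∈ ((φ'.comp κ).comp Y0.subtype).range := by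
    intro σ hσ h
    rw [← h1, ← map_commutator] at hσ
    obtain ⟨x, hx, rfl⟩ := hσ
    have h4 := conj_mem_cj (g := c) (mem_map_of_mem j hx)
    obtain ⟨a, ha⟩ : c * j x * c⁻¹ ∈ D.range := hD ▸ (hc h4).1
    have h5 : a ∈ Y := by rw [mem_comap, ha]; exact h4
    have h6 : κ ⟨a, h5⟩ = x := by
      simp only [κ, MonoidHom.comp_apply, MulEquiv.toMonoidHom_eq_coe, MonoidHom.coe_coe,
        MulEquiv.symm_apply_eq]
      refine Subtype.ext ?_
      show c⁻¹ * D a * c⁻¹⁻¹ = j x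
      rw [ha]; group
    refine ⟨⟨⟨a, h5⟩, ?_⟩, by simp [h6]⟩
    rw [MonoidHom.mem_ker, MonoidHom.comp_apply, powMonoidHom_apply, map_pow, MonoidHom.comp_apply,
      h6, h]
  let a : Perm (Fin 8) := sw [(0, 2), (1, 3)]
  let b : Perm (Fin 8) := sw [(4, 6), (5, 7)]
  let s : Perm (Fin 8) := sw [(0, 1), (4, 5)]
  let t : Perm (Fin 8) := sw [(0, 4), (1, 5), (2, 6), (3, 7)]
  have ha : a ∈ S8 := sw_mem_S8 (by decide +kernel)
  have hb : b ∈ S8 := sw_mem_S8 (by decide +kernel)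
  have hs : s ∈ S8 := sw_mem_S8 (by decide +kernel)
  have ht : t ∈ S8 := sw_mem_S8 (by decide +kernel)
  let f : Fin 5 → Perm (Fin 8) := ![1, ⁅a, s⁆, ⁅b, s⁆, ⁅a, s⁆ * ⁅b, s⁆, ⁅a, t⁆]
  have hf : ∀ i, f i ∈ ⁅S8, S8⁆ := by
    intro i
    fin_cases i
    exacts [one_mem _, commutator_mem_commutator ha hs, commutator_mem_commutator hb hs,
      mul_mem (commutator_mem_commutator ha hs) (commutator_mem_commutator hb hs),
      commutator_mem_commutator ha ht]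
  have hf2 : ∀ i x, f i (f i x) = x := by decide +kernel
  have hf3 : ∀ i j, f i 0 = f j 0 → f i 4 = f j 4 → i = j := by decide +kernel
  have h4 : Function.Injective fun i : Fin 5 => (⟨f i, h3 _ (hf i) (by
      rw [pow_two]; exact Equiv.ext (hf2 i))⟩ : ((φ'.comp κ).comp Y0.subtype).range) := by
    intro i j hij
    have : f i = f j := congrArg Subtype.val hij
    exact hf3 i j (by rw [this]) (by rw [this])
  have := Nat.card_le_card_of_injective _ h4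
  simp only [Nat.card_eq_fintype_card, Fintype.card_fin] at this h2
  omega

theorem no_twelve (hreg : ∀ g ∈ G, (∀ x ∈ T ⊓ G, x ^ 5 = 1 → g⁻¹ * x * g ∈ T) → g ^ 24 ∈ T)
    (hreg' : ∀ g ∈ G, (∀ x ∈ T ⊓ G, x ^ 7 = 1 → g⁻¹ * x * g ∈ T) → g ^ 24 ∈ T)
    (hfus : ∀ g ∈ G, ∃ n : Γ, (∀ x ∈ T, g * x * g⁻¹ ∈ T → g * x * g⁻¹ = n * x * n⁻¹) ∧
      (n ^ 6 ∈ T ∨ (∀ x ∈ T, n ^ 6 * x * (n ^ 6)⁻¹ = x⁻¹) ∨ n ^ 8 ∈ T)) : r ≤ 11 := by
  by_contra hr
  haveI := Finite.of_injective _ hι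
  haveI : Fact (Nat.Prime 5) := ⟨by norm_num⟩
  haveI : Fact (Nat.Prime 7) := ⟨by norm_num⟩
  obtain ⟨H', φ', h'⟩ := restrict (show 12 ≤ r by omega) φ hφ
  set j := ι.comp H'.subtype
  have hj : Function.Injective j := hι.comp Subtype.val_injective
  let y : Perm (Fin 12) := sw [(0, 4), (0, 3), (0, 2), (0, 1)]
  let z : Perm (Fin 12) := sw [(5, 11), (5, 10), (5, 9), (5, 8), (5, 7), (5, 6)]
  let g : Perm (Fin 12) := sw [(1, 3), (1, 4), (1, 2), (6, 10), (6, 9), (6, 11), (6, 7), (6, 8)]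
  have hy : y ∈ (⊤ : Subgroup H').map φ' := by
    rw [← MonoidHom.range_eq_map]; exact h' _ (sign_sw _ (by decide +kernel) (by decide +kernel))
  have hz : z ∈ (⊤ : Subgroup H').map φ' := by
    rw [← MonoidHom.range_eq_map]; exact h' _ (sign_sw _ (by decide +kernel) (by decide +kernel))
  have hg : g ∈ (⊤ : Subgroup H').map φ' := by
    rw [← MonoidHom.range_eq_map]; exact h' _ (sign_sw _ (by decide +kernel) (by decide +kernel))
  have nz : ∀ (a b : Perm (Fin 12)) (e : ℕ), (∀ x, a (b x) = b^[e] (a x)) →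
      a ∈ normalizer (zpowers b : Set (Perm (Fin 12))) := by
    intro a b e h
    have he : a * b * a⁻¹ = b ^ e := mul_inv_eq_iff_eq_mul.mpr (Equiv.ext fun x => by
      rw [Perm.mul_apply, Perm.mul_apply, Perm.coe_pow]; exact h x)
    refine mem_normalizer_of_conj_mem ?_
    rintro _ ⟨k, rfl⟩
    rw [← conj_zpow, he]
    exact zpow_mem (pow_mem (mem_zpowers b) e) k
  have pg : ∀ (b : Perm (Fin 12)) (l : ℕ), (∀ x, b^[l] x = x) → IsPGroup l (zpowers b) :=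
    fun b l h => isPGroup_zpowers ⟨1, Equiv.ext fun x => by rw [pow_one, Perm.coe_pow]; exact h x⟩
  obtain ⟨P, -, hP, h1, h2⟩ := frat φ' ⊤ (pg y 5 (by decide +kernel)) (zpowers_le.mpr hy)
  obtain ⟨P', hP0, hP', h1', h2'⟩ := frat φ' (⊤ ⊓ normalizer (P : Set H')) (pg z 7 (by decide +kernel))
    (zpowers_le.mpr (h2 z hz (nz z y 1 (by decide +kernel))))
  obtain ⟨h, hh, e⟩ := h2' g (h2 g hg (nz g y 2 (by decide +kernel))) (nz g z 3 (by decide +kernel))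
  have hjG : ∀ Q : Subgroup H', Q.map j ≤ G := by rintro Q _ ⟨x, -, rfl⟩; exact hG x
  obtain ⟨c, hcG, hc, hc'⟩ := both_case hT (by norm_num) (by norm_num) hreg hreg' (hP.map j) (hjG P)
    (hP'.map j) (hjG P') ((map_mono (hP0.trans inf_le_right)).trans (le_normalizer_map j))
  obtain ⟨n, hn, hn'⟩ := hfus (c * j h * c⁻¹) (mul_mem (mul_mem hcG (hG h)) (inv_mem hcG))
  have key : ∀ Q : Subgroup H', h ∈ normalizer (Q : Set H') → cj c (Q.map j) ≤ T → ∀ x ∈ Q,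
      c * j x * c⁻¹ ∈ T ∧ ∀ k : ℕ, c * j (h ^ k * x * (h ^ k)⁻¹) * c⁻¹ =
        n ^ k * (c * j x * c⁻¹) * (n ^ k)⁻¹ := by
    intro Q hQ hQT x hx
    have h3 : c * j h * c⁻¹ ∈ normalizer (cj c (Q.map j) : Set Γ) := by
      rw [← cj_normalizer]
      exact conj_mem_cj (le_normalizer_map j (mem_map_of_mem j hQ))
    have h4 := conj_mem_cj (g := c) (mem_map_of_mem j hx)
    refine ⟨hQT h4, fun k => ?_⟩
    rw [← conj_pow_eq h3 (fun y hy => hn y (hQT hy) (hQT (conj_mem_of_mem_normalizer h3 hy))) k _ h4,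
      conj_pow, map_mul, map_mul, map_inv, map_pow]
    group
  obtain ⟨x, hx, ex⟩ : y ∈ P.map φ' := h1 ▸ mem_zpowers y
  obtain ⟨x', hx', ex'⟩ : z ∈ P'.map φ' := h1' ▸ mem_zpowers z
  obtain ⟨k1, k2⟩ := key P hh.1.2 hc x hx
  obtain ⟨k3, k4⟩ := key P' hh.2 hc' x' hx'
  have fin : ∀ (k : ℕ) (a b : H'), c * j (h ^ k * a * (h ^ k)⁻¹) * c⁻¹ = c * j b * c⁻¹ →
      ∀ i, g^[k] (φ' a i) = φ' b (g^[k] i) := by
    intro k a b hab i
    have h3 := congrArg φ' (hj (mul_left_cancel (mul_right_cancel hab)))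
    rw [map_mul, map_mul, map_inv, map_pow, e, mul_inv_eq_iff_eq_mul] at h3
    have := congrArg (fun σ : Perm (Fin 12) => σ i) h3
    simpa only [Perm.mul_apply, Perm.coe_pow] using this
  rcases hn' with h5 | h5 | h5
  · have := fin 6 x x (by rw [k2, hT _ h5 _ k1, mul_inv_cancel_right])
    rw [ex] at this
    exact absurd this (by decide +kernel)
  · have := fin 6 x' x'⁻¹ (by rw [k4, h5 _ k3, map_inv]; group)
    rw [map_inv, ex'] at this
    exact absurd this (by decide +kernel)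
  · have := fin 8 x' x' (by rw [k4, hT _ h5 _ k3, mul_inv_cancel_right])
    rw [ex'] at this
    exact absurd this (by decide +kernel)

end Cfsg.Agent.H7.Alt
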