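/-
Finite checks in the automorphism groups of the root systems F4 and D4.
-/
import Cfsg.Agent.H9.ChevChk

set_option autoImplicit false
set_option maxRecDepth 100000

namespace Cfsg.Agent.H7.Alt

open Cfsg.Agent.H4 Cfsg.Agent.H9.Chev

structure V4 where
  a : ℤ
  b : ℤ
  c : ℤ
  d : ℤ
deriving DecidableEq

structure M4 where
  a : V4
  b : V4
  c : V4
  d : V4

noncomputable def dot (a b c d : ℤ) (v : V4) : ℤ :=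
  Int.add (Int.add (Int.mul a v.a) (Int.mul b v.b)) (Int.add (Int.mul c v.c) (Int.mul d v.d))

noncomputable def ap (M : M4) (v : V4) : V4 :=
  ⟨dot M.a.a M.b.a M.c.a M.d.a v, dot M.a.b M.b.b M.c.b M.d.b v, dot M.a.c M.b.c M.c.c M.d.c v,
    dot M.a.d M.b.d M.c.d M.d.d v⟩

noncomputable def fV (v : V4) (k : V4 → Bool) : Bool :=
  frcI v.a fun a => frcI v.b fun b => frcI v.c fun c => frcI v.d fun d => k ⟨a, b, c, d⟩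

@[simp] theorem fV_eq (v : V4) (k : V4 → Bool) : fV v k = k v := by simp [fV]

noncomputable def mul (M N : M4) (k : M4 → Bool) : Bool :=
  fV (ap M N.a) fun a => fV (ap M N.b) fun b => fV (ap M N.c) fun c => fV (ap M N.d) fun d =>
    k ⟨a, b, c, d⟩

noncomputable def eqV (v : V4) (a b c d : ℤ) : Bool :=
  ite' (zI (Int.sub v.a a)) (ite' (zI (Int.sub v.b b)) (ite' (zI (Int.sub v.c c))
    (zI (Int.sub v.d d)) false) false) false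

noncomputable def isS (M : M4) (s : ℤ) : Bool :=
  ite' (eqV M.a s 0 0 0) (ite' (eqV M.b 0 s 0 0) (ite' (eqV M.c 0 0 s 0) (eqV M.d 0 0 0 s) false)
    false) false

noncomputable def bt (G : M4) (v w : V4) (x : ℤ) : Bool :=
  fV (ap G v) fun u => zI (Int.sub (dot u.a u.b u.c u.d w) x)

noncomputable def pw6 (M : M4) : Bool :=
  mul M M fun M2 => mul M2 M2 fun M4 => mul M4 M2 fun M6 => isS M6 1

noncomputable def pw8 (M : M4) : Bool :=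
  mul M M fun M2 => mul M2 M2 fun M4 => mul M4 M4 fun M8 => isS M8 1

noncomputable def pw68 (M : M4) : Bool :=
  mul M M fun M2 => mul M2 M2 fun M4 => mul M4 M2 fun M6 =>
    ite' (isS M6 1) true (ite' (isS M6 (-1)) true (mul M4 M4 fun M8 => isS M8 1))

def RF : List V4 := [⟨-2, -4, -3, -2⟩, ⟨-2, -4, -3, -1⟩, ⟨-2, -4, -2, -1⟩, ⟨-2, -3, -2, -1⟩,
  ⟨-2, -2, -2, -1⟩, ⟨-2, -2, -1, -1⟩, ⟨-2, -2, -1, 0⟩, ⟨-1, -3, -2, -1⟩, ⟨-1, -2, -2, -1⟩,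
  ⟨-1, -2, -1, -1⟩, ⟨-1, -2, -1, 0⟩, ⟨-1, -1, -1, -1⟩, ⟨-1, -1, -1, 0⟩, ⟨-1, -1, 0, 0⟩,
  ⟨-1, 0, 0, 0⟩, ⟨0, -2, -2, -1⟩, ⟨0, -2, -1, -1⟩, ⟨0, -2, -1, 0⟩, ⟨0, -1, -1, -1⟩, ⟨0, -1, -1, 0⟩,
  ⟨0, -1, 0, 0⟩, ⟨0, 0, -1, -1⟩, ⟨0, 0, -1, 0⟩, ⟨0, 0, 0, -1⟩, ⟨0, 0, 0, 1⟩, ⟨0, 0, 1, 0⟩,
  ⟨0, 0, 1, 1⟩, ⟨0, 1, 0, 0⟩, ⟨0, 1, 1, 0⟩, ⟨0, 1, 1, 1⟩, ⟨0, 2, 1, 0⟩, ⟨0, 2, 1, 1⟩, ⟨0, 2, 2, 1⟩,
  ⟨1, 0, 0, 0⟩, ⟨1, 1, 0, 0⟩, ⟨1, 1, 1, 0⟩, ⟨1, 1, 1, 1⟩, ⟨1, 2, 1, 0⟩, ⟨1, 2, 1, 1⟩, ⟨1, 2, 2, 1⟩,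
  ⟨1, 3, 2, 1⟩, ⟨2, 2, 1, 0⟩, ⟨2, 2, 1, 1⟩, ⟨2, 2, 2, 1⟩, ⟨2, 3, 2, 1⟩, ⟨2, 4, 2, 1⟩, ⟨2, 4, 3, 1⟩,
  ⟨2, 4, 3, 2⟩]

def RD : List V4 := [⟨-1, -2, -1, -1⟩, ⟨-1, -1, -1, -1⟩, ⟨-1, -1, -1, 0⟩, ⟨-1, -1, 0, -1⟩,
  ⟨-1, -1, 0, 0⟩, ⟨-1, 0, 0, 0⟩, ⟨0, -1, -1, -1⟩, ⟨0, -1, -1, 0⟩, ⟨0, -1, 0, -1⟩, ⟨0, -1, 0, 0⟩,
  ⟨0, 0, -1, 0⟩, ⟨0, 0, 0, -1⟩, ⟨0, 0, 0, 1⟩, ⟨0, 0, 1, 0⟩, ⟨0, 1, 0, 0⟩, ⟨0, 1, 0, 1⟩,
  ⟨0, 1, 1, 0⟩, ⟨0, 1, 1, 1⟩, ⟨1, 0, 0, 0⟩, ⟨1, 1, 0, 0⟩, ⟨1, 1, 0, 1⟩, ⟨1, 1, 1, 0⟩, ⟨1, 1, 1, 1⟩,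
  ⟨1, 2, 1, 1⟩]

def GF : M4 := ⟨⟨2, -1, 0, 0⟩, ⟨-1, 2, -2, 0⟩, ⟨0, -2, 4, -2⟩, ⟨0, 0, -2, 4⟩⟩
def GD : M4 := ⟨⟨2, -1, 0, 0⟩, ⟨-1, 2, -1, -1⟩, ⟨0, -1, 2, 0⟩, ⟨0, -1, 0, 2⟩⟩

def tD (v : V4) : V4 := ⟨v.d, v.b, v.a, v.c⟩
def tF (v : V4) : V4 := ⟨2 * v.d, 2 * v.c, v.b, v.a⟩

noncomputable def imp (a b : Bool) : Bool := ite' a b true

theorem chkF : allL RF (fun r1 => imp (bt GF r1 r1 2) (allL RF fun r2 =>
    imp (bt GF r1 r2 (-1)) (imp (bt GF r2 r2 2) (allL RF fun r3 => imp (bt GF r2 r3 (-2))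
    (imp (bt GF r1 r3 0) (allL RF fun r4 => imp (bt GF r3 r4 (-2)) (imp (bt GF r2 r4 0)
    (imp (bt GF r1 r4 0) (pw68 ⟨r1, r2, r3, r4⟩)))))))) ) = true := by
  decide +kernel

theorem chkF2 : allL RF (fun r1 => imp (bt GF r1 r1 2) (allL RF fun r2 =>
    imp (bt GF r1 r2 (-1)) (imp (bt GF r2 r2 2) (imp (bt GF r2 (tF r2) (-2))
    (imp (bt GF r1 (tF r2) 0) (imp (bt GF r1 (tF r1) 0) (pw8 ⟨r1, r2, tF r2, tF r1⟩))))))) = true := by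
  decide +kernel

theorem chkD : allL RD (fun r1 => allL RD fun r2 =>
    imp (bt GD r1 r2 (-1)) (imp (bt GD r1 (tD r1) 0) (imp (bt GD (tD r1) r2 (-1))
    (imp (bt GD (tD (tD r1)) r2 (-1)) (pw6 ⟨r1, r2, tD r1, tD (tD r1)⟩))))) = true := by
  decide +kernel

abbrev Λ := Fin 4 → ℤ

def tv (v : Λ) : V4 := ⟨v 0, v 1, v 2, v 3⟩

lemma tv_inj {v w : Λ} (h : tv v = tv w) : v = w := by
  simp only [tv, V4.mk.injEq] at h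
  funext i; fin_cases i
  exacts [h.1, h.2.1, h.2.2.1, h.2.2.2]

def mat (W : AddMonoid.End Λ) : M4 :=
  ⟨tv (W (Pi.single 0 1)), tv (W (Pi.single 1 1)), tv (W (Pi.single 2 1)), tv (W (Pi.single 3 1))⟩

lemma apply_eq (W : AddMonoid.End Λ) (v : Λ) : W v = v 0 • W (Pi.single 0 1) +
    v 1 • W (Pi.single 1 1) + v 2 • W (Pi.single 2 1) + v 3 • W (Pi.single 3 1) := by
  simp only [← map_zsmul, ← map_add]
  congr 1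
  funext i; fin_cases i <;> simp

lemma ap_mat (W : AddMonoid.End Λ) (v : Λ) : ap (mat W) (tv v) = tv (W v) := by
  rw [apply_eq W v]
  simp only [ap, mat, tv, dot, Int.add_def, Int.mul_def, Pi.add_apply, Pi.smul_apply, smul_eq_mul,
    V4.mk.injEq]
  refine ⟨?_, ?_, ?_, ?_⟩ <;> ring

lemma mul_mat (W W' : AddMonoid.End Λ) (k : M4 → Bool) :
    mul (mat W) (mat W') k = k (mat (W * W')) := by
  simp only [mul, fV_eq]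
  congr 1
  simp only [mat.eq_1 W', ap_mat]
  rfl

lemma isub_eq_zero {a b : ℤ} : Int.sub a b = 0 ↔ a = b := sub_eq_zero (a := a)

lemma eqV_iff {v : V4} {a b c d : ℤ} : eqV v a b c d = true ↔ v = ⟨a, b, c, d⟩ := by
  cases v
  simp [eqV, zI_iff, isub_eq_zero]

lemma of_isS {W : AddMonoid.End Λ} {s : ℤ} (h : isS (mat W) s = true) (v : Λ) : W v = s • v := by
  simp only [isS, ite'_eq, Bool.if_false_right, Bool.and_eq_true, eqV_iff, decide_eq_true_eq,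
    mat] at h
  obtain ⟨h0, h1, h2, h3⟩ := h
  rw [apply_eq W v, tv_inj (w := Pi.single 0 s) h0, tv_inj (w := Pi.single 1 s) h1,
    tv_inj (w := Pi.single 2 s) h2, tv_inj (w := Pi.single 3 s) h3]
  funext i; fin_cases i <;> simp [mul_comm]

lemma of_pw6 {W : AddMonoid.End Λ} (h : pw6 (mat W) = true) : W ^ 6 = 1 := by
  simp only [pw6, mul_mat] at h
  ext1 v
  rw [show W ^ 6 = W * W * (W * W) * (W * W) by noncomm_ring, of_isS h, one_smul]; rfl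

lemma of_pw8 {W : AddMonoid.End Λ} (h : pw8 (mat W) = true) : W ^ 8 = 1 := by
  simp only [pw8, mul_mat] at h
  ext1 v
  rw [show W ^ 8 = W * W * (W * W) * (W * W * (W * W)) by noncomm_ring, of_isS h, one_smul]; rfl

lemma of_pw68 {W : AddMonoid.End Λ} (h : pw68 (mat W) = true) :
    W ^ 6 = 1 ∨ W ^ 6 = -1 ∨ W ^ 8 = 1 := by
  simp only [pw68, mul_mat, ite'_eq, Bool.if_true_left, Bool.or_eq_true, decide_eq_true_eq] at h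
  rcases h with h | h | h
  · left; ext1 v
    rw [show W ^ 6 = W * W * (W * W) * (W * W) by noncomm_ring, of_isS h, one_smul]; rfl
  · right; left; ext1 v
    rw [show W ^ 6 = W * W * (W * W) * (W * W) by noncomm_ring, of_isS h, neg_one_smul]; rfl
  · right; right; ext1 v
    rw [show W ^ 8 = W * W * (W * W) * (W * W * (W * W)) by noncomm_ring, of_isS h, one_smul]; rfl

lemma imp_iff {a b : Bool} : imp a b = true ↔ (a = true → b = true) := by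
  cases a <;> simp [imp]

noncomputable def bf (G : M4) (v w : V4) : ℤ :=
  dot (ap G v).a (ap G v).b (ap G v).c (ap G v).d w

lemma bt_iff {G : M4} {v w : V4} {x : ℤ} : bt G v w x = true ↔ bf G v w = x := by
  simp [bt, bf, zI_iff, isub_eq_zero]

theorem weylF {W : AddMonoid.End Λ} (h1 : ∀ i, tv (W (Pi.single i 1)) ∈ RF)
    (h2 : ∀ v w, bf GF (tv (W v)) (tv (W w)) = bf GF (tv v) (tv w)) :
    W ^ 6 = 1 ∨ W ^ 6 = -1 ∨ W ^ 8 = 1 := by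
  have := chkF
  simp only [allL_iff, imp_iff, bt_iff] at this
  refine of_pw68 (this _ (h1 0) ?_ _ (h1 1) ?_ ?_ _ (h1 2) ?_ ?_ _ (h1 3) ?_ ?_ ?_) <;>
    rw [h2] <;> decide +kernel

theorem weylF2 {W : AddMonoid.End Λ} (h1 : ∀ i, tv (W (Pi.single i 1)) ∈ RF)
    (h2 : ∀ v w, bf GF (tv (W v)) (tv (W w)) = bf GF (tv v) (tv w))
    (h3 : tv (W (Pi.single 2 1)) = tF (tv (W (Pi.single 1 1))))
    (h4 : tv (W (Pi.single 3 1)) = tF (tv (W (Pi.single 0 1)))) : W ^ 8 = 1 := by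
  have := chkF2
  simp only [allL_iff, imp_iff, bt_iff] at this
  replace this := this _ (h1 0) (by rw [h2]; decide +kernel) _ (h1 1)
  rw [← h3, ← h4] at this
  refine of_pw8 (this ?_ ?_ ?_ ?_ ?_) <;> rw [h2] <;> decide +kernel

theorem weylD {W : AddMonoid.End Λ} (h1 : ∀ i, tv (W (Pi.single i 1)) ∈ RD)
    (h2 : ∀ v w, bf GD (tv (W v)) (tv (W w)) = bf GD (tv v) (tv w))
    (h3 : tv (W (Pi.single 2 1)) = tD (tv (W (Pi.single 0 1))))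
    (h4 : tv (W (Pi.single 3 1)) = tD (tv (W (Pi.single 2 1)))) : W ^ 6 = 1 := by
  have := chkD
  simp only [allL_iff, imp_iff, bt_iff] at this
  replace this := this _ (h1 0) _ (h1 1)
  rw [← h3, ← h4] at this
  refine of_pw6 (this ?_ ?_ ?_ ?_) <;> rw [h2] <;> decide +kernel

end Cfsg.Agent.H7.Alt
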