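/-
Alternating sections of F4(q).
-/
import Cfsg.Agent.H7.AltPerm
import Cfsg.Agent.H7.AltLie
import Cfsg.Agent.H7.AltW
import Cfsg.Agent.H9.ChevF4

set_option autoImplicit false
set_option linter.unusedSectionVars false

namespace Cfsg.Agent.H7.Alt

open Subgroup Cfsg.Agent.H9.Chev Dat Cfsg.Lie

universe u

lemma exists_ext (F : Type u) [Field F] [Finite F] (n : ℕ) (hn : (n : F) ≠ 0) :
    ∃ (F' : Type u) (_ : Field F') (_ : Finite F') (_ : F →+* F') (ζ : F'ˣ), orderOf ζ = n := by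
  haveI : NeZero (n : F) := ⟨hn⟩
  have h0 : n ≠ 0 := by rintro rfl; simp at hn
  haveI : NeZero n := ⟨h0⟩
  haveI := IsCyclotomicExtension.finite {n} F (CyclotomicField n F)
  obtain ⟨ζ, hζ⟩ := IsCyclotomicExtension.exists_isPrimitiveRoot (S := {n}) F (CyclotomicField n F)
    (Set.mem_singleton n) h0
  refine ⟨CyclotomicField n F, inferInstance, Module.finite_of_finite F, algebraMap _ _,
    (hζ.isUnit h0).unit, ?_⟩
  rw [← orderOf_units, IsUnit.unit_spec]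
  exact hζ.eq_orderOf.symm

lemma glmap_inj {I F F' : Type*} [Fintype I] [DecidableEq I] [Field F] [Field F'] (σ : F →+* F') :
    Function.Injective (Matrix.GeneralLinearGroup.map (n := I) σ) := fun a b h =>
  Units.ext (Matrix.map_injective σ.injective (congrArg Units.val h))

section gen
variable {I Φ : Type} [Fintype I] [DecidableEq I] {l : ℕ} {F : Type*} [Field F] {d : Dat I Φ l F}

lemma D_pc_pow (f : (Fin l → ℤ) →+ ℤ) {ζ : Fˣ} {n : ℕ} (h : ζ ^ n = 1) : d.D (pc f ζ) ^ n = 1 := by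
  rw [← map_pow, ← map_one d.D]
  congr 1
  ext v
  rw [AddChar.pow_apply, pc_apply, ← zpow_natCast, ← zpow_mul, mul_comm, zpow_mul, zpow_natCast, h]
  simp

lemma T_le_GH : d.T ≤ GH d := le_sup_right

end gen

lemma map_mem_GH {D : ChevalleyDatum} {P : Pk} (h : Good D P) {F F' : Type*} [Field F] [Field F']
    (σ : F →+* F') {g : GL D.Idx F} (hg : g ∈ D.group F) :
    Matrix.GeneralLinearGroup.map σ g ∈ GH (h.dat F') := by
  rw [h.group_eq] at hg
  refine mem_sup_left (US_le (H := ((h.dat F').US Set.univ).comap (Matrix.GeneralLinearGroup.map σ))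
    (fun r _ t => ?_) hg)
  rw [mem_comap, h.map_x]
  exact x_mem_US (Set.mem_univ _) _

variable (F : Type*) [Field F]

noncomputable def dF : Dat chevF4.Idx (Fin 48) 4 F := goodF4.dat F

lemma axF : (dF F).Ax := goodF4.ax F

lemma rtF : (dF F).rt = (dF ℚ).rt := rfl

lemma rt_RF (r : Fin 48) : tv ((dF F).rt r) ∈ RF :=
  (by decide +kernel : ∀ r, tv ((dF ℚ).rt r) ∈ RF) r

lemma A_F : (dF F).A = ![![2, -1, 0, 0], ![-1, 2, -2, 0], ![0, -1, 2, -1], ![0, 0, -1, 2]] :=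
  (by decide +kernel : (dF ℚ).A = _)

variable {F}

lemma WL_RF (L : List (Fin 4)) (i : Fin 4) : tv (WL (dF F) L (Pi.single i 1)) ∈ RF := by
  rw [← (axF F).rt_sm, ← rt_ww (axF F)]
  exact rt_RF F _

lemma WL_GF (L : List (Fin 4)) (v w : Λ) :
    bf GF (tv (WL (dF F) L v)) (tv (WL (dF F) L w)) = bf GF (tv v) (tv w) := by
  refine WL_inv (β := fun v w => bf GF (tv v) (tv w)) (fun p v w => ?_) L v w
  simp only [W_apply, pr, A_F, bf, dot, ap, GF, tv, Int.add_def, Int.mul_def]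
  fin_cases p <;> simp [Fin.sum_univ_four] <;> ring

lemma weylF' (L : List (Fin 4)) :
    WL (dF F) L ^ 6 = 1 ∨ WL (dF F) L ^ 6 = -1 ∨ WL (dF F) L ^ 8 = 1 :=
  weylF (WL_RF L) (WL_GF L)

lemma pow24 {R : Type*} [Ring R] {W : R} (h : W ^ 6 = 1 ∨ W ^ 6 = -1 ∨ W ^ 8 = 1) : W ^ 24 = 1 := by
  rcases h with h | h | h
  · rw [show 24 = 6 * 4 by norm_num, pow_mul, h, one_pow]
  · rw [show 24 = 6 * 4 by norm_num, pow_mul, h]; exact Even.neg_one_pow (by decide)
  · rw [show 24 = 8 * 3 by norm_num, pow_mul, h, one_pow]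

lemma regF {ζ : Fˣ} {l : ℕ} (hζ : orderOf ζ = l) (hl : 5 ≤ l) : ∀ g ∈ GH (dF F),
    (∀ x ∈ (dF F).T ⊓ GH (dF F), x ^ l = 1 → g⁻¹ * x * g ∈ (dF F).T) → g ^ 24 ∈ (dF F).T := by
  intro g hg H
  obtain ⟨t, ht, L, rfl⟩ := reg_main (axF F) hg fun r => by
    obtain ⟨j, h1, h2⟩ := (by decide +kernel : ∀ r, ∃ j, (dF ℚ).rt r j ≠ 0 ∧
      ((dF ℚ).rt r j).natAbs ≤ 4) r
    refine ⟨pc (co j) ζ, fun h => ?_, H _ ⟨D_mem _, T_le_GH (D_mem _)⟩
      (D_pc_pow _ (hζ ▸ pow_orderOf_eq_one ζ))⟩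
    rw [pc_apply, ← orderOf_dvd_iff_zpow_eq_one, hζ, Int.natCast_dvd] at h
    have := Nat.le_of_dvd (Int.natAbs_pos.mpr h1) h
    omega
  exact mul_pow_mem (axF F) ht (nw_norm (axF F) L) (nw_pow_mem (axF F) (pow24 (weylF' L)))

theorem main_F4 [Finite F] (p : ℕ) [Fact p.Prime] [CharP F p] {H : Type*} [Group H]
    (ι : H →* chevF4.group F) (hι : Function.Injective ι) {r : ℕ} (φ : H →* Equiv.Perm (Fin r))
    (hφ : ∀ σ, Equiv.Perm.sign σ = 1 → σ ∈ φ.range) : r ≤ 10 + (if p = 11 then 1 else 0) := by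
  have key : ∀ {F' : Type _} [Field F'] (σ : F →+* F'), Function.Injective
      ((Matrix.GeneralLinearGroup.map σ).comp ((chevF4.group F).subtype.comp ι)) ∧
      ∀ x, ((Matrix.GeneralLinearGroup.map σ).comp ((chevF4.group F).subtype.comp ι)) x ∈
        GH (dF F') := fun σ =>
    ⟨(glmap_inj σ).comp (Subtype.val_injective.comp hι), fun x => map_mem_GH goodF4 σ (ι x).2⟩
  split_ifs with hp
  · subst hp
    obtain ⟨F', _, _, σ, ζ, hζ⟩ := exists_ext F 35 (by rw [Ne, CharP.cast_eq_zero_iff F 11]; decide)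
    refine no_twelve T_comm _ (key σ).1 (key σ).2 φ hφ
      (regF (ζ := ζ ^ 7) (by rw [orderOf_pow, hζ]; decide) le_rfl)
      (regF (ζ := ζ ^ 5) (by rw [orderOf_pow, hζ]; decide) (by norm_num)) fun g hg => ?_
    obtain ⟨L, u, -, t, -, v, -, -, h⟩ := fuse (axF F') hg
    refine ⟨_, fun x hx hx' => (h x hx hx').1, ?_⟩
    exact (weylF' L).imp (nw_pow_mem (axF F')) (Or.imp (nw_pow_inv (axF F')) (nw_pow_mem (axF F')))
  · obtain ⟨F', _, _, σ, ζ, hζ⟩ := exists_ext F 11 (by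
      rw [Ne, CharP.cast_eq_zero_iff F p, Nat.prime_dvd_prime_iff_eq Fact.out (by norm_num)]
      exact hp)
    exact no_eleven T_comm _ (key σ).1 (key σ).2 φ hφ (regF hζ (by norm_num))

end Cfsg.Agent.H7.Alt
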