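/-
Alternating sections of G2(q) and ³D4(q).
-/
import Cfsg.Agent.H7.AltF4
import Cfsg.Agent.H9.ChevTri

set_option autoImplicit false
set_option linter.unusedSectionVars false

namespace Cfsg.Agent.H7.Alt

open Subgroup Cfsg.Agent.H9.Chev Dat Cfsg.Lie

variable (F : Type*) [Field F]

noncomputable def dD : Dat chevD4.Idx (Fin 24) 4 F := goodD4.dat F

lemma axD : (dD F).Ax := goodD4.ax F

def rD : Fin 24 → Fin 24 := Tri.ρ

lemma rt_RD (r : Fin 24) : tv ((dD F).rt r) ∈ RD :=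
  (by decide +kernel : ∀ r, tv ((dD ℚ).rt r) ∈ RD) r

lemma rt_rD (r : Fin 24) : tv ((dD F).rt (rD r)) = tD (tv ((dD F).rt r)) :=
  (by decide +kernel : ∀ r, tv ((dD ℚ).rt (rD r)) = tD (tv ((dD ℚ).rt r))) r

lemma sm_rD : rD ((dD F).sm 0) = (dD F).sm 2 ∧ rD ((dD F).sm 2) = (dD F).sm 3 :=
  (by decide +kernel : rD ((dD ℚ).sm 0) = (dD ℚ).sm 2 ∧ rD ((dD ℚ).sm 2) = (dD ℚ).sm 3)

lemma A_D : (dD F).A = ![![2, -1, 0, 0], ![-1, 2, -1, -1], ![0, -1, 2, 0], ![0, -1, 0, 2]] :=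
  (by decide +kernel : (dD ℚ).A = _)

variable {F}

/-- The twisting endomorphism. -/
noncomputable def tw (θ : F →+* F) : GL chevD4.Idx F →* GL chevD4.Idx F :=
  (MulAut.conj (Tri.fold F).M).toMonoidHom.comp (Matrix.GeneralLinearGroup.map θ)

lemma tw_apply (θ : F →+* F) (g : GL chevD4.Idx F) :
    tw θ g = (Tri.fold F).M * Matrix.GeneralLinearGroup.map θ g * (Tri.fold F).M⁻¹ := rfl

noncomputable def GD1 (θ : F →+* F) : Subgroup (GL chevD4.Idx F) :=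
  GH (dD F) ⊓ (tw θ).eqLocus (MonoidHom.id _)

lemma tw_x (θ : F →+* F) (r : Fin 24) :
    ∃ ε : F, ε ≠ 0 ∧ ∀ t, tw θ ((dD F).x r t) = (dD F).x (rD r) (ε * θ t) := by
  obtain ⟨ε, h0, h⟩ := (Tri.ax (F := F)).M_x r
  refine ⟨ε, h0, fun t => ?_⟩
  rw [tw_apply, mul_inv_eq_iff_eq_mul]
  erw [goodD4.map_x]
  exact h _

lemma WL_GD (L : List (Fin 4)) (v w : Λ) :
    bf GD (tv (WL (dD F) L v)) (tv (WL (dD F) L w)) = bf GD (tv v) (tv w) := by
  refine WL_inv (β := fun v w => bf GD (tv v) (tv w)) (fun p v w => ?_) L v w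
  simp only [W_apply, pr, A_D, bf, dot, ap, GD, tv, Int.add_def, Int.mul_def]
  fin_cases p <;> simp [Fin.sum_univ_four] <;> ring

lemma weylD' {θ : F →+* F} {t : GL chevD4.Idx F} (ht : t ∈ (dD F).T) {L : List (Fin 4)}
    (h : tw θ (t * (dD F).nw L) = t * (dD F).nw L) : WL (dD F) L ^ 6 = 1 := by
  have h1 : ∀ r, (dD F).ww L (rD r) = rD ((dD F).ww L r) := by
    intro r
    obtain ⟨c, hc, e⟩ := conj_x (axD F) ht L r one_ne_zero
    obtain ⟨ε, h0, h2⟩ := tw_x θ r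
    obtain ⟨ε', -, h3⟩ := tw_x θ ((dD F).ww L r)
    obtain ⟨c', hc', e'⟩ := conj_x (axD F) ht L (rD r) (c := ε * θ 1) (by simpa using h0)
    have := congrArg (tw θ) e
    rw [map_mul, map_mul, map_inv, h, h2, h3, e'] at this
    exact (axD F).root_eq_of_x_eq hc' this
  have h2 : ∀ i, WL (dD F) L (Pi.single i 1) = (dD F).rt ((dD F).ww L ((dD F).sm i)) := fun i => by
    rw [← (axD F).rt_sm, ← rt_ww (axD F)]
  refine weylD (fun i => by rw [h2]; exact rt_RD F _) (WL_GD L) ?_ ?_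
  · rw [h2, h2, ← (sm_rD F).1, h1, rt_rD]
  · rw [h2, h2, ← (sm_rD F).2, h1, rt_rD]

def fD (j : Bool) : Λ →+ ℤ := if j then co 1 else co 0 + co 2 + co 3

lemma D_mem_GD1 {θ : F →+* F} {ζ : Fˣ} (h : θ ζ = ζ) (j : Bool) :
    (dD F).D (pc (fD j) ζ) ∈ GD1 θ := by
  refine ⟨T_le_GH (D_mem _), ?_⟩
  show tw θ _ = (dD F).D (pc (fD j) ζ)
  obtain ⟨t', -, h1⟩ := (Tri.ax (F := F)).T_Γ (pc (fD j) ζ) fun r =>
    congrArg (fun n : ℤ => ζ ^ n) ((by decide +kernel : ∀ j r, fD j ((dD ℚ).rt (rD r)) =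
      fD j ((dD ℚ).rt r)) j r)
  have h2 := ((Tri.ax (F := F)).fst_mem (goodD4.ax F) (goodG2.ax F) h1).2.1
  have h3 : (Units.map θ.toMonoidHom).compAddChar (pc (fD j) ζ) = pc (fD j) ζ := by
    ext v
    simp [pc_apply, h]
  rw [tw_apply, Ax.map_D, h3]
  exact h2

lemma regD {θ : F →+* F} {ζ : Fˣ} (h : θ ζ = ζ) {n j : ℕ} (hn : ζ ^ n = 1)
    (hj : orderOf (ζ ^ j) = 2 ∨ orderOf (ζ ^ j) = 5) : ∀ g ∈ GD1 θ,
    (∀ x ∈ (dD F).T ⊓ GD1 θ, x ^ n = 1 → g⁻¹ * x ^ j * g ∈ (dD F).T) →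
      g ∈ normalizer ((dD F).T : Set (GL chevD4.Idx F)) ∧ g ^ 6 ∈ (dD F).T := by
  intro g hg H
  obtain ⟨t, ht, L, rfl⟩ := reg_main (axD F) hg.1 fun r => by
    obtain ⟨i, h1⟩ : ∃ i, ¬ (orderOf (ζ ^ j) : ℤ) ∣ fD i ((dD ℚ).rt r) := by
      rcases hj with hj | hj <;> rw [hj] <;> revert r <;> decide +kernel
    refine ⟨pc (fD i) ζ ^ j, fun h => h1 ?_, ?_⟩
    · rw [AddChar.pow_apply, pc_apply, ← zpow_natCast, ← zpow_mul, mul_comm, zpow_mul,
        zpow_natCast] at h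
      exact orderOf_dvd_iff_zpow_eq_one.mpr h
    · rw [map_pow]
      exact H _ ⟨D_mem _, D_mem_GD1 h i⟩ (D_pc_pow _ hn)
  exact ⟨mul_mem (le_normalizer ht) (nw_norm (axD F) L),
    mul_pow_mem (axD F) ht (nw_norm (axD F) L) (nw_pow_mem (axD F) (weylD' ht hg.2))⟩

def psiD (F : Type*) [Field F] : AddChar Λ Fˣ →* Fˣ × Fˣ where
  toFun χ := (χ (Pi.single 0 1), χ (Pi.single 1 1))
  map_one' := rfl
  map_mul' _ _ := rfl

lemma psiD_inj {θ : F →+* F} (χ : AddChar Λ Fˣ) (h : (dD F).D χ ∈ GD1 θ) (h1 : psiD F χ = 1) :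
    χ = 1 := by
  have h2 : ∀ r, (χ ((dD F).rt (rD r)) : F) = θ (χ ((dD F).rt r)) := by
    intro r
    obtain ⟨ε, h0, h2⟩ := tw_x θ r
    have h3 : tw θ ((dD F).D χ) = (dD F).D χ := h.2
    have := congrArg (tw θ) ((axD F).D_x χ r 1)
    rw [map_mul, map_mul, h3, h2, h2, (axD F).D_x, mul_left_inj] at this
    have := (axD F).x_inj _ this
    rw [map_one, mul_one, mul_one, mul_comm] at this
    exact mul_left_cancel₀ h0 this
  have e0 : χ (Pi.single 0 1) = 1 := congrArg Prod.fst h1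
  have e1 : χ (Pi.single 1 1) = 1 := congrArg Prod.snd h1
  have e2 : χ (Pi.single 2 1) = 1 := by
    have := h2 ((dD F).sm 0)
    rw [(sm_rD F).1, (axD F).rt_sm, (axD F).rt_sm, e0] at this
    exact Units.ext (by simpa using this)
  have e3 : χ (Pi.single 3 1) = 1 := by
    have := h2 ((dD F).sm 2)
    rw [(sm_rD F).2, (axD F).rt_sm, (axD F).rt_sm, e2] at this
    exact Units.ext (by simpa using this)
  refine char_ext fun j => ?_
  fin_cases j
  exacts [e0, e1, e2, e3]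

theorem main_D4 [Finite F] (p : ℕ) [Fact p.Prime] [CharP F p] {k : ℕ} (hk : 4 ∣ k) {H : Type*}
    [Group H] (ι : H →* GL chevD4.Idx F) (hι : Function.Injective ι)
    (h1 : ∀ x, ι x ∈ chevD4.group F) (h2 : ∀ x, tw (iterateFrobenius F p k) (ι x) = ι x)
    {r : ℕ} (φ : H →* Equiv.Perm (Fin r))
    (hφ : ∀ σ, Equiv.Perm.sign σ = 1 → σ ∈ φ.range) : r ≤ 6 + (if p = 5 then 1 else 0) := by
  have key : ∀ {F' : Type _} [Field F'] [CharP F' p] (σ : F →+* F'),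
      ∀ x, ((Matrix.GeneralLinearGroup.map σ).comp ι) x ∈ GD1 (iterateFrobenius F' p k) := by
    intro F' _ _ σ x
    refine ⟨map_mem_GH goodD4 σ (h1 x), ?_⟩
    have e1 : Matrix.GeneralLinearGroup.map σ (Tri.fold F).M = (Tri.fold F').M := by
      refine Units.ext ?_
      have := SM_map σ chevD4 Tri.cM 1
      rwa [map_one] at this
    have e2 : ∀ g : GL chevD4.Idx F, Matrix.GeneralLinearGroup.map σ
        (Matrix.GeneralLinearGroup.map (iterateFrobenius F p k) g) =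
        Matrix.GeneralLinearGroup.map (iterateFrobenius F' p k) (Matrix.GeneralLinearGroup.map σ g) :=
      fun g => by ext a b; simp [iterateFrobenius_def]
    show tw _ (Matrix.GeneralLinearGroup.map σ (ι x)) = Matrix.GeneralLinearGroup.map σ (ι x)
    rw [tw_apply, ← e1, ← e2, ← map_inv, ← map_mul, ← map_mul, ← tw_apply, h2]
  have fix : ∀ {F' : Type _} [Field F'] [CharP F' p] (ζ : F'ˣ), p ^ k ≡ 1 [MOD orderOf ζ] →
      iterateFrobenius F' p k ζ = ζ := fun ζ h => by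
    rw [iterateFrobenius_def, ← Units.val_pow_eq_pow_val, pow_eq_pow_iff_modEq.mpr h, pow_one]
  obtain ⟨k, rfl⟩ := hk
  split_ifs with hp
  · subst hp
    obtain ⟨F', _, _, σ, ζ, hζ⟩ := exists_ext F 4 (by rw [Ne, CharP.cast_eq_zero_iff F 5]; decide)
    haveI := charP_of_injective_ringHom σ.injective 5
    refine no_eight T_comm ((Matrix.GeneralLinearGroup.map σ).comp ι) ((glmap_inj σ).comp hι) (key σ) φ hφ
      (regD (fix ζ ?_) (hζ ▸ pow_orderOf_eq_one ζ) (Or.inl (by rw [orderOf_pow, hζ]; decide)))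
      (dD F').D rfl (psiD F') psiD_inj (m := -1) fun c hc => ?_
    · rw [hζ]
      simpa using (show 5 ≡ 1 [MOD 4] by decide).pow (4 * k)
    · have : (c : F') * c = 1 := by rw [← Units.val_mul, ← pow_two, hc]; rfl
      exact (mul_self_eq_one_iff.mp this).imp Units.ext Units.ext
  · have h5 : ¬ p ∣ 5 := by rwa [Nat.prime_dvd_prime_iff_eq Fact.out (by norm_num)]
    obtain ⟨F', _, _, σ, ζ, hζ⟩ := exists_ext F 5 (by rwa [Ne, CharP.cast_eq_zero_iff F p])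
    haveI := charP_of_injective_ringHom σ.injective p
    refine no_five T_comm ((Matrix.GeneralLinearGroup.map σ).comp ι) ((glmap_inj σ).comp hι) (key σ) φ hφ fun g hg H =>
      (regD (j := 1) (fix ζ ?_) (hζ ▸ pow_orderOf_eq_one ζ) (Or.inr (by rw [pow_one, hζ])) g hg
        (by simpa only [pow_one] using H)).2
    rw [hζ, pow_mul]
    have := Nat.ModEq.pow_totient ((Nat.Prime.coprime_iff_not_dvd Fact.out).mpr h5)
    rw [show Nat.totient 5 = 4 by decide] at this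
    simpa using this.pow k

end Cfsg.Agent.H7.Alt
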