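/-
Alternating sections of ²F4(q).
-/
import Cfsg.Agent.H7.AltF4
import Cfsg.Prelude.Def_LieTwisted

set_option autoImplicit false
set_option linter.unusedSectionVars false
set_option maxRecDepth 100000

namespace Cfsg.Agent.H7.Alt

open Subgroup Cfsg.Agent.H9.Chev Dat Cfsg.Lie Cfsg.Agent.H4

abbrev IF := chevF4.Idx

noncomputable def shN (a : ℕ) : Bool := Nat.beq (f1 316536972114051 a) 1
noncomputable def jN (a : ℕ) : ℕ :=
  f8 31844741249842801334193490767427034235753712166042034020880514545392827101565813845903597715997794816233769106544753566089731 a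

noncomputable def sh (a : IF) : Bool := shN (enc chevF4 a)

lemma jN_lt : ∀ a < 52, jN a < 52 := by decide +kernel

noncomputable def J (a : IF) : IF := (exists_enc chevF4 (jN_lt _ (enc_lt chevF4 a))).choose

lemma enc_J (a : IF) : enc chevF4 (J a) = jN (enc chevF4 a) :=
  (exists_enc chevF4 (jN_lt _ (enc_lt chevF4 a))).choose_spec

lemma J_J (a : IF) : J (J a) = a := enc_inj chevF4 (by
  rw [enc_J, enc_J]; exact (by decide +kernel : ∀ a < 52, jN (jN a) = a) _ (enc_lt chevF4 a))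

lemma sh_J (a : IF) : sh (J a) = !sh a := by
  rw [sh, enc_J]; exact (by decide +kernel : ∀ a < 52, shN (jN a) = !shN a) _ (enc_lt chevF4 a)

variable {F : Type*} [Field F]

def Tri (g : Matrix IF IF F) : Prop := ∀ a b, sh a = false → sh b = true → g a b = 0

structure Rel (g g' : Matrix IF IF F) : Prop where
  t1 : Tri g
  t2 : Tri g'
  e : ∀ a b, sh a = true → sh b = true → g (J a) (J b) = g' a b

lemma Tri.mul {g h : Matrix IF IF F} (hg : Tri g) (hh : Tri h) : Tri (g * h) := by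
  intro a b ha hb
  rw [Matrix.mul_apply]
  refine Finset.sum_eq_zero fun c _ => ?_
  cases hc : sh c
  · rw [hh c b hc hb, mul_zero]
  · rw [hg a c ha hc, zero_mul]

lemma Rel.mul {g h g' h' : Matrix IF IF F} (hg : Rel g g') (hh : Rel h h') :
    Rel (g * h) (g' * h') := by
  refine ⟨hg.t1.mul hh.t1, hg.t2.mul hh.t2, fun a b ha hb => ?_⟩
  rw [Matrix.mul_apply, Matrix.mul_apply, ← Equiv.sum_comp (Function.Involutive.toPerm J J_J)]
  refine Finset.sum_congr rfl fun c _ => ?_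
  show g (J a) (J c) * h (J c) (J b) = _
  cases hc : sh c
  · rw [hg.t1 _ _ (by simp [sh_J, ha]) (by simp [sh_J, hc]), hh.t2 c b hc hb, zero_mul, mul_zero]
  · rw [hg.e a c ha hc, hh.e c b hc hb]

lemma rel_diag {u v : IF → F} (h : ∀ a, sh a = true → u (J a) = v a) :
    Rel (Matrix.diagonal u) (Matrix.diagonal v) := by
  have h1 : ∀ u : IF → F, Tri (Matrix.diagonal u) := fun u a b ha hb =>
    Matrix.diagonal_apply_ne _ (by rintro rfl; simp [ha] at hb)
  refine ⟨h1 u, h1 v, fun a b ha _ => ?_⟩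
  simp only [Matrix.diagonal_apply, (Function.Involutive.injective J_J).eq_iff, h a ha]

lemma Rel.map {F' : Type*} [Field F'] (σ : F →+* F') {g g' : Matrix IF IF F} (h : Rel g g') :
    Rel (g.map σ) (g'.map σ) :=
  ⟨fun a b ha hb => by simp [h.t1 a b ha hb], fun a b ha hb => by simp [h.t2 a b ha hb],
    fun a b ha hb => by simp [h.e a b ha hb]⟩

def GR [Finite F] (θ : F →+* F) : Subgroup (GL IF F) where
  carrier := {g | Rel g.1 (g.1.map θ)}
  mul_mem' {a b} ha hb := by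
    have := Rel.mul ha hb
    rwa [← Matrix.map_mul] at this
  one_mem' := by
    have := rel_diag (F := F) (u := fun _ => 1) (v := fun _ => 1) fun _ _ => rfl
    simpa using this
  inv_mem' {g} hg := by
    have h1 : ∀ n : ℕ, Rel (g ^ n).1 ((g ^ n).1.map θ) := by
      intro n
      induction n with
      | zero => simpa using rel_diag (F := F) (u := fun _ => 1) (v := fun _ => 1) fun _ _ => rfl
      | succ n ih =>
        have := Rel.mul ih hg
        rwa [← Matrix.map_mul, ← Units.val_mul, ← pow_succ] at this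
    obtain ⟨n, hn⟩ := mem_powers_iff_mem_zpowers.mpr (inv_mem (mem_zpowers g))
    exact (show g ^ n = g⁻¹ from hn) ▸ h1 n

noncomputable def degs (C : Col) (a : ℕ) : List ℕ :=
  List.rec [] (fun x _ ih => ite' (Nat.beq x.1 a) (ite' (zI (Int.emod x.2.2 2)) ih (x.2.1 :: ih)) ih) C

lemma evC_degs [CharP F 2] (t : F) (C : Col) (a : ℕ) :
    evC t C a = ((degs C a).map fun k => t ^ k).sum := by
  induction C with
  | nil => rfl
  | cons x C ih =>
    rw [evC_cons, ih]
    show _ = ((ite' (Nat.beq x.1 a) (ite' (zI (Int.emod x.2.2 2)) (degs C a) (x.2.1 :: degs C a))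
      (degs C a)).map fun k => t ^ k).sum
    simp only [ite'_eq, Nat.beq_eq, zI_iff]
    split_ifs with h1 h2
    · rw [(CharP.intCast_eq_zero_iff F 2 _).mpr (Int.dvd_of_emod_eq_zero h2)]; simp
    · have : ((x.2.2 - 1 : ℤ) : F) = 0 := (CharP.intCast_eq_zero_iff F 2 _).mpr (by
        have : x.2.2 % 2 ≠ 0 := h2
        push_cast; omega)
      rw [Int.cast_sub, sub_eq_zero] at this
      simp [this]
    · simp

noncomputable def relChk (r s k : ℕ) : Bool :=
  pkF4.wr 4 r fun C => pkF4.wr 4 s fun C' => allLt 52 fun b => imp (shN b) (allLt 52 fun a =>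
    ite' (shN a) (decide (degs (pl C (jN b)) (jN a) = (degs (pl C' b) a).map (k * ·)))
      (decide (degs (pl C b) a = [] ∧ degs (pl C' b) a = [])))

lemma rel_of_chk [CharP F 2] (r s : Fin 48) (k : ℕ) (h : relChk r s k = true) (t : F) :
    Rel ((dF F).x r t).1 ((dF F).x s (t ^ k)).1 := by
  simp only [relChk, Pk.wr_eq, allLt_iff, imp_iff, ite'_eq] at h
  have e : ∀ r t a b, ((dF F).x r t).1 a b =
      ((degs (pl (pkF4.col 4 r) (enc chevF4 b)) (enc chevF4 a)).map fun k => t ^ k).sum := by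
    intro r t a b
    rw [← evC_degs]
    exact congrFun (congrFun (goodF4.xMat_eq' F r t) a) b
  refine ⟨fun a b ha hb => ?_, fun a b ha hb => ?_, fun a b ha hb => ?_⟩
  all_goals have := h _ (enc_lt chevF4 b) hb _ (enc_lt chevF4 a)
  · rw [if_neg (by simpa [sh] using ha), decide_eq_true_eq] at this
    rw [e, this.1]; rfl
  · rw [if_neg (by simpa [sh] using ha), decide_eq_true_eq] at this
    rw [e, this.2]; rfl
  · rw [if_pos (by simpa [sh] using ha), decide_eq_true_eq] at this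
    rw [e, e, enc_J, enc_J, this, List.map_map]
    simp only [← pow_mul]
    rfl

lemma chk_rel : ∀ x ∈ [(33, 24), (14, 23), (27, 25), (20, 22), (28, 30), (19, 17)],
    relChk x.1 x.2 2 = true ∧ relChk x.2 x.1 1 = true := by decide +kernel

noncomputable def lx (r : Fin 48) (c : ℤ) (i j : ℕ) : Let := ⟨pkF4.col 4 r, c, i, j, true⟩

lemma lm_x (t u : F) (r : Fin 48) (c : ℤ) (i j : ℕ) :
    lm chevF4 t u (lx r c i j) = ((dF F).x r (c * (t ^ i * u ^ j))).1 := by
  rw [← mul_assoc]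
  exact (goodF4.xMat_eq' F r _).symm

lemma comm_x (r s : Fin 48) (h : chk 52 [lx r 1 1 0, lx s 1 0 1] [lx s 1 0 1, lx r 1 1 0] = true)
    (t u : F) : (dF F).x r t * (dF F).x s u = (dF F).x s u * (dF F).x r t := by
  have := wm_eq_of_chk chevF4 t u h
  simp [wm, lm_x] at this
  exact Units.ext this

lemma comm_B2 [CharP F 2] (a b c d : Fin 48) (ε : ℤ) (hε : ε = 1 ∨ ε = -1)
    (h : chk 52 [lx a 1 1 0, lx b 1 0 1] [lx b 1 0 1, lx a 1 1 0, lx c ε 1 1, lx d 1 2 1] = true)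
    (t u : F) : (dF F).x a t * (dF F).x b u =
      (dF F).x b u * (dF F).x a t * (dF F).x c (t * u) * (dF F).x d (t ^ 2 * u) := by
  have := wm_eq_of_chk chevF4 t u h
  have h1 : (ε : F) = 1 := by rcases hε with rfl | rfl <;> simp [CharTwo.neg_eq]
  simp [wm, lm_x, h1] at this
  exact Units.ext (by simpa [mul_assoc] using this)

lemma map_xF {F' : Type*} [Field F'] (θ : F →+* F') (r : Fin 48) (t : F) :
    ((dF F).x r t).1.map θ = ((dF F').x r (θ t)).1 := congrArg Units.val (goodF4.map_x θ r t)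

section gens
variable [Finite F] [CharP F 2] {θ : F →+* F} {e : ℕ} (h1 : ∀ t, θ t = t ^ (2 * e))
  (h2 : ∀ t : F, t ^ (2 * e * e) = t)
include h1 h2

lemma pair_mem (r s : Fin 48) (h : (relChk r s 2 = true ∧ relChk s r 1 = true) ∧
    chk 52 [lx r 1 1 0, lx s 1 0 1] [lx s 1 0 1, lx r 1 1 0] = true) (t : F) :
    (dF F).x r (t ^ e) * (dF F).x s t ∈ GR θ := by
  have := (rel_of_chk r s 2 h.1.1 (t ^ e)).mul (rel_of_chk s r 1 h.1.2 t)
  show Rel _ _
  rw [Units.val_mul, Matrix.map_mul, map_xF, map_xF, h1, h1, ← pow_mul, mul_comm e, h2,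
    ← Units.val_mul ((dF F).x r t), comm_x r s h.2, Units.val_mul]
  rwa [← pow_mul, mul_comm e, pow_one] at this

lemma b2_mem (a b c d : Fin 48) (ε : ℤ) (h : (relChk a b 2 = true ∧ relChk b a 1 = true) ∧
    (relChk c d 2 = true ∧ relChk d c 1 = true) ∧ (ε = 1 ∨ ε = -1) ∧
    chk 52 [lx a 1 1 0, lx b 1 0 1] [lx b 1 0 1, lx a 1 1 0, lx c ε 1 1, lx d 1 2 1] = true ∧
    chk 52 [lx c 1 1 0, lx d 1 0 1] [lx d 1 0 1, lx c 1 1 0] = true) (t u : F) :
    (dF F).x a (t ^ e) * (dF F).x b t * (dF F).x c (t ^ (e + 1) + u) * (dF F).x d (u ^ (2 * e)) ∈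
      GR θ := by
  obtain ⟨⟨k1, k2⟩, ⟨k3, k4⟩, k5, k6, k7⟩ := h
  have := (((rel_of_chk a b 2 k1 (t ^ e)).mul (rel_of_chk b a 1 k2 t)).mul
    (rel_of_chk c d 2 k3 (t ^ (e + 1) + u))).mul (rel_of_chk d c 1 k4 (u ^ (2 * e)))
  show Rel _ _
  simp only [Units.val_mul, Matrix.map_mul, map_xF]
  convert this using 1
  simp only [← Units.val_mul]
  congr 1
  have e1 : θ (t ^ e) = t := by rw [h1, ← pow_mul, mul_comm e, h2]
  have e2 : θ (u ^ (2 * e)) = u ^ 2 := by
    rw [h1, ← pow_mul, show 2 * e * (2 * e) = 2 * e * e * 2 by ring, pow_mul, h2]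
  have e3 : (t ^ e) ^ 2 = θ t := by rw [h1, ← pow_mul, mul_comm]
  rw [map_add, pow_succ, map_mul, e1, e2, comm_B2 a b c d ε k5 k6, pow_one, pow_one, ← h1 u, e3,
    CharTwo.add_sq, mul_pow, e3]
  simp only [mul_assoc]
  rw [← mul_assoc ((dF F).x d _), ← comm_x c d k7, ← comm_x c d k7, mul_assoc, ← (axF F).x_add,
    ← mul_assoc ((dF F).x c _), ← (axF F).x_add, ← add_assoc, CharTwo.add_self_eq_zero, zero_add,
    mul_comm (t ^ 2)]

lemma twisted_le : twistedF4 F e ≤ chevF4.group F ⊓ GR θ := by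
  have xm : ∀ r t, (dF F).x r t ∈ chevF4.group F := goodF4.x_mem F
  have xv : ∀ (r : Fin 48) t, ((dF F).x r t).1 = chevF4.x F r t := goodF4.x_val F
  have two : ∀ (r s : Fin 48) (t : F) (g : GL IF F),
      g.1 = chevF4.wordMat F (f4PairWord e r s t) → g = (dF F).x r (t ^ e) * (dF F).x s t :=
    fun r s t g hg => Units.ext (by
      rw [hg, Units.val_mul, xv, xv]; simp [ChevalleyDatum.wordMat, f4PairWord])
  have four : ∀ (a b c d : Fin 48) (t u : F) (g : GL IF F),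
      g.1 = chevF4.wordMat F (b2ClassWord e a b c d t u) → g = (dF F).x a (t ^ e) * (dF F).x b t *
        (dF F).x c (t ^ (e + 1) + u) * (dF F).x d (u ^ (2 * e)) :=
    fun a b c d t u g hg => Units.ext (by
      rw [hg, Units.val_mul, Units.val_mul, Units.val_mul, xv, xv, xv, xv]
      simp [ChevalleyDatum.wordMat, b2ClassWord, mul_assoc])
  rw [twistedF4, ChevalleyDatum.genSubgroup, closure_le]
  rintro g ⟨w, ⟨t, rfl | rfl⟩ | ⟨t, u, rfl | rfl⟩, hg⟩
  · rw [two 33 24 t g hg]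
    exact ⟨mul_mem (xm _ _) (xm _ _), pair_mem h1 h2 33 24
      ⟨chk_rel (33, 24) (by simp), by decide +kernel⟩ t⟩
  · rw [two 14 23 t g hg]
    exact ⟨mul_mem (xm _ _) (xm _ _), pair_mem h1 h2 14 23
      ⟨chk_rel (14, 23) (by simp), by decide +kernel⟩ t⟩
  · rw [four 27 25 28 30 t u g hg]
    exact ⟨mul_mem (mul_mem (mul_mem (xm _ _) (xm _ _)) (xm _ _)) (xm _ _), b2_mem h1 h2 27 25 28 30
      (-1) ⟨chk_rel (27, 25) (by simp), chk_rel (28, 30) (by simp), by decide +kernel⟩ t u⟩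
  · rw [four 20 22 19 17 t u g hg]
    exact ⟨mul_mem (mul_mem (mul_mem (xm _ _) (xm _ _)) (xm _ _)) (xm _ _), b2_mem h1 h2 20 22 19 17
      1 ⟨chk_rel (20, 22) (by simp), chk_rel (19, 17) (by simp), by decide +kernel⟩ t u⟩

end gens

lemma gr_J (a : IF) (ha : sh a = true) : tv ((dF F).gr (J a)) = tF (tv ((dF F).gr a)) := by
  have := (by decide +kernel : ∀ a < 52, shN a = true →
    (⟨pkF4.gr (jN a) 0, pkF4.gr (jN a) 1, pkF4.gr (jN a) 2, pkF4.gr (jN a) 3⟩ : V4) =
      tF ⟨pkF4.gr a 0, pkF4.gr a 1, pkF4.gr a 2, pkF4.gr a 3⟩) _ (enc_lt chevF4 a) ha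
  rw [← enc_J] at this
  exact this

variable [Finite F]

lemma weylR {θ : F →+* F} {t : GL IF F} (ht : t ∈ (dF F).T) {L : List (Fin 4)}
    (h : t * (dF F).nw L ∈ GR θ) : WL (dF F) L ^ 8 = 1 := by
  obtain ⟨χ, rfl⟩ := ht
  set g := (dF F).D χ * (dF F).nw L with hg
  have h1 : ∀ a b, g.1 a b ≠ 0 → (dF F).gr a = WL (dF F) L ((dF F).gr b) := fun a b hab =>
    nw_gr (axF F) L a b fun h0 => hab (by rw [hg, Units.val_mul, D_val, Matrix.diagonal_mul, h0, mul_zero])
  have h2 : ∀ b, sh b = true →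
      tv (WL (dF F) L ((dF F).gr (J b))) = tF (tv (WL (dF F) L ((dF F).gr b))) := by
    intro b hb
    obtain ⟨a, ha⟩ : ∃ a, g.1 a b ≠ 0 := by
      by_contra! h0
      have : (g⁻¹ * g).1 b b = 0 := by simp only [Units.val_mul, Matrix.mul_apply, h0]; simp
      simp at this
    have h3 : sh a = true := by
      cases hs : sh a
      · exact absurd (h.t1 a b hs hb) ha
      · rfl
    rw [← h1 a b ha, ← h1 (J a) (J b) (by rw [h.e a b h3 hb]; simpa using ha), gr_J a h3]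
  have h3 : ∀ i j : Fin 4, sh ((dF ℚ).e ((dF ℚ).sm i)) = true ∧
      jN (enc chevF4 ((dF ℚ).e ((dF ℚ).sm i))) = enc chevF4 ((dF ℚ).e ((dF ℚ).sm j)) →
      tv (WL (dF F) L (Pi.single j 1)) = tF (tv (WL (dF F) L (Pi.single i 1))) := by
    intro i j H
    have := h2 _ H.1
    rw [enc_inj chevF4 ((enc_J _).trans H.2)] at this
    rw [← (axF F).rt_sm, ← (axF F).rt_sm]
    exact this
  exact weylF2 (WL_RF L) (WL_GF L) (h3 1 2 (by decide +kernel)) (h3 0 3 (by decide +kernel))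

def fR (j : Bool) : Λ →+ ℤ := if j then co 0 + 4 • co 3 else co 1 + 4 • co 2

lemma regR {θ : F →+* F} {ζ : Fˣ} (hζ : orderOf ζ = 7) (h : θ ζ = ζ ^ 4) :
    ∀ g ∈ GH (dF F) ⊓ GR θ, (∀ x ∈ (dF F).T ⊓ (GH (dF F) ⊓ GR θ), x ^ 7 = 1 →
      g⁻¹ * x * g ∈ (dF F).T) → g ^ 8 ∈ (dF F).T := by
  intro g hg H
  obtain ⟨t, ht, L, rfl⟩ := reg_main (axF F) hg.1 fun r => by
    obtain ⟨j, h1⟩ := (by decide +kernel : ∀ r, ∃ j, ¬ (7 : ℤ) ∣ fR j ((dF ℚ).rt r)) r
    refine ⟨pc (fR j) ζ, fun h => h1 ?_, H _ ⟨D_mem _, T_le_GH (D_mem _), ?_⟩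
      (D_pc_pow _ (hζ ▸ pow_orderOf_eq_one ζ))⟩
    · rwa [pc_apply, ← orderOf_dvd_iff_zpow_eq_one, hζ] at h
    · show Rel _ _
      rw [D_val, Matrix.diagonal_map (map_zero θ)]
      refine rel_diag fun a ha => ?_
      have h2 := gr_J (F := F) a ha
      simp only [tv, tF, V4.mk.injEq] at h2
      rw [pc_apply, pc_apply, Units.val_zpow_eq_zpow_val, Units.val_zpow_eq_zpow_val, map_zpow₀, h,
        ← Units.val_pow_eq_pow_val, ← Units.val_zpow_eq_zpow_val, ← Units.val_zpow_eq_zpow_val,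
        ← zpow_natCast, ← zpow_mul, Units.val_inj, zpow_eq_zpow_iff_modEq, hζ, Int.modEq_iff_dvd]
      cases j <;> simp [fR, co, h2] <;> omega
  exact mul_pow_mem (axF F) ht (nw_norm (axF F) L) (nw_pow_mem (axF F) (weylR ht hg.2))

theorem main_Ree [CharP F 2] (k : ℕ) {H : Type*} [Group H] (ι : H →* GL IF F)
    (hι : Function.Injective ι)
    (h : ∀ x, ι x ∈ chevF4.group F ⊓ GR (iterateFrobenius F 2 (3 * k + 2))) {r : ℕ}
    (φ : H →* Equiv.Perm (Fin r)) (hφ : ∀ σ, Equiv.Perm.sign σ = 1 → σ ∈ φ.range) : r ≤ 6 := by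
  obtain ⟨F', _, _, σ, ζ, hζ⟩ := exists_ext F 7 (by rw [Ne, CharP.cast_eq_zero_iff F 2]; decide)
  haveI := charP_of_injective_ringHom σ.injective 2
  refine no_seven (G := GH (dF F') ⊓ GR (iterateFrobenius F' 2 (3 * k + 2))) T_comm ((Matrix.GeneralLinearGroup.map σ).comp ι) ((glmap_inj σ).comp hι)
    (fun x => ⟨map_mem_GH goodF4 σ (h x).1, ?_⟩) φ hφ
    (regR (θ := iterateFrobenius F' 2 (3 * k + 2)) hζ ?_)
  · have := Rel.map σ (h x).2
    show Rel ((ι x).1.map σ) (((ι x).1.map σ).map _)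
    convert this using 1
    ext a b
    simp [iterateFrobenius_def]
  · rw [iterateFrobenius_def, ← Units.val_pow_eq_pow_val, ← Units.val_pow_eq_pow_val, Units.val_inj,
      pow_eq_pow_iff_modEq, hζ, pow_add, pow_mul]
    simpa using ((show 2 ^ 3 ≡ 1 [MOD 7] by decide).pow k).mul_right 4

end Cfsg.Agent.H7.Alt
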