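import Cfsg.Agent.H7.Classify

/-!
Quadratic forms over the field of two elements: sign sums.
-/

set_option autoImplicit false

namespace Cfsg.Agent.H7

open QuadraticMap Module

/-- the sign character of the field of two elements -/
def sg (a : ZMod 2) : ℤ := if a = 0 then 1 else -1

lemma sg_add : ∀ a b : ZMod 2, sg (a + b) = sg a * sg b := by decide
lemma sg_zero : sg 0 = 1 := rfl
lemma sg_one : sg 1 = -1 := rfl
lemma z2_cases : ∀ a : ZMod 2, a = 0 ∨ a = 1 := by decide
lemma z2_sq : ∀ a : ZMod 2, a ^ 2 = a := by decide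
lemma z2_add_self : ∀ a : ZMod 2, a + a = 0 := by decide

variable {V W : Type*} [Fintype V] [Fintype W]

/-- the sign sum of a function -/
def gauss (q : V → ZMod 2) : ℤ := ∑ v, sg (q v)

lemma gauss_comp (e : V ≃ W) (q : W → ZMod 2) : gauss (fun v => q (e v)) = gauss q :=
  e.sum_comp fun w => sg (q w)

lemma gauss_add_const (q : V → ZMod 2) (c : ZMod 2) : gauss (fun v => q v + c) = sg c * gauss q := by
  simp [gauss, sg_add, Finset.mul_sum, mul_comm]

lemma gauss_prod (q : V → ZMod 2) (q' : W → ZMod 2) :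
    gauss (fun x : V × W => q x.1 + q' x.2) = gauss q * gauss q' := by
  simp [gauss, sg_add, Fintype.sum_prod_type, Finset.sum_mul_sum]

lemma two_mul_card_zero (q : V → ZMod 2) :
    2 * (Nat.card {v // q v = 0} : ℤ) = Nat.card V + gauss q := by
  classical
  simp only [Nat.card_eq_fintype_card, Fintype.card_subtype, Finset.card_filter, gauss]
  push_cast
  rw [Finset.mul_sum, ← Finset.card_univ, Finset.card_eq_sum_ones]
  push_cast
  rw [← Finset.sum_add_distrib]
  exact Finset.sum_congr rfl fun v _ => by unfold sg; split_ifs <;> simp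

lemma two_mul_card_ne (q : V → ZMod 2) :
    2 * (Nat.card {v // q v ≠ 0} : ℤ) = Nat.card V - gauss q := by
  have := two_mul_card_zero fun v => q v + 1
  rw [gauss_add_const, sg_one] at this
  rw [Nat.card_congr (Equiv.subtypeEquivRight (q := fun v => q v + 1 = 0) fun v => by
    rcases z2_cases (q v) with h | h <;> simp [h]; rfl), this]
  ring

variable [AddCommGroup V]

lemma gauss_add_eq (q : V → ZMod 2) (w : V) : gauss (fun v => q (v + w)) = gauss q :=
  gauss_comp (Equiv.addRight w) q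

lemma gauss_hom {φ : V →+ ZMod 2} {w : V} (h : φ w ≠ 0) : gauss φ = 0 := by
  have := gauss_add_eq φ w
  simp only [map_add, gauss_add_const, (z2_cases _).resolve_left h, sg_one] at this
  change -1 * gauss φ = _ at this
  omega

variable [Module (ZMod 2) V] {Q : QuadraticForm (ZMod 2) V}

lemma gauss_sq (hQ : ND Q) : gauss Q * gauss Q = Nat.card V := by
  classical
  have h1 : ∀ u, sg (Q u) * gauss Q = ∑ v, sg (Q v) * sg (polar Q u v) := fun u => by
    rw [← gauss_add_eq Q u, ← gauss_add_const]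
    refine Finset.sum_congr rfl fun v _ => ?_
    beta_reduce
    rw [← sg_add, Q_add, B_comm Q v, add_right_comm, add_assoc (Q v), z2_add_self, add_zero]
  conv_lhs => rw [gauss, Finset.sum_mul]
  change ∑ u, sg (Q u) * gauss Q = _
  simp only [h1]
  rw [Finset.sum_comm, Finset.sum_eq_single 0]
  · simp [sg_zero]
  · intro v _ hv
    obtain ⟨u, hu⟩ : ∃ u, polar Q v u ≠ 0 := by
      by_contra! h; exact hv (hQ.eq_zero h)
    rw [← Finset.mul_sum]
    exact mul_eq_zero_of_right _ (gauss_hom (φ := ((polarBilin Q).flip v).toAddMonoidHom) (w := u)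
      (by simpa [B_comm Q u] using hu))
  · simp

lemma gauss_ne_zero (hQ : ND Q) : gauss Q ≠ 0 := fun h => by
  have := gauss_sq hQ
  rw [h, mul_zero] at this
  exact Nat.card_pos.ne (by exact_mod_cast this)

lemma gauss_hyp (m : ℕ) :
    gauss (fun v : Fin m ⊕ Fin m → ZMod 2 => ∑ i, v (.inl i) * v (.inr i)) = 2 ^ m := by
  rw [← gauss_comp (Equiv.sumArrowEquivProdArrow _ _ _).symm, gauss, Fintype.sum_prod_type,
    Finset.sum_eq_single 0]
  · simp [sg_zero]
  · intro x _ hx
    obtain ⟨i, hi⟩ := Function.ne_iff.1 hx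
    exact gauss_hom (φ := ⟨⟨fun y : Fin m → ZMod 2 => ∑ i, x i * y i, by simp⟩, fun a b => by
      simp [mul_add, Finset.sum_add_distrib]⟩) (w := Pi.single i 1)
      (by simpa [Pi.single_apply] using hi)
  · simp

lemma gauss_QP (m : ℕ) : gauss (QP (ZMod 2) m) = 2 ^ m := gauss_hyp m

lemma gauss_QM (m : ℕ) : gauss (QM (ZMod 2) m 1 1) = -2 ^ (m + 1) := by
  rw [← gauss_comp (Equiv.sumArrowEquivProdArrow _ _ _).symm]
  refine (gauss_prod (fun v : Fin m ⊕ Fin m → ZMod 2 => ∑ i, v (.inl i) * v (.inr i))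
    fun z : Fin 2 → ZMod 2 => z 0 ^ 2 + 1 * z 0 * z 1 + 1 * z 1 ^ 2).trans ?_
  rw [gauss_hyp, show gauss (fun z : Fin 2 → ZMod 2 => z 0 ^ 2 + 1 * z 0 * z 1 + 1 * z 1 ^ 2) = -2 by
    decide]
  ring

lemma aniso_two : ∀ z₁ z₂ : ZMod 2, z₁ ^ 2 + 1 * z₁ * z₂ + 1 * z₂ ^ 2 = 0 → z₁ = 0 ∧ z₂ = 0 := by
  decide

lemma plusType_iff_gauss (hQ : ND Q) {m : ℕ} (hV : finrank (ZMod 2) V = 2 * m) :
    PlusType Q ↔ 0 < gauss Q := by
  constructor
  · intro h
    obtain ⟨φ, hφ⟩ := exists_equiv_QP hQ hV h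
    rw [← gauss_comp φ.toEquiv]
    exact (funext hφ : (fun v => Q (φ.toEquiv v)) = _) ▸ (gauss_QP m).symm ▸ by positivity
  · intro h
    by_contra h1
    obtain ⟨m, rfl⟩ : ∃ k, m = k + 1 :=
      Nat.exists_eq_succ_of_ne_zero (by rintro rfl; exact h1 ⟨⊥, fun u hu => by simp_all, by simp [hV]⟩)
    obtain ⟨φ, hφ⟩ := exists_equiv_QM hQ (m := m) hV h1 aniso_two
    rw [← gauss_comp φ.toEquiv, (funext hφ : (fun v => Q (φ.toEquiv v)) = _)] at h
    have := gauss_QM m
    have : (0 : ℤ) < 2 ^ (m + 1) := by positivity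
    change 0 < gauss (QM (ZMod 2) m 1 1) at h
    omega

omit [Fintype V] in
lemma polar_add_dual (φ : V →ₗ[ZMod 2] ZMod 2) (x y : V) :
    polar (Q + QuadraticMap.sq.comp φ : QuadraticForm (ZMod 2) V) x y = polar Q x y := by
  simp [polar, ← pow_two, z2_sq]; ring

/-- the translate of a form by a vector -/
noncomputable def trF (Q : QuadraticForm (ZMod 2) V) (w : V) : QuadraticForm (ZMod 2) V :=
  Q + QuadraticMap.sq.comp ((polarBilin Q).flip w)

omit [Fintype V] in
lemma trF_apply (w v : V) : trF Q w v = Q v + polar Q v w := by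
  simp [trF, ← pow_two, z2_sq]

omit [Fintype V] in
lemma polar_trF (w x y : V) : polar (trF Q w) x y = polar Q x y := polar_add_dual _ x y

lemma gauss_trF (w : V) : gauss (trF Q w) = sg (Q w) * gauss Q := by
  rw [← gauss_add_eq Q w, ← gauss_add_const]
  exact congrArg gauss (funext fun v => by
    rw [trF_apply, Q_add, add_right_comm, add_assoc (Q v), z2_add_self, add_zero])

omit [Fintype V] in
lemma nd_trF (hQ : ND Q) (w : V) : ND (trF Q w) :=
  nd_of fun x hx => hQ.eq_zero fun y => (polar_trF w x y).symm.trans (hx y)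

lemma exists_trF (hQ : ND Q) {q : V → ZMod 2} (hq : ∀ u v, q (u + v) = q u + q v + polar Q u v) :
    ∃ w, q = trF Q w := by
  obtain ⟨w, hw⟩ := hQ.exists_repr ((AddMonoidHom.mk' (fun v => q v - Q v) fun u v => by
    rw [hq, Q_add]; ring).toZModLinearMap 2)
  exact ⟨w, funext fun v => by rw [trF_apply, hw]; simp⟩

end Cfsg.Agent.H7
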