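import Cfsg.Agent.H7.Bin

/-!
The symmetric group acting on even subsets modulo complementation.
-/

set_option autoImplicit false

namespace Cfsg.Agent.H7

open QuadraticMap Module

/-- the second elementary symmetric function, through the weight -/
def e2f {n : ℕ} (x : Fin n → ZMod 2) : ZMod 2 := ((∑ i, (x i).val).choose 2 : ℕ)

lemma e2f_succ {n : ℕ} (x : Fin (n + 1) → ZMod 2) :
    e2f x = x 0 * ∑ i : Fin n, x i.succ + e2f fun i : Fin n => x i.succ := by
  unfold e2f
  rw [Fin.sum_univ_succ]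
  rcases z2_cases (x 0) with h | h
  · simp [h]
  · rw [h, ZMod.val_one, add_comm, Nat.choose_succ_succ']; simp

lemma e2f_add {n : ℕ} (x y : Fin n → ZMod 2) :
    e2f (x + y) = e2f x + e2f y + ((∑ i, x i) * ∑ i, y i + ∑ i, x i * y i) := by
  induction n with
  | zero => simp [e2f]
  | succ n ih =>
    rw [e2f_succ, e2f_succ x, e2f_succ y]
    simp only [Fin.sum_univ_succ, Pi.add_apply, Finset.sum_add_distrib]
    linear_combination ih (fun i => x i.succ) (fun i => y i.succ) - z2_add_self (x 0 * y 0)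

/-- the form `e₂` -/
def e2 (n : ℕ) : QuadraticForm (ZMod 2) (Fin n → ZMod 2) where
  toFun := e2f
  toFun_smul a x := by rcases z2_cases a with rfl | rfl <;> simp [e2f]
  exists_companion' := ⟨LinearMap.mk₂ _ (fun x y => (∑ i, x i) * ∑ i, y i + ∑ i, x i * y i)
    (fun _ _ _ => by simp [add_mul, Finset.sum_add_distrib]; ring)
    (fun _ _ _ => by simp [mul_add, Finset.mul_sum, mul_assoc, Finset.sum_mul])
    (fun _ _ _ => by simp [mul_add, Finset.sum_add_distrib]; ring)
    (fun _ _ _ => by simp [mul_add, Finset.mul_sum, mul_left_comm]), e2f_add⟩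

lemma polar_e2 {n : ℕ} (x y : Fin n → ZMod 2) :
    polar (e2 n) x y = (∑ i, x i) * ∑ i, y i + ∑ i, x i * y i := by
  change e2f (x + y) - e2f x - e2f y = _
  rw [e2f_add]; ring

lemma gauss_e2_succ (n : ℕ) (c : ZMod 2) :
    gauss (fun x : Fin (n + 1) → ZMod 2 => c * ∑ i, x i + e2f x) =
      gauss (fun x : Fin n → ZMod 2 => c * ∑ i, x i + e2f x) +
        sg c * gauss (fun x : Fin n → ZMod 2 => (c + 1) * ∑ i, x i + e2f x) := by
  rw [← gauss_comp (Fin.consEquiv fun _ => ZMod 2), ← gauss_add_const, gauss, Fintype.sum_prod_type]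
  refine (Fin.sum_univ_two _).trans (congrArg₂ _ ?_ ?_) <;>
    refine Finset.sum_congr rfl fun x _ => congrArg sg ?_
  · change c * ∑ i, (Fin.cons 0 x : Fin (n + 1) → ZMod 2) i + e2f (Fin.cons 0 x) = _
    simp [e2f_succ, Fin.sum_univ_succ]
  · change c * ∑ i, (Fin.cons 1 x : Fin (n + 1) → ZMod 2) i + e2f (Fin.cons 1 x) = _
    simp [e2f_succ, Fin.sum_univ_succ]; ring

lemma gauss_e2 (k : ℕ) : (∀ c : ZMod 2,
    gauss (fun x : Fin (4 * k) → ZMod 2 => c * ∑ i, x i + e2f x) = (-4) ^ k) := by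
  induction k with
  | zero => decide
  | succ k ih =>
    intro c
    rw [mul_add, mul_one]
    simp only [gauss_e2_succ, ih]
    rcases z2_cases c with rfl | rfl <;> simp [z2_add_self, sg_zero, sg_one] <;> ring

variable {N : ℕ}

/-- even vectors with vanishing first coordinate -/
def evS (N : ℕ) : (Fin N → ZMod 2) →ₗ[ZMod 2] (Fin (N + 2) → ZMod 2) where
  toFun y := Fin.cons 0 (Fin.cons (∑ i, y i) y)
  map_add' x y := funext fun i => by
    refine Fin.cases ?_ (Fin.cases ?_ fun j => ?_) i <;> simp [Finset.sum_add_distrib]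
  map_smul' a x := funext fun i => by
    refine Fin.cases ?_ (Fin.cases ?_ fun j => ?_) i <;> simp [Finset.mul_sum]

lemma evS_apply (y : Fin N → ZMod 2) : evS N y = Fin.cons 0 (Fin.cons (∑ i, y i) y) := rfl

lemma sum_evS (y : Fin N → ZMod 2) : ∑ i, evS N y i = 0 := by
  simp [evS_apply, Fin.sum_univ_succ, z2_add_self]

/-- the form on even subsets modulo complementation -/
def evQ (N : ℕ) : QuadraticForm (ZMod 2) (Fin N → ZMod 2) := (e2 (N + 2)).comp (evS N)

lemma evQ_apply (y : Fin N → ZMod 2) : evQ N y = 1 * ∑ i, y i + e2f y := by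
  change e2f (evS N y) = _
  simp [e2f_succ, evS_apply, ← pow_two, z2_sq]

lemma polar_evQ (x y : Fin N → ZMod 2) :
    polar (evQ N) x y = (∑ i, x i) * ∑ i, y i + ∑ i, x i * y i := by
  rw [← polar_map_of (Q := evQ N) (Q' := e2 (N + 2)) (evS N) (fun _ => rfl), polar_e2, sum_evS]
  simp [evS_apply, Fin.sum_univ_succ]

lemma nd_evQ (hN : Even N) : ND (evQ N) := nd_of fun x hx => by
  have h : ∀ i, x i = ∑ i, x i := fun i => by
    have := hx (Pi.single i 1)
    simp [polar_evQ, Pi.single_apply] at this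
    linear_combination this - z2_add_self (∑ i, x i)
  have h2 : ∑ i, x i = 0 := by
    rw [Finset.sum_congr rfl fun i _ => h i]
    simp [(ZMod.natCast_eq_zero_iff_even).2 hN]
  exact funext fun i => (h i).trans h2

lemma gauss_evQ (k : ℕ) : gauss (evQ (4 * k + 2)) = -2 * (-4) ^ k := by
  rw [show ⇑(evQ (4 * k + 2)) = _ from funext evQ_apply]
  simp only [gauss_e2_succ, gauss_e2]
  simp [z2_add_self, sg_zero, sg_one]; ring

/-- the action of a permutation -/
def evF (σ : Equiv.Perm (Fin (N + 2))) : (Fin N → ZMod 2) →ₗ[ZMod 2] (Fin N → ZMod 2) where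
  toFun y i := evS N y (σ⁻¹ i.succ.succ) + evS N y (σ⁻¹ 0)
  map_add' x y := funext fun i => by simp; ring
  map_smul' a x := funext fun i => by simp; ring

lemma evS_pi (hN : Even N) {x : Fin (N + 2) → ZMod 2} (hx : ∑ i, x i = 0) (i : Fin (N + 2)) :
    evS N (fun j => x j.succ.succ + x 0) i = x i + x 0 := by
  refine Fin.cases ?_ (Fin.cases ?_ fun j => rfl) i
  · exact (z2_add_self _).symm
  · rw [Fin.sum_univ_succ, Fin.sum_univ_succ] at hx
    change ∑ i : Fin N, (x i.succ.succ + x 0) = _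
    rw [Finset.sum_add_distrib]
    simp only [Finset.sum_const, Finset.card_univ, Fintype.card_fin, nsmul_eq_mul,
      (ZMod.natCast_eq_zero_iff_even).2 hN]
    linear_combination hx - z2_add_self (x 0) - z2_add_self (x (Fin.succ 0))

lemma evS_evF (hN : Even N) (σ : Equiv.Perm (Fin (N + 2))) (y : Fin N → ZMod 2) (i : Fin (N + 2)) :
    evS N (evF σ y) i = evS N y (σ⁻¹ i) + evS N y (σ⁻¹ 0) :=
  evS_pi hN (x := fun i => evS N y (σ⁻¹ i)) ((Equiv.sum_comp σ⁻¹ _).trans (sum_evS y)) i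

lemma evF_mul (hN : Even N) (σ τ : Equiv.Perm (Fin (N + 2))) (y : Fin N → ZMod 2) :
    evF σ (evF τ y) = evF (σ * τ) y := funext fun i => by
  change evS N _ _ + evS N _ _ = evS N _ _ + evS N _ _
  rw [evS_evF hN, evS_evF hN, mul_inv_rev, Equiv.Perm.mul_apply, Equiv.Perm.mul_apply]
  linear_combination z2_add_self (evS N y (τ⁻¹ 0))

lemma evF_one (y : Fin N → ZMod 2) : evF 1 y = y := funext fun _ => add_zero _

lemma evQ_evF (k : ℕ) (σ : Equiv.Perm (Fin (4 * k + 2 + 2))) (y : Fin (4 * k + 2) → ZMod 2) :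
    evQ _ (evF σ y) = evQ _ y := by
  have h1 : e2 _ (fun i => evS _ y (σ⁻¹ i)) = e2 _ (evS _ y) :=
    congrArg (fun n : ℕ => (n.choose 2 : ZMod 2)) (Equiv.sum_comp σ⁻¹ fun i => (evS _ y i).val)
  have h2 : e2 (4 * k + 2 + 2) 1 = 0 := by
    change ((∑ i : Fin (4 * k + 2 + 2), (1 : ZMod 2).val).choose 2 : ℕ) = (0 : ZMod 2)
    rw [ZMod.natCast_eq_zero_iff_even, ZMod.val_one]
    simp only [Finset.sum_const, Finset.card_univ, Fintype.card_fin, smul_eq_mul, mul_one,
      Nat.choose_two_right]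
    exact ⟨(k + 1) * (4 * k + 3), by
      rw [Nat.div_eq_iff_eq_mul_left two_pos (Dvd.intro ((2 * k + 2) * (4 * k + 2 + 2 - 1)) (by ring))]
      simp; ring⟩
  change e2 _ (evS _ (evF σ y)) = e2 _ (evS _ y)
  rw [show evS _ (evF σ y) = (fun i => evS _ y (σ⁻¹ i)) + evS _ y (σ⁻¹ 0) • 1 from funext fun i => by
    simpa using evS_evF ⟨2 * k + 1, by ring⟩ σ y i, Q_add, h1, Q_smul, h2, B_smul_right, polar_e2]
  simp [(Equiv.sum_comp σ.symm _).trans (sum_evS y)]

/-- the action of a permutation as an equivalence -/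
def evE (hN : Even N) (σ : Equiv.Perm (Fin (N + 2))) :
    (Fin N → ZMod 2) ≃ₗ[ZMod 2] (Fin N → ZMod 2) :=
  { evF σ with
    invFun := evF σ⁻¹
    left_inv := fun y => (evF_mul hN _ _ y).trans (by simp [evF_one])
    right_inv := fun y => (evF_mul hN _ _ y).trans (by simp [evF_one]) }

/-- the symmetric group acts by isometries -/
def evHom' (hN : Even N) (h : ∀ σ y, evQ N (evF σ y) = evQ N y) :
    Equiv.Perm (Fin (N + 2)) →* OG (evQ N) where
  toFun σ := ⟨evE hN σ, h σ⟩
  map_one' := Subtype.ext (LinearEquiv.ext evF_one)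
  map_mul' σ τ := Subtype.ext (LinearEquiv.ext fun y => (evF_mul hN σ τ y).symm)

/-- the symmetric group acts by isometries -/
def evHom (k : ℕ) : Equiv.Perm (Fin (4 * k + 2 + 2)) →* OG (evQ (4 * k + 2)) :=
  evHom' ⟨2 * k + 1, by ring⟩ (evQ_evF k)

lemma evHom_apply (k : ℕ) (σ : Equiv.Perm (Fin (4 * k + 2 + 2))) (y : Fin (4 * k + 2) → ZMod 2) :
    (evHom k σ).1 y = evF σ y := rfl

lemma evHom_injective {k : ℕ} (hk : 1 ≤ k) : Function.Injective (evHom k) :=
  (injective_iff_map_eq_one _).2 fun σ h => by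
    have hN : Even (4 * k + 2) := ⟨2 * k + 1, by ring⟩
    have h1 : ∀ x : Fin (4 * k + 2 + 2) → ZMod 2, ∑ i, x i = 0 → ∀ i,
        x i + x (σ⁻¹ i) = x 0 + x (σ⁻¹ 0) := fun x hx i => by
      have := evS_evF hN σ (fun j => x j.succ.succ + x 0) i
      rw [← evHom_apply, h, OG.one_apply, evS_pi hN hx, evS_pi hN hx, evS_pi hN hx] at this
      linear_combination this + z2_add_self (x (σ⁻¹ i))
    ext1 a
    by_contra ha
    obtain ⟨b, hb⟩ : ∃ b, b ∉ ({a, σ a} : Finset _) := Finset.exists_mem_notMem_of_card_lt_card (t := .univ)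
      (Finset.card_le_two.trans_lt (by simp)) |>.imp fun _ h => h.2
    obtain ⟨d, hd⟩ : ∃ d, d ∉ ({a, σ a, b, σ b} : Finset _) :=
      Finset.exists_mem_notMem_of_card_lt_card (t := .univ)
        (Finset.card_le_four.trans_lt (by simp; omega)) |>.imp fun _ h => h.2
    have h2 := h1 (Pi.single a 1 + Pi.single b 1) (by simp [Finset.sum_add_distrib, z2_add_self])
    have h3 := (h2 d).trans (h2 (σ a)).symm
    simp only [Finset.mem_insert, Finset.mem_singleton, not_or] at hb hd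
    have h4 : σ a ≠ a := ha
    simp [Pi.single_apply, hd, h4, Ne.symm hb.1, Ne.symm hb.2, Equiv.symm_apply_eq] at h3

lemma exists_swap_eq_refl (v : Fin (4 * 1 + 2) → ZMod 2) (hv : evQ _ v ≠ 0) :
    ∃ a b, evHom 1 (Equiv.swap a b) = refl _ v := by
  have : ∀ v : Fin 6 → ZMod 2, 1 * ∑ i, v i + e2f v ≠ 0 → ∃ a b : Fin 8, ∀ (y : Fin 6 → ZMod 2) i,
      evS 6 y (Equiv.swap a b i.succ.succ) + evS 6 y (Equiv.swap a b 0) =
        y i - ((∑ i, y i) * ∑ i, v i + ∑ i, y i * v i) * v i := by decide +kernel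
  obtain ⟨a, b, h⟩ := this v (evQ_apply v ▸ hv)
  refine ⟨a, b, OG.ext' fun y => funext fun i => ?_⟩
  rw [refl_apply, (z2_cases _).resolve_left hv, polar_evQ, inv_one, one_mul]
  exact h y i

lemma evHom_one_surjective : Function.Surjective (evHom 1) :=
  MonoidHom.range_eq_top.1 (eq_top_of_refl (nd_evQ (by decide))
    (nonExc_of_finrank (nd_evQ (by decide)) (by simp)) fun v hv =>
      (exists_swap_eq_refl v hv).elim fun _ h => h.elim fun _ h => ⟨_, h⟩)

end Cfsg.Agent.H7
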