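import Cfsg.Agent.H7.E8C1

/-!
The root system E8: pairs of roots.
-/

set_option autoImplicit false
set_option maxRecDepth 100000

namespace Cfsg.Agent.H7.E8

open Finset

def PP (r : Fin 240) : Prop := ∀ s,
  (bE (rt8 r) (rt8 s) = -1 ∧ #{u | bE (rt8 u) (rt8 r) = bE (rt8 u) (rt8 s)} ≤ 74) ∨
  (bE (rt8 r) (rt8 s) = 0 ∧ #{u | bE (rt8 u) (rt8 r) = bE (rt8 u) (rt8 s)} ≤ 84) ∨
  (bE (rt8 r) (rt8 s) = 1 ∧ ∃ u, rt8 u = rt8 r - rt8 s) ∨ (bE (rt8 r) (rt8 s) = 2 ∧ s = r) ∨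
  (bE (rt8 r) (rt8 s) = -2 ∧ rt8 s = -rt8 r)

lemma PP0 : PP ((dE8 ℚ).sm 0) := by unfold PP; decide +kernel

end Cfsg.Agent.H7.E8
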