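import Cfsg.Agent.H6.E7c
import Cfsg.Agent.H6.AS10

/-!
Subgroups of prime power order of a Chevalley group are monomial over a suitable field; ranks and
fixed spaces.
-/

set_option autoImplicit false
set_option linter.unusedSectionVars false

namespace Cfsg.Agent.H7.E8

open Subgroup Cfsg.Agent.H9.Chev Dat Cfsg.Agent.H7.Alt Cfsg.Agent.H1 H6A Module

lemma card_le_pow {B k V : Type*} [Group B] [Field k] [IsAlgClosed k] [AddCommGroup V] [Module k V]
    [FiniteDimensional k V] (ρ : B →* End k V) (hρ : Function.Injective ρ) {l : ℕ} [NeZero l]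
    (hl : (l : k) ≠ 0) (h1 : ∀ x y : B, x * y = y * x) (h2 : ∀ x : B, x ^ l = 1) :
    Nat.card B ≤ l ^ finrank k V := by
  haveI : NeZero (l : k) := ⟨hl⟩
  obtain ⟨ζ, hζ⟩ := HasEnoughRootsOfUnity.exists_primitiveRoot k l
  obtain ⟨s, s1, s2, s3⟩ := exists_eigbasis (fun x => ρ x) (fun x y => Commute.map (h1 x y) ρ)
    fun x => ⟨l, hl, by rw [← map_pow, h2, map_one]⟩
  have h3 : ∀ x (v : s), ∃ a : Fin l, ρ x v = ζ ^ a.val • v.1 := fun x v => by
    obtain ⟨c, hc⟩ := s3 v v.2 x
    have := rho_pow ρ hc l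
    rw [h2, map_one, End.one_apply] at this
    obtain ⟨j, hj, rfl⟩ := hζ.eq_pow_of_pow_eq_one (ξ := c) (smul_left_injective k (s2.ne_zero v.2)
      (by simpa using this.symm))
    exact ⟨⟨j, hj⟩, hc⟩
  choose a ha using h3
  have := Nat.card_le_card_of_injective a fun x y e => hρ (LinearMap.ext_on s1 fun v hv => by
    rw [ha x ⟨v, hv⟩, ha y ⟨v, hv⟩, e])
  rw [← finrank_top, ← s1, finrank_span_finset_eq_card s2]
  rwa [Nat.card_fun, Nat.card_fin, Nat.card_eq_fintype_card (α := s), Fintype.card_coe] at this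

lemma fix_le {k I : Type*} [Field k] [Fintype I] (T : End k (I → k)) (S : Finset I)
    (h : ∀ v, T v = v → (∀ a ∈ S, v a = 0) → v = 0) : finrank k (T.eigenspace 1) ≤ S.card := by
  have := LinearMap.finrank_le_finrank_of_injective
    (f := LinearMap.funLeft k k (fun a : S => a.1) ∘ₗ (T.eigenspace 1).subtype)
    ((injective_iff_map_eq_zero _).mpr fun v hv => Subtype.ext (h v (by
      simpa using End.mem_eigenspace_iff.mp v.2) fun a ha => congrFun hv ⟨a, ha⟩))
  simpa using this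

lemma orb3 {Φ : Type*} [Fintype Φ] [LinearOrder Φ] (σ : Φ → Φ) (h : ∀ r, σ (σ (σ r)) = r) :
    3 * (Finset.univ.filter fun r => σ r ≠ r ∧ r ≤ σ r ∧ r ≤ σ (σ r)).card +
      (Finset.univ.filter fun r => σ r = r).card ≤ Fintype.card Φ := by
  have hi : Function.Injective σ := Function.LeftInverse.injective (g := fun r => σ (σ r)) h
  set J := Finset.univ.filter fun r => σ r ≠ r ∧ r ≤ σ r ∧ r ≤ σ (σ r)
  have hJ : ∀ r, r ∈ J ↔ σ r ≠ r ∧ r ≤ σ r ∧ r ≤ σ (σ r) := by simp [J]
  have d1 : Disjoint J (J.image σ) := Finset.disjoint_left.mpr fun r hr h' => by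
    obtain ⟨s, hs, rfl⟩ := Finset.mem_image.mp h'
    rw [hJ] at hr hs
    rw [h] at hr
    exact hs.1 (le_antisymm hr.2.2 hs.2.1)
  have d2 : Disjoint (J ∪ J.image σ) (J.image (σ ∘ σ)) := Finset.disjoint_left.mpr fun r hr h' => by
    obtain ⟨s, hs, rfl⟩ := Finset.mem_image.mp h'
    rcases Finset.mem_union.mp hr with hr | hr
    · rw [hJ] at hr hs
      simp only [Function.comp, h] at hr
      exact hr.1 (le_antisymm hs.2.2 hr.2.1)
    · obtain ⟨u, hu, e⟩ := Finset.mem_image.mp hr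
      exact Finset.disjoint_left.mp d1 hu (hi e ▸ Finset.mem_image_of_mem σ hs)
  have d3 : Disjoint (J ∪ J.image σ ∪ J.image (σ ∘ σ)) (Finset.univ.filter fun r => σ r = r) :=
    Finset.disjoint_left.mpr fun r hr h' => by
      have e := (Finset.mem_filter.mp h').2
      simp only [Finset.mem_union, Finset.mem_image, hJ] at hr
      rcases hr with (hr | ⟨s, hs, rfl⟩) | ⟨s, hs, rfl⟩
      · exact hr.1 e
      · exact hs.1 (hi e)
      · exact hs.1 (hi (hi e))
  have := Finset.card_le_univ (J ∪ J.image σ ∪ J.image (σ ∘ σ) ∪ Finset.univ.filter fun r => σ r = r)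
  rw [Finset.card_union_of_disjoint d3, Finset.card_union_of_disjoint d2,
    Finset.card_union_of_disjoint d1, Finset.card_image_of_injective _ hi,
    Finset.card_image_of_injective _ (hi.comp hi)] at this
  omega

variable {n : ℕ} {I Φ : Type} [Fintype I] [DecidableEq I] {F : Type*} [Field F] {d : Dat I Φ n F}
  [Finite Φ] [Finite F] (h : d.Ax)

lemma T_le_NW : d.T ≤ NW h := fun t ht => ⟨t, ht, [], by simp [nw]⟩

lemma NW_norm : NW h ≤ normalizer (d.T : Set (GL I F)) := by
  rintro _ ⟨t, ht, L, rfl⟩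
  exact mul_mem (le_normalizer ht) (nw_norm h L)

lemma pow_T {l j m : ℕ} [Fact l.Prime] (hn : n < l ^ j * (l - 1)) {x : GL I F} (hx : x ∈ NW h)
    (e : x ^ l ^ m = 1) : x ^ l ^ j ∈ d.T := by
  have h1 : piW h ⟨x, hx⟩ ^ l ^ m = 1 := by
    rw [← map_pow, ← map_one (piW h)]; exact congrArg _ (Subtype.ext e)
  have h2 : (⟨x, hx⟩ : NW h) ^ l ^ j ∈ (piW h).ker := by
    rw [MonoidHom.mem_ker, map_pow]
    exact Units.ext (by simpa using end_pow j hn m (W := (piW h ⟨x, hx⟩).1) (by
      simpa using congrArg Units.val h1))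
  rwa [piW_ker] at h2

theorem syl_NW {l j : ℕ} [Fact l.Prime] {ξ : Fˣ} (hξ : orderOf ξ = l ^ (j + 1))
    (hr : ∀ r, ∃ i, ¬ (l : ℤ) ∣ d.rt r i) (hn : n < l ^ j * (l - 1)) {P : Subgroup (GL I F)}
    (hP : IsPGroup l P) (hG : P ≤ GH d) : ∃ c ∈ GH d, cj c P ≤ NW h := by
  obtain ⟨S, hS⟩ := exists_isSylowIn (p := l) (NW h)
  have h1 := hS.inf_of_normal (T_le_NW h) (NW_norm h)
  rw [← inf_top_eq d.T] at h1
  have h2 : IsSylowIn l S (GH d) := isSylowIn_of_maximal hS.isPGroup (hS.le.trans (NW_le h))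
    fun Q hQ hSQ hQG => by
      by_contra hne
      obtain ⟨g, hg, hg'⟩ := SetLike.exists_of_lt
        (lt_inf_normalizer_of_isPGroup hQ (lt_of_le_of_ne hSQ (Ne.symm hne)))
      have e6 : g ∈ NW h := reg_main h (hQG hg.1) fun r => by
        obtain ⟨i, hi⟩ := hr r
        have e1 := conj_mem_of_mem_normalizer' hg.2 (mem_syl T_comm h1 (x := d.D (pc (co i) ξ))
          ⟨D_mem _, trivial⟩ ⟨j + 1, D_pc_pow _ (hξ ▸ pow_orderOf_eq_one ξ)⟩).1
        obtain ⟨m, hm⟩ := exists_pow_of_isPGroup hS.isPGroup e1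
        refine ⟨pc (co i) ξ ^ l ^ j, fun e => hi ?_, ?_⟩
        · rw [AddChar.pow_apply, pc_apply, ← zpow_natCast, ← zpow_mul, ← orderOf_dvd_iff_zpow_eq_one,
            hξ, pow_succ, mul_comm (co i _), Nat.cast_mul] at e
          exact Int.dvd_of_mul_dvd_mul_left (by simp [(Fact.out : l.Prime).ne_zero]) e
        · have := pow_T h hn (hS.le e1) hm
          rw [map_pow]
          convert this using 1
          simpa using (conj_pow (a := g⁻¹)).symm
      exact hg' (zpowers_le.mp (hS.le_of_le_normalizer (H7.Alt.isPGroup_zpowers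
        (exists_pow_of_isPGroup hQ hg.1)) (zpowers_le.mpr e6) (zpowers_le.mpr hg.2)))
  obtain ⟨c, hc, h3⟩ := h2.exists_cj_le hP hG
  exact ⟨c, hc, h3.trans hS.le⟩

theorem rank_gen {l : ℕ} [Fact l.Prime] {ζ : Fˣ} (hζ : IsPrimitiveRoot ζ l) (hn : 2 < l ^ n)
    (hm : ∀ L, (∀ (a : Fin n → ZMod l) v, evZ a v = evZ a (WL d L v)) → WL d L = 1 ∨ WL d L = -1)
    {A : Subgroup (GL I F)} (hA : A ≤ NW h) (h1 : ∀ x ∈ A, ∀ y ∈ A, x * y = y * x)
    (h2 : ∀ x ∈ A, x ^ l = 1) : Nat.card A < l ^ (2 * n) := by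
  have hl := (Fact.out : l.Prime)
  let f := (piW h).comp (inclusion hA)
  have c0 := f.ker.card_mul_index
  rw [index_ker] at c0
  have c1 : Nat.card f.range ≤ l ^ n := by
    let θ := (LinearMap.toMatrixAlgEquiv' (R := ℚ) (n := Fin n)).toMonoidHom.comp
      (qE.toMonoidHom.comp ((Units.coeHom _).comp f.range.subtype))
    have := card_le_pow (matRep (algebraMap ℚ (AlgebraicClosure ℚ)) θ)
      ((injective_iff_map_eq_one _).mpr fun x e => Subtype.ext (Units.ext (qE_inj
        ((map_eq_one_iff _ (LinearMap.toMatrixAlgEquiv' (R := ℚ) (n := Fin n)).injective).mp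
          ((matRep_eq_one _ θ x).mp e) |>.trans
          (map_one _).symm)))) (l := l) (by simp [hl.ne_zero])
      (by
        rintro ⟨_, x, rfl⟩ ⟨_, y, rfl⟩
        exact Subtype.ext (by
          simp only [coe_mul, ← map_mul]; exact congrArg f (Subtype.ext (h1 _ x.2 _ y.2))))
      (by
        rintro ⟨_, x, rfl⟩
        exact Subtype.ext (by
          simp only [coe_pow, ← map_pow, coe_one, ← map_one f]
          exact congrArg f (Subtype.ext (h2 _ x.2))))
    simpa using this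
  have c2 : f.ker.map A.subtype ≤ (tor hζ d).range := by
    rintro _ ⟨x, hx, rfl⟩
    exact exists_tor hζ h ((piW_ker h).le hx) (h2 _ x.2)
  have c3 : Nat.card (tor hζ d).range = l ^ n := by
    rw [← Nat.card_congr (MonoidHom.ofInjective (tor_inj hζ h)).toEquiv]; simp
  have p1 : 0 < Nat.card f.range := Nat.pos_of_ne_zero fun e => by
    rw [e, mul_zero] at c0; exact Nat.card_pos.ne c0
  rw [← c0, two_mul, pow_add]
  rcases c2.eq_or_lt with e | e
  · refine Nat.mul_lt_mul_of_le_of_lt (by rw [← card_subtype, e, c3]) (lt_of_le_of_lt ?_ hn)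
      (pow_pos hl.pos n)
    have : (f.range : Set (AddMonoid.End (Fin n → ℤ))ˣ) ⊆ {1, -1} := by
      rintro _ ⟨x, rfl⟩
      obtain ⟨t, ht, L, e1, e2⟩ := piW_spec h (inclusion hA x)
      have := hm L fun a => tor_conj hζ h (L := L) (a := .ofAdd a) (b := .ofAdd a) (by
        have e3 := h1 _ x.2 _ (map_subtype_le _ (e.ge ⟨.ofAdd a, rfl⟩))
        rw [show x.1 = _ from e1, ← mul_assoc, ← T_comm _ ht _ (tor_mem hζ _), mul_assoc,
          mul_assoc] at e3
        rw [mul_left_cancel e3, mul_inv_cancel_right])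
      exact this.imp (fun e => Units.ext (e2.trans e)) fun e => Units.ext (e2.trans e)
    exact (Set.ncard_le_ncard this).trans ((Set.ncard_insert_le _ _).trans (by simp))
  · refine Nat.mul_lt_mul_of_lt_of_le ?_ c1 (pow_pos hl.pos n)
    rw [← card_subtype, ← c3]
    exact lt_of_le_of_ne (card_le_of_le c2) fun e' => e.ne (eq_of_le_of_card_ge c2 e'.ge)

include h in
lemma WL_inj (L : List (Fin n)) : Function.Injective (WL d L) := by
  induction L with
  | nil => exact fun _ _ e => e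
  | cons p L ih => exact fun a b e => ih (Function.LeftInverse.injective (h.W_W p) e)

variable {k : Type*} [Field k] (σ : F →+* k) (hI : ∀ b, (∃ i, b = d.hh i) ∨ ∃ r, b = d.e r)
include h hI

lemma coord (χ : AddChar (Fin n → ℤ) Fˣ) (L : List (Fin n)) (v : I → k) (r : Φ) :
    matRep σ (Units.coeHom _) (d.D χ * d.nw L) v (d.e (d.ww L r)) =
      σ ((d.D χ * d.nw L).1 (d.e (d.ww L r)) (d.e r)) * v (d.e r) := by
  change ∑ b, σ ((d.D χ * d.nw L).1 (d.e (d.ww L r)) b) * v b = _
  refine Finset.sum_eq_single _ (fun b _ hb => ?_) (by simp)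
  by_contra e
  have e1 : (d.nw L).1 (d.e (d.ww L r)) b ≠ 0 := fun e1 => e (by
    simp [D_val, Matrix.diagonal_mul, e1])
  have e2 := WL_inj h L ((rt_ww h L r).symm.trans (nw_gr h L _ _ e1))
  rcases hI b with ⟨i, rfl⟩ | ⟨s, rfl⟩
  · exact h.ht_ne r (by rw [e2, h.gr_hh, map_zero])
  · exact hb (by rw [h.rt_inj e2])

variable [Fintype Φ] [LinearOrder Φ]

lemma fix_nw (χ : AddChar (Fin n → ℤ) Fˣ) (L : List (Fin n)) (h3 : WL d L ^ 3 = 1) :
    3 * finrank k (End.eigenspace (matRep σ (Units.coeHom _) (d.D χ * d.nw L)) 1) ≤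
      3 * n + Fintype.card Φ + 2 * (Finset.univ.filter fun r => d.ww L r = r).card := by
  have h4 : ∀ r, d.ww L (d.ww L (d.ww L r)) = r := fun r => h.rt_inj (by
    rw [rt_ww h, rt_ww h, rt_ww h]
    exact DFunLike.congr_fun ((pow_three _).symm.trans h3) _)
  have h5 := orb3 _ h4
  have h6 := fix_le (matRep σ (Units.coeHom _) (d.D χ * d.nw L)) (Finset.univ.image d.hh ∪
    ((Finset.univ.filter fun r => d.ww L r ≠ r ∧ r ≤ d.ww L r ∧ r ≤ d.ww L (d.ww L r)) ∪
      Finset.univ.filter fun r => d.ww L r = r).image d.e) fun v hv h0 => funext fun b => by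
    have k1 : ∀ r, v (d.e r) = 0 → v (d.e (d.ww L r)) = 0 := fun r e => by
      rw [← hv, coord h σ hI, e, mul_zero]
    have k2 : ∀ r, r ≤ d.ww L r → r ≤ d.ww L (d.ww L r) → v (d.e r) = 0 := fun r e1 e2 =>
      h0 _ (Finset.mem_union_right _ (Finset.mem_image_of_mem _ (by
        by_cases e : d.ww L r = r <;> simp [e, e1, e2])))
    rcases hI b with ⟨i, rfl⟩ | ⟨r, rfl⟩
    · exact h0 _ (by simp)
    by_cases a1 : r ≤ d.ww L r ∧ r ≤ d.ww L (d.ww L r)
    · exact k2 r a1.1 a1.2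
    rw [← h4 r]
    rcases le_total (d.ww L r) (d.ww L (d.ww L r)) with a2 | a2
    · exact k1 _ (k1 _ (k2 _ a2 (by rw [h4]; by_contra a3; exact a1 ⟨by order, by order⟩)))
    · exact k1 _ (k2 _ (by rw [h4]; by_contra a3; exact a1 ⟨by order, by order⟩) (by rwa [h4]))
  replace h6 := h6.trans ((Finset.card_union_le _ _).trans (add_le_add Finset.card_image_le
    (Finset.card_image_le.trans (Finset.card_union_le _ _))))
  rw [Finset.card_univ, Fintype.card_fin] at h6
  omega

lemma fix_T [DecidableEq F] (χ : AddChar (Fin n → ℤ) Fˣ) :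
    finrank k (End.eigenspace (matRep σ (Units.coeHom _) (d.D χ)) 1) ≤
      n + (Finset.univ.filter fun r => χ (d.rt r) = 1).card := by
  have h6 := fix_le (matRep σ (Units.coeHom _) (d.D χ)) (Finset.univ.image d.hh ∪
    (Finset.univ.filter fun r => χ (d.rt r) = 1).image d.e) fun v hv h0 => funext fun b => by
    rcases hI b with ⟨i, rfl⟩ | ⟨r, rfl⟩
    · exact h0 _ (by simp)
    by_cases e : χ (d.rt r) = 1
    · exact h0 _ (Finset.mem_union_right _ (Finset.mem_image_of_mem _ (by simpa using e)))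
    have e1 := coord h σ hI χ [] v r
    simp only [nw, ww, List.map_nil, List.prod_nil, mul_one, List.foldr_nil, hv, D_val,
      Matrix.diagonal_apply_eq] at e1
    by_contra e2
    exact e (Units.ext (σ.injective ((mul_right_cancel₀ e2 (e1.symm.trans (one_mul _).symm)).trans
      (map_one σ).symm)))
  replace h6 := h6.trans ((Finset.card_union_le _ _).trans (add_le_add Finset.card_image_le
    Finset.card_image_le))
  rwa [Finset.card_univ, Fintype.card_fin] at h6

end Cfsg.Agent.H7.E8
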