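import Cfsg.Agent.H7.E8C1

/-!
The Weyl group of E8: reduction to the fundamental alcove; congruences.
-/

set_option autoImplicit false
set_option maxRecDepth 100000

namespace Cfsg.Agent.H7.E8

open Cfsg.Agent.H9.Chev Cfsg.Lie Finset Cfsg.Agent.H4 H6A Alt

variable {l : ℕ}

lemma rt8_eq {F : Type*} [Field F] : (dE8 F).rt = rt8 := rfl

lemma rt8_apply (r : Fin 240) (i : Fin 8) :
    rt8 r i = Int.subNatNat (f4 (f32 pkE8.G (8 + r)) i) 8 := rfl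

lemma rt8_ww (L : List (Fin 8)) (r : Fin 240) :
    rt8 ((dE8 ℚ).ww L r) = WL (dE8 ℚ) L (rt8 r) := rt_ww (axE8 ℚ) L r

lemma rt8_sm (p : Fin 8) : rt8 ((dE8 ℚ).sm p) = Pi.single p 1 := (axE8 ℚ).rt_sm p

attribute [local irreducible] rt8 dE8

/-- reflections on weights -/
noncomputable def rf {R : Type*} [CommRing R] (p : Fin 8) (a : Fin 8 → R) : Fin 8 → R :=
  fun i => a i - ((dE8 ℚ).A p i : R) * a p

lemma evZ_rf (p : Fin 8) (a : Fin 8 → ZMod l) (v : Fin 8 → ℤ) :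
    evZ (rf p a) v = evZ a ((dE8 ℚ).W p v) := by
  rw [Dat.W_apply, map_sub, map_zsmul, evZ_single]
  simp only [evZ_apply, rf, mul_sub, sum_sub_distrib, Dat.pr, AddMonoidHom.coe_mk, ZeroHom.coe_mk,
    zsmul_eq_mul, Int.cast_sum, Int.cast_mul, sum_mul]
  congr 1
  exact sum_congr rfl fun i _ => by ring

/-- the potential -/
def pot (b : Fin 8 → ℤ) : ℤ :=
  (30 * (b 1 - b 2)) ^ 2 + (30 * (b 1 + b 2) - 2) ^ 2 + (30 * (b 1 + b 2 + 2 * b 3) - 4) ^ 2 +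
    (30 * (b 1 + b 2 + 2 * b 3 + 2 * b 4) - 6) ^ 2 +
    (30 * (b 1 + b 2 + 2 * b 3 + 2 * b 4 + 2 * b 5) - 8) ^ 2 +
    (30 * (b 1 + b 2 + 2 * b 3 + 2 * b 4 + 2 * b 5 + 2 * b 6) - 10) ^ 2 +
    (30 * (b 1 + b 2 + 2 * b 3 + 2 * b 4 + 2 * b 5 + 2 * b 6 + 2 * b 7) - 12) ^ 2 +
    (30 * (4 * b 0 + 5 * b 1 + 7 * b 2 + 10 * b 3 + 8 * b 4 + 6 * b 5 + 4 * b 6 + 2 * b 7) - 46) ^ 2

lemma pot_rf (p : Fin 8) (b : Fin 8 → ℤ) : pot (rf p b) = pot b + 240 * b p := by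
  fin_cases p <;> simp [pot, rf, A_E8] <;> ring

theorem alcove [NeZero l] (U : (Fin 8 → ZMod l) → Prop) (hU : ∀ p a, U a → U (rf p a))
    {a : Fin 8 → ZMod l} (ha : U a) : ∃ s : Fin 8 → ℕ, 2 * s 0 + 3 * s 1 + 4 * s 2 + 6 * s 3 +
      5 * s 4 + 4 * s 5 + 3 * s 6 + 2 * s 7 ≤ l ∧ U fun i => s i := by
  have h0 : ∀ b, 0 ≤ pot b := fun b => by unfold pot; positivity
  obtain ⟨b, hb, hm⟩ := (InvImage.wf (fun b => (pot b).toNat) wellFounded_lt).has_min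
    {b : Fin 8 → ℤ | U fun i => b i} ⟨fun i => (a i).val, by simpa using ha⟩
  have h1 : ∀ c : Fin 8 → ℤ, (U fun i => c i) → pot b ≤ pot c := fun c hc => by
    have := hm c hc
    have := h0 b
    have := h0 c
    simp only [InvImage] at *
    omega
  have h2 : ∀ p, 0 ≤ b p := fun p => by
    have := h1 (rf p b) (by convert hU p _ hb using 2; simp [rf])
    rw [pot_rf] at this; omega
  have h3 := h1 (b - Pi.single 7 (l : ℤ)) (by
    refine (congrArg U (funext fun i => ?_)).mpr hb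
    by_cases e : i = 7 <;> simp [e])
  have h4 : pot (b - Pi.single 7 (l : ℤ)) = pot b + 240 * l * (30 * l + 29 - 30 * (2 * b 0 + 3 * b 1 +
      4 * b 2 + 6 * b 3 + 5 * b 4 + 4 * b 5 + 3 * b 6 + 2 * b 7)) := by
    simp [pot]; ring
  have h5 : (0 : ℤ) < 240 * l := by have := NeZero.pos l; omega
  rw [h4, le_add_iff_nonneg_right, mul_nonneg_iff_of_pos_left h5] at h3
  lift b to Fin 8 → ℕ using h2
  refine ⟨b, by simp only at h3; omega, by simpa using hb⟩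

lemma sum_w {M : Type*} [AddCommMonoid M] (L : List (Fin 8)) (f : (Fin 8 → ℤ) → M) :
    ∑ r, f (WL (dE8 ℚ) L (rt8 r)) = ∑ r, f (rt8 r) := by
  induction L generalizing f with
  | nil => rfl
  | cons p L ih =>
    refine (ih fun s => f ((dE8 ℚ).W p s)).trans ?_
    exact Fintype.sum_equiv (Function.Involutive.toPerm _ ((axE8 ℚ).w_w p)) _ _ fun r =>
      congrArg f (rt8_ww [p] r).symm

lemma ne_rf (p : Fin 8) {a : Fin 8 → ZMod l} (h : ∃ v, evZ a v ≠ 0) : ∃ v, evZ (rf p a) v ≠ 0 :=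
  h.elim fun v hv => ⟨(dE8 ℚ).W p v, by rwa [evZ_rf, (axE8 ℚ).W_W]⟩

lemma ne_of {a : Fin 8 → ZMod l} (h : a ≠ 0) : ∃ v, evZ a v ≠ 0 :=
  (Function.ne_iff.mp h).elim fun i hi => ⟨_, (evZ_single a i).trans_ne hi⟩

theorem tor3_le {a : Fin 8 → ZMod 3} (h : a ≠ 0) : #{r | evZ a (rt8 r) = 0} ≤ 126 := by
  by_contra h1
  obtain ⟨s, h2, ⟨v, h3⟩, h4⟩ := alcove (fun a : Fin 8 → ZMod 3 => (∃ v, evZ a v ≠ 0) ∧
    ¬ #{r | evZ a (rt8 r) = 0} ≤ 126) (fun p a h => ⟨ne_rf p h.1, by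
      have := sum_w [p] fun v => if evZ a v = 0 then 1 else 0
      simp only [card_filter, evZ_rf] at h ⊢
      exact fun e => h.2 (this.symm.trans_le e)⟩) ⟨ne_of h, h1⟩
  refine h4 (tor3 _ ?_)
  have h5 : (fun i => (s i : ZMod 3)) = ![(s 0 : ZMod 3), s 1, s 2, s 3, s 4, s 5, s 6, s 7] := by
    ext i; fin_cases i <;> rfl
  rw [h5] at h3 ⊢
  have e2 : s 2 = 0 := by omega
  have e3 : s 3 = 0 := by omega
  have e4 : s 4 = 0 := by omega
  have e5 : s 5 = 0 := by omega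
  have : (s 0 = 0 ∧ s 1 = 0 ∧ s 6 = 0 ∧ s 7 = 0) ∨ (s 0 = 1 ∧ s 1 = 0 ∧ s 6 = 0 ∧ s 7 = 0) ∨
    (s 0 = 0 ∧ s 1 = 1 ∧ s 6 = 0 ∧ s 7 = 0) ∨ (s 0 = 0 ∧ s 1 = 0 ∧ s 6 = 1 ∧ s 7 = 0) ∨
    (s 0 = 0 ∧ s 1 = 0 ∧ s 6 = 0 ∧ s 7 = 1) := by omega
  rcases this with h | h | h | h | h <;> simp only [h, e2, e3, e4, e5] at h3 ⊢
  · simp [evZ_apply, Fin.sum_univ_eight] at h3
  all_goals simp

lemma x17_eq (s : Fin 8 → ℕ) (r : Fin 240) : x17 (s 0) (s 1) (s 2) (s 3) (s 4) (s 5) (s 6) (s 7) r =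
    (evZ (fun i => (s i : ZMod 17)) (rt8 r)).val := by
  rw [x17, frc_eq, ← ZMod.val_natCast]
  have h1 : ∀ i, (rt8 r i : ZMod 17) = f4 (f32 pkE8.G (8 + r)) i + 9 := fun i => by
    rw [rt8_apply, Int.subNatNat_eq_coe]
    generalize f4 _ _ = x
    push_cast
    rw [sub_eq_add_neg]; rfl
  simp only [evZ_apply, Fin.sum_univ_eight, h1]
  generalize f32 _ _ = G
  refine congrArg ZMod.val ?_
  simp only [Fin.val_zero, Fin.val_one, Fin.val_two, Fin.coe_ofNat_eq_mod, Nat.reduceMod]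
  push_cast
  ring

theorem no17 {a : Fin 8 → ZMod 17} (h : a ≠ 0) {L : List (Fin 8)}
    (h1 : ∀ v, evZ a v = 3 * evZ a (WL (dE8 ℚ) L v)) : False := by
  obtain ⟨s, h2, ⟨v, h3⟩, h4⟩ := alcove (fun a : Fin 8 → ZMod 17 => (∃ v, evZ a v ≠ 0) ∧
    ∑ r, (256 ^ (evZ a (rt8 r)).val - 256 ^ (3 * evZ a (rt8 r)).val : ℤ) = 0)
    (fun p a h => ⟨ne_rf p h.1, by
      simp only [evZ_rf]
      exact (sum_w [p] fun v => (256 ^ (evZ a v).val - 256 ^ (3 * evZ a v).val : ℤ)).trans h.2⟩)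
    ⟨ne_of h, by
      rw [sum_sub_distrib, ← sum_w L fun v => (256 ^ (3 * evZ a v).val : ℤ), sub_eq_zero]
      exact sum_congr rfl fun r _ => by rw [← h1]⟩
  have := ck17
  simp only [lp, allLt_iff, frc_eq, bimp_iff, Nat.ble_eq] at this
  replace this := this (s 0) (by omega) (by omega) (s 1) (by omega) (by omega) (s 2) (by omega)
    (by omega) (s 3) (by omega) (by omega) (s 4) (by omega) (by omega) (s 5) (by omega) (by omega)
    (s 6) (by omega) (by omega) (s 7) (by omega) (by omega)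
  simp only [c17, bor_eq, Bool.or_eq_true, Nat.beq_eq, bnot_iff, zI_iff, sumI_eq, frc_eq, x17_eq,
    Int.subNatNat_eq_coe] at this
  rcases this with e | e
  · refine h3 ?_
    have : ∀ i, s i = 0 := fun i => by fin_cases i <;> simp only [Fin.reduceFinMk] <;> omega
    simp [evZ_apply, this]
  · refine e (Eq.trans (sum_congr rfl fun r _ => ?_) h4)
    rw [ZMod.val_mul]
    push_cast
    rfl

lemma reg8 [Fact l.Prime] (r : Fin 240) : ∃ i, ¬ (l : ℤ) ∣ rt8 r i := by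
  by_contra h
  push Not at h
  have := gcd1 r ▸ Finset.dvd_gcd (s := univ) fun i _ => h i
  exact (Fact.out : l.Prime).one_lt.ne' (by exact_mod_cast Int.eq_one_of_dvd_one (by simp) this)

lemma cong8 [Fact l.Prime] (L : List (Fin 8))
    (h : ∀ (a : Fin 8 → ZMod l) v, evZ a v = evZ a (WL (dE8 ℚ) L v)) :
    WL (dE8 ℚ) L = 1 ∨ WL (dE8 ℚ) L = -1 := by
  have h1 : ∀ i, ∃ ε : ℤ, (ε = 1 ∨ ε = -1) ∧ WL (dE8 ℚ) L (Pi.single i 1) = Pi.single i ε := fun i => by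
    have e1 : WL (dE8 ℚ) L (Pi.single i 1) = rt8 ((dE8 ℚ).ww L ((dE8 ℚ).sm i)) := by
      rw [rt8_ww, rt8_sm]
    rcases gcd2 ((dE8 ℚ).ww L ((dE8 ℚ).sm i)) i with e | e | e
    · exact ⟨1, Or.inl rfl, e1.trans e⟩
    · exact ⟨-1, Or.inr rfl, e1.trans (e.trans (Pi.single_neg _ _).symm)⟩
    have := e ▸ Finset.dvd_gcd (s := univ) (a := (l : ℤ)) fun j _ => by
      have := h (Pi.single j 1) (Pi.single i 1)
      rw [e1, ← sub_eq_zero, ← map_sub, ← neg_sub, map_neg, neg_eq_zero, evZ_apply,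
        sum_eq_single j (by simp +contextual [Pi.single_apply]) (by simp)] at this
      simpa only [Pi.single_eq_same, mul_one, ZMod.intCast_zmod_eq_zero_iff_dvd] using this
    exact absurd (by exact_mod_cast Int.eq_one_of_dvd_one (by simp) this)
      (Fact.out : l.Prime).one_lt.ne'
  choose ε h2 h3 using h1
  obtain ⟨r, hr⟩ := hi8
  have h4 : ∀ i, rt8 ((dE8 ℚ).ww L r) i = rt8 r i * ε i := fun i => by
    rw [rt8_ww]
    nth_rw 1 [pi_eq_sum_univ' (rt8 r)]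
    simp only [map_sum, map_zsmul, h3]
    simp [Pi.single_apply]
  refine (sgn8 ((dE8 ℚ).ww L r)).imp (fun e => end_ext fun i => ?_) fun e => end_ext fun i => ?_ <;>
    have h5 := e i <;> have := hr i <;> rcases h2 i with e' | e' <;> rw [h4, e'] at h5 <;>
      rw [h3, e']
  · rfl
  · omega
  · omega
  · exact Pi.single_neg _ _

end Cfsg.Agent.H7.E8
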