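import Cfsg.Agent.H7.E8C2
import Cfsg.Agent.H7.E8G2

/-!
Elements of order three of the Weyl group of E8 fix few roots.
-/

set_option autoImplicit false
set_option maxRecDepth 100000

namespace Cfsg.Agent.H7.E8

open Cfsg.Agent.H9.Chev Cfsg.Lie Finset Cfsg.Agent.H4 H6A Alt

attribute [local irreducible] rt8 dE8

lemma bE_eq (v w : Fin 8 → ℤ) : bE v w = 2 * (v 0 * w 0 + v 1 * w 1 + v 2 * w 2 + v 3 * w 3 +
    v 4 * w 4 + v 5 * w 5 + v 6 * w 6 + v 7 * w 7) - (v 0 * w 2 + v 2 * w 0 + v 1 * w 3 + v 3 * w 1 +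
    v 2 * w 3 + v 3 * w 2 + v 3 * w 4 + v 4 * w 3 + v 4 * w 5 + v 5 * w 4 + v 5 * w 6 + v 6 * w 5 +
    v 6 * w 7 + v 7 * w 6) := by
  simp [bE, Dat.pr, A_E8, Fin.sum_univ_eight]; ring

lemma bE_W (p : Fin 8) (v w : Fin 8 → ℤ) : bE ((dE8 ℚ).W p v) ((dE8 ℚ).W p w) = bE v w := by
  simp only [bE_eq, Dat.W_apply, Dat.pr, A_E8]
  fin_cases p <;> simp [Fin.sum_univ_eight] <;> ring

lemma PP_all (r : Fin 240) : PP r := by
  induction hn : f8 pkE8.rk r using Nat.strong_induction_on generalizing r with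
  | _ n ih =>
  rcases trans0 r with rfl | ⟨p, hp⟩
  · exact PP0
  intro s
  have h1 := ih _ (hn ▸ hp) _ rfl ((dE8 ℚ).w p s)
  have h2 : ∀ r, rt8 ((dE8 ℚ).w p r) = (dE8 ℚ).W p (rt8 r) := rt8_ww [p]
  have h3 : #{u | bE (rt8 u) (rt8 ((dE8 ℚ).w p r)) = bE (rt8 u) (rt8 ((dE8 ℚ).w p s))} =
      #{u | bE (rt8 u) (rt8 r) = bE (rt8 u) (rt8 s)} :=
    (card_equiv (Function.Involutive.toPerm _ ((axE8 ℚ).w_w p)) fun u => by
      simp only [mem_filter, mem_univ, true_and]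
      change _ ↔ bE (rt8 ((dE8 ℚ).w p u)) _ = bE (rt8 ((dE8 ℚ).w p u)) _
      simp only [h2, bE_W]).symm
  rw [h3, h2, h2, bE_W] at h1
  refine h1.imp_right (Or.imp_right (Or.imp (And.imp_right ?_) (Or.imp
    (And.imp_right fun e => (axE8 ℚ).w_inj p e) (And.imp_right fun e => ?_))))
  · rintro ⟨u, hu⟩
    exact ⟨(dE8 ℚ).w p u, by rw [h2, hu, map_sub, (axE8 ℚ).W_W, (axE8 ℚ).W_W]⟩
  · rw [← (axE8 ℚ).W_W p (rt8 s), e, map_neg, (axE8 ℚ).W_W]

theorem fix74 (L : List (Fin 8)) (h3 : WL (dE8 ℚ) L ^ 3 = 1) (h1 : WL (dE8 ℚ) L ≠ 1) :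
    #{r | (dE8 ℚ).ww L r = r} ≤ 74 := by
  set w := WL (dE8 ℚ) L
  set σ := (dE8 ℚ).ww L
  have e1 : ∀ r, rt8 (σ r) = w (rt8 r) := rt8_ww L
  have e2 : ∀ u v, bE (w u) (w v) = bE u v := WL_inv bE_W L
  have e3 : ∀ v, w (w (w v)) = v := DFunLike.congr_fun ((pow_three _).symm.trans h3)
  have e4 : ∀ r, #{r | σ r = r} ≤ #{u | bE (rt8 u) (rt8 r) = bE (rt8 u) (rt8 (σ r))} := fun r =>
    card_le_card fun u hu => by
      simp only [mem_filter, mem_univ, true_and] at hu ⊢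
      rw [e1, ← e2, ← e1, hu]
  have e5 : ∀ r, bE (rt8 r) (rt8 r) = 2 := fun r => by
    have h0 : rt8 r ≠ 0 := fun e => (axE8 ℚ).ht_ne r (by rw [rt8_eq, e, map_zero])
    rcases PP_all r r with h | h | h | h | h
    · simp at h
    · simp at h
    · obtain ⟨u, hu⟩ := h.2
      exact absurd (by rw [rt8_eq, hu, sub_self, map_zero]) ((axE8 ℚ).ht_ne u)
    · exact h.1
    · exact absurd (funext fun i => by have := congrFun h.2 i; simp at this ⊢; omega) h0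
  by_cases h4 : ∃ r, bE (rt8 r) (rt8 (σ r)) = -1
  · obtain ⟨r, hr⟩ := h4
    refine (e4 r).trans ?_
    rcases PP_all r (σ r) with h | h | h | h | h <;> omega
  have h5 : ∀ r, bE (rt8 r) (rt8 (σ r)) = if σ r = r then 2 else 0 := fun r => by
    split_ifs with e
    · rw [e, e5]
    rcases PP_all r (σ r) with h | h | h | h | h
    · exact absurd ⟨r, h.1⟩ h4
    · exact h.1
    · obtain ⟨u, hu⟩ := h.2
      refine absurd ⟨u, ?_⟩ h4
      have a1 := h.1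
      have a2 := (e2 _ _).trans a1
      have a3 := (e2 _ _).trans a2
      have a4 := e5 (σ r)
      rw [e1, hu, map_sub]
      rw [e1] at *
      rw [e3] at a3
      rw [bE_eq] at *
      simp only [Pi.sub_apply]
      linear_combination a1 + a2 - a3 - a4
    · exact absurd h.2 e
    · have a1 := e3 (rt8 r)
      have a2 := h.2
      rw [e1] at a2
      rw [a2, map_neg, a2, neg_neg, a2] at a1
      exact absurd (by rw [rt8_eq, show rt8 r = 0 from funext fun i => by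
        have := congrFun a1 i; simp at this ⊢; omega, map_zero]) ((axE8 ℚ).ht_ne r)
  have h6 : (60 : ℤ) ∣ ∑ r, bE (rt8 r) (rt8 (σ r)) := by
    have : ∀ r, bE (rt8 r) (rt8 (σ r)) = ∑ i, ∑ j, rt8 r i * rt8 r j *
        (dE8 ℚ).pr i (w (Pi.single j 1)) := fun r => by
      rw [e1, bE]
      refine sum_congr rfl fun i _ => ?_
      nth_rw 2 [pi_eq_sum_univ' (rt8 r)]
      simp only [map_sum, map_zsmul, mul_sum, smul_eq_mul, mul_assoc]
    simp only [this]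
    rw [sum_comm]
    refine dvd_sum fun i _ => ?_
    rw [sum_comm]
    exact dvd_sum fun j _ => by rw [← sum_mul]; exact (d60 i j).mul_right _
  obtain ⟨p, hp⟩ : ∃ p, σ ((dE8 ℚ).sm p) ≠ (dE8 ℚ).sm p := by
    by_contra h
    push Not at h
    exact h1 (end_ext fun p => by rw [← rt8_sm, ← e1, h]; rfl)
  have h7 := e4 ((dE8 ℚ).sm p)
  have h8 := h5 ((dE8 ℚ).sm p)
  rw [if_neg hp] at h8
  simp only [h5, ← sum_filter, sum_const, nsmul_eq_mul] at h6
  rcases PP_all ((dE8 ℚ).sm p) (σ ((dE8 ℚ).sm p)) with h | h | h | h | h <;> omega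

end Cfsg.Agent.H7.E8
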