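import Cfsg.Agent.H7.E8R2

/-!
Finite checks on triples of eighteen points.
-/

set_option autoImplicit false
set_option maxRecDepth 100000

namespace Cfsg.Agent.H7.E8

def bs (a b c : Fin 18) (n : ℕ) : Fin 6 :=
  ((List.finRange 6).filter fun i => i.1 ≠ a.1 / 3 ∧ i.1 ≠ b.1 / 3 ∧ i.1 ≠ c.1 / 3).getD n 0

def ds (a b : Fin 18) (n : ℕ) : Fin 18 :=
  ((List.finRange 18).filter fun i => (i.1 / 3 = a.1 / 3 ∨ i.1 / 3 = b.1 / 3) ∧ i ≠ a ∧ i ≠ b).getD n 0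

abbrev tw (a b c : Fin 18) : Prop := a.1 / 3 = b.1 / 3 ∨ a.1 / 3 = c.1 / 3 ∨ b.1 / 3 = c.1 / 3

abbrev pt (i j l : Fin 6) (d e f a b c : Fin 18) : List (Fin 18) :=
  [bl i 0, bl i 1, bl i 2, bl j 0, bl j 1, bl j 2, bl l 0, bl l 1, bl l 2, d, e, f, a, b, c]

lemma ck2 : ∀ a b c : Fin 18, a ≠ b ∧ a ≠ c ∧ b ≠ c → tw a b c →
    (pt (bs a b c 0) (bs a b c 1) (bs a b c 2) (bl (bs a b c 3) 0) (bl (bs a b c 3) 1)
      (bl (bs a b c 3) 2) a b c).Nodup := by decide +kernel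

lemma ck3 : ∀ a b c : Fin 18, ¬ tw a b c →
    (pt (bs a b c 0) (bs a b c 1) (bs a b c 2) (ds a b 0) (ds a b 1) (ds a b 2) a b c).Nodup ∧
      (ds a b 0 ≠ ds a b 1 ∧ ds a b 0 ≠ ds a b 2 ∧ ds a b 1 ≠ ds a b 2) ∧
        tw (ds a b 0) (ds a b 1) (ds a b 2) := by decide +kernel

lemma ck4 : ∀ i j : Fin 16, i ≠ j → ∃ l m : Fin 18,
    [0, 1, i.natAdd 2, j.natAdd 2, l, m].Nodup := by decide +kernel

attribute [irreducible] bs ds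

end Cfsg.Agent.H7.E8
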