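import Cfsg.Agent.H7.E8R3

/-!
The alternating group of degree 18 is not a section of a linear group of degree 248 with small
ranks and small fixed spaces of elements of order three, in characteristic other than three.
-/

set_option autoImplicit false

namespace Cfsg.Agent.H7.E8

open Module H6A Equiv Equiv.Perm Subgroup

variable {α : Type} [DecidableEq α] [Fintype α] {H : Type} [Group H] [Finite H]
  {φ : H →* Perm α} {k : Type} [Field k] [IsAlgClosed k]

lemma exists_W16 (hm : Mn φ) (h18 : Fintype.card α = 18) {N : Subgroup H} [N.Normal]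
    (h1 : N ≤ φ.ker) (h3 : ∀ M : Subgroup H, M.Normal → M < N → M ≤ center H)
    (h2 : ¬ N ≤ center H) : ∃ l d : ℕ, l.Prime ∧ 16 ≤ d ∧
      Nat.card (N.map (QuotientGroup.mk' (center H))) = l ^ d := by
  obtain ⟨l, d, θ, l1, l2, -, l4⟩ := hm.exists_W (by omega) h1 h3 h2
  haveI := Fact.mk l1
  have b1 := claim 18 (by decide) _ _ (AlgebraicClosure (ZMod l)) l α H _ φ
    (matRep (algebraMap _ _) θ) h18 rfl rfl
    ⟨hm.sgn, hm.sur, fun h e => l2 h ((matRep_eq_one _ θ h).mp e)⟩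
  rw [finrank_fintype_fun_eq_card, Fintype.card_fin] at b1
  exact ⟨l, d, l1, by split_ifs at b1 <;> omega, l4⟩

theorem es_case18 (hm : Mn φ) (h18 : Fintype.card α = 18) {N : Subgroup H} [N.Normal]
    (h1 : N ≤ φ.ker) (h3 : ∀ M : Subgroup H, M.Normal → M < N → M ≤ center H) {x y : H}
    (hx : x ∈ N) (hy : y ∈ φ.ker) (n : ℕ) : ∀ (V : Type) [AddCommGroup V] [Module k V]
      [FiniteDimensional k V] [Nontrivial V] (ρ : H →* End k V), finrank k V = n → n ≤ 248 →
      ¬ ∀ v, v ≠ 0 → ρ (y * x * y⁻¹ * x⁻¹) v ≠ v := by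
  induction n using Nat.strong_induction_on with
  | _ n ih =>
  intro V _ _ _ _ ρ hn h27 hz
  by_cases m3 : ∀ U : Submodule k V, (∀ g, U ≤ U.comap (ρ g)) → U = ⊥ ∨ U = ⊤
  swap
  · push Not at m3
    obtain ⟨U, a1, a2, a3⟩ := m3
    haveI := Submodule.nontrivial_iff_ne_bot.mpr a2
    have := Submodule.finrank_lt a3
    exact ih _ (hn ▸ this) U (Representation.subrepresentation ρ U a1) rfl (by omega)
      fun v hv e => hz v (fun e => hv (Subtype.ext e)) (congrArg Subtype.val e)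
  have schur : ∀ z ∈ center H, ∃ c : k, ρ z = c • 1 := fun z hz => by
    obtain ⟨c, hc⟩ := End.exists_eigenvalue (ρ z)
    refine ⟨c, LinearMap.ext fun v => End.mem_eigenspace_iff.mp
      (((m3 _ fun g v hv => ?_).resolve_left hc).ge Submodule.mem_top)⟩
    rw [Submodule.mem_comap, End.mem_eigenspace_iff] at *
    rw [← rho_mul, ← mem_center_iff.mp hz, rho_mul, hv, map_smul]
  obtain ⟨v, hv⟩ := exists_ne (0 : V)
  have h4 : ρ (y * x) ≠ ρ (x * y) := fun e => hz v hv (by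
    rw [map_mul, map_mul, e, ← map_mul, ← map_mul]; simp)
  obtain ⟨l, d, l1, b1, l4⟩ := exists_W16 hm h18 h1 h3 fun h =>
    h4 (by rw [mem_center_iff.mp (h hx)])
  let M : Subgroup H := (centralizer (φ.ker.map ρ.toHomUnits)).comap ρ.toHomUnits
  have hM : ∀ x, x ∈ M ↔ ∀ y ∈ φ.ker, ρ (y * x) = ρ (x * y) := fun x => by
    simp only [M, mem_comap, mem_centralizer_iff, SetLike.mem_coe, mem_map]
    exact ⟨fun h y hy => by simpa using congrArg Units.val (h _ ⟨y, hy, rfl⟩),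
      by rintro h _ ⟨y, hy, rfl⟩; exact Units.ext (by simpa using h y hy)⟩
  haveI : M.Normal := ⟨fun a ha g => (hM _).mpr fun y hy => by
    have := congrArg (fun T => ρ g * T * ρ g⁻¹)
      ((hM a).mp ha _ ((MonoidHom.normal_ker φ).conj_mem' y hy g))
    simpa only [← map_mul, ← mul_assoc, mul_inv_cancel, one_mul, mul_inv_cancel_right] using this⟩
  have b2 := card_W_le' ρ (N := N) (M := φ.ker)
    (fun x hx y hy => schur _ (hm.comm_ker h1 h3 hx hy))
    fun z hz h => mem_center_of h3 (M := M) (fun e => h4 ((hM x).mp (e hx) y hy)) hz ((hM z).mpr h)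
  have b3 : 2 ^ 16 ≤ l ^ d := (Nat.pow_le_pow_right (by decide) b1
    ).trans (Nat.pow_le_pow_left l1.two_le d)
  have := Nat.pow_le_pow_left (hn ▸ h27) 2
  omega

/-- small ranks -/
def SmallRk (p : ℕ) (H : Type) [Group H] : Prop := ∀ l : ℕ, l.Prime → l ≠ p → ∀ A : Subgroup H,
  (∀ x ∈ A, ∀ y ∈ A, x * y = y * x) → (∀ x ∈ A, x ^ l = 1) → Nat.card A < l ^ 16

lemma ab_case {p : ℕ} (hr : SmallRk p H) (hm : Mn φ) (h18 : Fintype.card α = 18) {N : Subgroup H}
    [N.Normal] (h1 : N ≤ φ.ker) (h3 : ∀ M : Subgroup H, M.Normal → M < N → M ≤ center H)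
    {l : ℕ} [hl : Fact l.Prime] (hp : l ≠ p) (hN : IsPGroup l N)
    (h4 : ∀ x ∈ N, ∀ y ∈ N, x * y = y * x) : N ≤ center H := by
  by_contra h2
  obtain ⟨l', d, l1, b1, l4⟩ := exists_W16 hm h18 h1 h3 h2
  obtain ⟨e, he⟩ := IsPGroup.iff_card.mp hN
  obtain rfl : l' = l := (Nat.prime_dvd_prime_iff_eq l1 hl.out).mp (l1.dvd_of_dvd_pow
    (he ▸ (dvd_pow_self l' (by omega)).trans (l4 ▸ card_map_dvd N _)))
  letI : CommGroup N := { (inferInstance : Group N) with
    mul_comm := fun a b => Subtype.ext (h4 _ a.2 _ b.2) }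
  let f : N →* N := powMonoidHom l'
  have h5 : f.range.map N.subtype ≤ center H := h3 _ ⟨by
    rintro _ ⟨_, ⟨x, rfl⟩, rfl⟩ g
    exact ⟨_, ⟨⟨_, ‹N.Normal›.conj_mem _ x.2 g⟩, rfl⟩, by simp [f, conj_pow]⟩⟩ (by
      refine (map_subtype_lt_map_subtype.mpr (lt_top_iff_ne_top.mpr fun e1 => ?_)).trans_le
        (map_subtype_le _)
      have e2 : f.ker = ⊥ := by rw [← card_eq_one, ← index_range, e1, index_top]
      haveI := (nontrivial_iff_ne_bot N).mpr fun e => h2 (e ▸ bot_le)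
      obtain ⟨x, hx⟩ := exists_prime_orderOf_dvd_card' (G := N) l' (by
        obtain ⟨n, hn, e⟩ := hN.nontrivial_iff_card.mp inferInstance
        exact e ▸ dvd_pow_self l' hn.ne')
      have : x ∈ f.ker := show x ^ l' = 1 from hx ▸ pow_orderOf_eq_one x
      rw [e2, mem_bot] at this
      exact l1.one_lt.ne (by rw [← hx, this, orderOf_one]))
  have h6 := hr l' l1 hp (f.ker.map N.subtype) (by
    rintro _ ⟨x, -, rfl⟩ _ ⟨y, -, rfl⟩; exact h4 _ x.2 _ y.2) (by
      rintro _ ⟨x, hx, rfl⟩; exact congrArg Subtype.val hx)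
  rw [card_subtype, ← index_range] at h6
  have h7 : f.range ≤ ((QuotientGroup.mk' (center H)).comp N.subtype).ker := fun x hx =>
    (QuotientGroup.eq_one_iff _).mpr (h5 (mem_map_of_mem _ hx))
  have h8 := Nat.le_of_dvd (Nat.pos_of_ne_zero index_ne_zero_of_finite) (index_dvd_of_le h7)
  rw [index_ker, MonoidHom.range_comp, range_subtype, l4] at h8
  exact absurd ((Nat.pow_le_pow_right l1.pos b1).trans h8) h6.not_ge

variable {V : Type} [AddCommGroup V] [Module k V] [FiniteDimensional k V] (ρ : H →* End k V)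
  (p : ℕ) [Fact p.Prime] [CharP k p]

theorem exists_P18 (hρ : Function.Injective ρ) (hV : finrank k V ≤ 248) (hr : SmallRk p H)
    (hm : Mn φ) (h18 : Fintype.card α = 18) : ∃ P : Subgroup H, P.Normal ∧ IsPGroup p P ∧
      P ≤ φ.ker ∧ φ.ker ≤ P ⊔ center H := by
  haveI := hm.nilp
  have k1 : ∀ (l : ℕ) [Fact l.Prime] (S : Sylow l φ.ker), (S.1.map φ.ker.subtype).Normal :=
    fun l _ S => by
      haveI := S.characteristic_of_normal inferInstance
      infer_instance
  have k2 : ∀ (l : ℕ) [Fact l.Prime] (S : Sylow l φ.ker), l ≠ p → S.1.map φ.ker.subtype ≤ center H :=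
    fun l hl S h => by
      by_contra h0
      obtain ⟨N, ⟨n1, n2, n3⟩, n4⟩ := wellFounded_lt.has_min
        {N : Subgroup H | N.Normal ∧ N ≤ S.1.map φ.ker.subtype ∧ ¬ N ≤ center H}
        ⟨_, k1 l S, le_rfl, h0⟩
      have n5 : ∀ M : Subgroup H, M.Normal → M < N → M ≤ center H := fun M h1 h2 => by
        by_contra h; exact n4 M ⟨h1, h2.le.trans n2, h⟩ h2
      have n6 := n2.trans (map_subtype_le _)
      have n7 : ∀ x ∈ N, ∃ m : ℕ, (m : k) ≠ 0 ∧ x ^ m = 1 := fun x hx => by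
        obtain ⟨e, he⟩ := S.2.map φ.ker.subtype ⟨x, n2 hx⟩
        refine ⟨l ^ e, fun h' => h ?_, congrArg Subtype.val he⟩
        exact ((Nat.prime_dvd_prime_iff_eq Fact.out hl.out).mp ((Fact.out : p.Prime).dvd_of_dvd_pow
          ((CharP.cast_eq_zero_iff k p _).mp h'))).symm
      refine n3 (ab_case hr hm h18 n6 n5 h ((S.2.map φ.ker.subtype).to_le n2) fun y hy x hx => ?_)
      replace hy := n6 hy
      by_contra h4
      have z1 := hm.comm_ker n6 n5 hx hy
      obtain ⟨m, m1, m2⟩ := n7 _ (mul_mem (n1.conj_mem x hx y) (inv_mem hx))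
      haveI : Nontrivial (LinearMap.range (ρ (y * x * y⁻¹ * x⁻¹) - 1)) :=
        Submodule.nontrivial_iff_ne_bot.mpr fun e => h4 (by
          have := hρ ((sub_eq_zero.mp (LinearMap.range_eq_bot.mp e)).trans (map_one ρ).symm)
          rwa [mul_inv_eq_one, mul_inv_eq_iff_eq_mul] at this)
      refine es_case18 hm h18 n6 n5 hx hy _ _ (Representation.subrepresentation ρ
        (LinearMap.range (ρ (y * x * y⁻¹ * x⁻¹) - 1)) ?_) rfl ((Submodule.finrank_le _).trans hV)
          fun v hv e => ?_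
      · rintro g _ ⟨w, rfl⟩
        refine ⟨ρ g w, ?_⟩
        simp only [LinearMap.sub_apply, map_sub, End.one_apply, ← rho_mul, mem_center_iff.mp z1 g]
      · obtain ⟨w, hw⟩ := v.2
        exact moved_of_range (by rw [← map_pow, m2, map_one]) m1 (fun e => hv (Subtype.ext e))
          hw.symm (congrArg Subtype.val e)
  let S : Sylow p φ.ker := default
  refine ⟨_, k1 p S, S.2.map _, map_subtype_le _, subgroupOf_eq_top.mp (index_eq_one.mp ?_)⟩
  by_contra h
  obtain ⟨l, hl, h1⟩ := Nat.exists_prime_and_dvd h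
  haveI := Fact.mk hl
  by_cases e : l = p
  · subst e
    exact S.not_dvd_index (h1.trans (index_dvd_of_le fun x hx => mem_sup_left ⟨x, hx, rfl⟩))
  · exact (default : Sylow l φ.ker).not_dvd_index
      (h1.trans (index_dvd_of_le fun x hx => mem_sup_right (k2 l _ e ⟨x, hx, rfl⟩)))

theorem sub6 {P : Subgroup H} [P.Normal] (hP : IsPGroup p P) {ψ : H ⧸ P →* Perm α} (hψ : CE ψ)
    (h18 : Fintype.card α = 18) (h3 : (3 : k) ≠ 0) {a b c : α} (h : D3 a b c) {t : H}
    (ht : t3 ψ a b c = t) {ζ : k} (hζ : IsPrimitiveRoot ζ 3) (n : ℕ) : ∀ (V : Type) [AddCommGroup V]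
      [Module k V] [FiniteDimensional k V] (ρ : H →* End k V), finrank k V = n → n ≤ 248 →
      6 * finrank k ((ρ t).eigenspace ζ) ≤ n + if 160 ≤ n then 80 else 0 := by
  induction n using Nat.strong_induction_on with
  | _ n ih =>
  intro V _ _ _ ρ hn h27
  by_cases m3 : ∀ U : Submodule k V, (∀ g, U ≤ U.comap (ρ g)) → U = ⊥ ∨ U = ⊤
  swap
  · push Not at m3
    obtain ⟨U, a1, a2, a3⟩ := m3
    have d1 := U.finrank_quotient_add_finrank
    have d2 := Submodule.finrank_lt a3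
    have d3 : 0 < finrank k U := by
      rw [finrank_pos_iff, Submodule.nontrivial_iff_ne_bot]; exact a2
    have d4 := eig_le ρ U a1 t ζ
    have d5 := ih _ (by omega) U (Representation.subrepresentation ρ U a1) rfl (by omega)
    have d6 := ih _ (by omega) (V ⧸ U) (Representation.quotient ρ U a1) rfl (by omega)
    split_ifs at * <;> omega
  rcases subsingleton_or_nontrivial V with hV | hV
  · rw [finrank_zero_of_subsingleton]; omega
  obtain ⟨v, hv⟩ := exists_ne (0 : V)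
  haveI := hP.isNilpotent
  haveI : ExpChar k p := ExpChar.prime Fact.out
  obtain ⟨w, w0, hw⟩ := H2.exists_fixed_of_pow_mem p ρ (F := P) (N := ⊥) bot_le
    le_normalizer_of_normal
    (fun x hx => (hP ⟨x, hx⟩).imp fun j e => mem_bot.mpr (congrArg Subtype.val e))
    hv (by simp)
  have h1 := (m3 (⨅ x : P, (ρ x).eigenspace 1) fun g u hu => by
    simp only [Submodule.mem_comap, Submodule.mem_iInf, End.mem_eigenspace_iff, one_smul] at hu ⊢
    intro x
    nth_rewrite 2 [← hu ⟨_, ‹P.Normal›.conj_mem' x x.2 g⟩]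
    rw [← rho_mul, ← rho_mul]; congr 2; simp [mul_assoc]).resolve_left
      ((Submodule.ne_bot_iff _).mpr ⟨w, by simpa [End.mem_eigenspace_iff] using hw, w0⟩)
  have h2 : ∀ x ∈ P, ρ x = 1 := fun x hx => LinearMap.ext fun u => by
    simpa using End.mem_eigenspace_iff.mp ((Submodule.mem_iInf _).mp (h1.ge Submodule.mem_top) ⟨x, hx⟩)
  have := eig6 (ρ := QuotientGroup.lift P ρ h2) hζ hψ h18 h3 (hn ▸ h27)
    (fun U hU => m3 U fun g => hU g) h
  rwa [ht, hn] at this

theorem no18 (hρ : Function.Injective ρ) (hV : finrank k V = 248) (hr : SmallRk p H)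
    (hf : ∀ t : H, t ^ 3 = 1 → t ≠ 1 → finrank k ((ρ t).eigenspace 1) ≤ 139)
    (sgn : ∀ h, sign (φ h) = 1) (sur : ∀ σ, sign σ = 1 → ∃ h, φ h = σ)
    (h18 : Fintype.card α = 18) (h3 : (3 : k) ≠ 0) : False := by
  wlog hm : Mn φ generalizing H
  · obtain ⟨S, hS⟩ := exists_mn sgn sur
    refine this (ρ.comp S.subtype) (hρ.comp Subtype.val_injective) (fun l h1 h2 A h4 h5 => ?_)
      (fun t h1 h2 => hf t (congrArg Subtype.val h1) fun e => h2 (Subtype.ext e)) hS.sgn hS.sur hS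
    rw [← card_subtype]
    refine hr l h1 h2 _ ?_ ?_
    · rintro _ ⟨x, hx, rfl⟩ _ ⟨y, hy, rfl⟩; exact congrArg Subtype.val (h4 x hx y hy)
    · rintro _ ⟨x, hx, rfl⟩; exact congrArg Subtype.val (h5 x hx)
  obtain ⟨P, _, p2, p3, p4⟩ := exists_P18 ρ p hρ hV.le hr hm h18
  have hψ : CE (QuotientGroup.lift P φ p3) := ⟨fun q => ?_, fun σ hσ => ?_, fun q e g => ?_⟩
  rotate_left
  · obtain ⟨g, rfl⟩ := QuotientGroup.mk_surjective q; exact sgn g
  · obtain ⟨g, rfl⟩ := sur σ hσ; exact ⟨g, rfl⟩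
  · obtain ⟨g, rfl⟩ := QuotientGroup.mk_surjective g
    obtain ⟨x, rfl⟩ := QuotientGroup.mk_surjective q
    obtain ⟨y, hy, z, hz, rfl⟩ := mem_sup_of_normal_right.mp (p4 e)
    rw [QuotientGroup.mk_mul, (QuotientGroup.eq_one_iff y).mpr hy, one_mul, ← QuotientGroup.mk_mul,
      mem_center_iff.mp hz, QuotientGroup.mk_mul]
  obtain ⟨ι⟩ : Nonempty (Fin 3 ↪ α) := Function.Embedding.nonempty_of_card_le (by simp; omega)
  have d : D3 (ι 0) (ι 1) (ι 2) := by simp [D3]
  obtain ⟨t, t1, t2⟩ : ∃ t : H, t3 (QuotientGroup.lift P φ p3) (ι 0) (ι 1) (ι 2) = t ∧ t ^ 3 = 1 := by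
    obtain ⟨x, hx⟩ := QuotientGroup.mk_surjective (t3 (QuotientGroup.lift P φ p3) (ι 0) (ι 1) (ι 2))
    have h1 := hψ.t3_pow (by omega) d
    rw [← hx] at h1 ⊢
    obtain ⟨e, he⟩ := p2 ⟨x ^ 3, (QuotientGroup.eq_one_iff _).mp h1⟩
    refine ⟨x ^ (p ^ e * p ^ e), ?_, ?_⟩
    · have : ¬ 3 ∣ p ^ e := fun h => h3 (by
        have := (CharP.cast_eq_zero_iff k p 3).mpr ((Nat.prime_dvd_prime_iff_eq (by decide)
          Fact.out).mp (Nat.prime_three.dvd_of_dvd_pow h)).symm.dvd
        exact_mod_cast this)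
      rw [QuotientGroup.mk_pow, pow_eq_pow_mod _ h1, Nat.mul_mod]
      have : p ^ e % 3 = 1 ∨ p ^ e % 3 = 2 := by omega
      rcases this with h | h <;> simp [h]
    · rw [← pow_mul, mul_comm, ← mul_assoc, pow_mul, pow_mul, show (x ^ 3) ^ p ^ e = 1 from
        congrArg Subtype.val he, one_pow]
  have r1 : ∀ v, ρ t (ρ t (ρ t v)) = v := fun v => by
    simpa [pow_succ] using congrArg (ρ · v) t2
  have r2 : ∀ ζ η : k, ζ + η = -1 → ζ * η = 1 → LinearMap.range (ρ t - (1 : k) • 1) ≤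
      (ρ t).eigenspace ζ ⊔ (ρ t).eigenspace η := fun ζ η h1 h2 => by
    have h4 : ζ - η ≠ 0 := fun e => h3 (by linear_combination (η - ζ) * e + (ζ + η - 1) * h1 - 4 * h2)
    have h5 : ∀ ζ η : k, ζ + η = -1 → ζ * η = 1 → ∀ v, ρ t (ρ t v - v) - η • (ρ t v - v) ∈
        (ρ t).eigenspace ζ := fun ζ η h1 h2 v => by
      simp only [End.mem_eigenspace_iff, map_sub, map_smul, r1]
      match_scalars
      · linear_combination (-1 : k) * h2
      · linear_combination (-1 : k) * h1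
      · linear_combination h1 + h2
    rintro _ ⟨v, rfl⟩
    rw [← Submodule.smul_mem_iff _ h4]
    convert sub_mem (Submodule.mem_sup_left (h5 ζ η h1 h2 v)) (Submodule.mem_sup_right
      (h5 η ζ (add_comm ζ η ▸ h1) (mul_comm ζ η ▸ h2) v)) using 1
    simp only [LinearMap.sub_apply, End.one_apply, one_smul]; module
  haveI : NeZero ((3 : ℕ) : k) := ⟨by exact_mod_cast h3⟩
  obtain ⟨ζ, hζ⟩ := HasEnoughRootsOfUnity.exists_primitiveRoot k 3
  have z1 : ζ + ζ ^ 2 = -1 := by
    have := hζ.geom_sum_eq_zero (by decide)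
    simp only [Finset.sum_range_succ, Finset.range_zero, Finset.sum_empty] at this
    linear_combination this
  have a1 := sub6 p p2 hψ h18 h3 d t1 hζ _ V ρ hV le_rfl
  have a2 := sub6 p p2 hψ h18 h3 d t1 (hζ.pow_of_coprime 2 (by decide)) _ V ρ hV le_rfl
  have a3 := (ρ t - (1 : k) • 1).finrank_range_add_finrank_ker
  have a4 := (Submodule.finrank_mono (r2 _ _ z1 (by linear_combination hζ.pow_eq_one))).trans
    (Submodule.finrank_add_le_finrank_add_finrank _ _)
  have a5 := hf t t2 fun e => by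
    have h1 := hψ.t3_map (by omega) d
    rw [t1, e, QuotientGroup.mk_one, map_one] at h1
    exact cy_ne_one d h1.symm
  rw [← End.eigenspace_def] at a3
  rw [if_pos (by decide)] at a1 a2
  omega

end Cfsg.Agent.H7.E8
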