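import Cfsg.Agent.H7.E8G3
import Cfsg.Agent.H7.E8R4

/-!
Alternating sections of E8(q).
-/

set_option autoImplicit false
set_option maxRecDepth 100000

namespace Cfsg.Agent.H7.E8

open Subgroup Cfsg.Agent.H9.Chev Dat Cfsg.Lie H6A Alt Cfsg.Agent.H1 Equiv Module

variable {F : Type*} [Field F] [Finite F]

lemma WL_E8 (L : List (Fin 8)) : WL (dE8 F) L = WL (dE8 ℚ) L := rfl

lemma ww_E8 (L : List (Fin 8)) : (dE8 F).ww L = (dE8 ℚ).ww L := rfl

lemma idx_E8 (b : chevE8.Idx) : (∃ i, b = (dE8 F).hh i) ∨ ∃ r, b = (dE8 F).e r := by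
  rcases b with i | r
  exacts [Or.inl ⟨i, rfl⟩, Or.inr ⟨r, rfl⟩]

lemma mem_GH8 {F' : Type*} [Field F'] (σ : F →+* F') (g : chevE8.group F) :
    Matrix.GeneralLinearGroup.map σ g.1 ∈ GH (dE8 F') := map_mem_GH S2662.goodE8 σ g.2

lemma card_idx : Fintype.card chevE8.Idx = 248 := by decide +kernel

attribute [local irreducible] rt8 dE8 chevE8

lemma prim_of {l j : ℕ} [Fact l.Prime] {ξ : Fˣ} (hξ : orderOf ξ = l ^ (j + 1)) :
    IsPrimitiveRoot (ξ ^ l ^ j) l :=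
  (hξ ▸ IsPrimitiveRoot.orderOf ξ).pow (pow_pos (Fact.out : l.Prime).pos _) (pow_succ l j)

theorem rank8 {l : ℕ} [Fact l.Prime] {ξ : Fˣ} (hξ : orderOf ξ = l ^ (4 + 1))
    {A : Subgroup (GL chevE8.Idx F)} (hA : A ≤ GH (dE8 F)) (h1 : ∀ x ∈ A, ∀ y ∈ A, x * y = y * x)
    (h2 : ∀ x ∈ A, x ^ l = 1) : Nat.card A < l ^ 16 := by
  have hl := (Fact.out : l.Prime).two_le
  obtain ⟨c, -, hc⟩ := syl_NW (axE8 F) hξ (by rw [rt8_eq]; exact reg8) (by
    have := Nat.pow_le_pow_left hl 4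
    exact lt_of_lt_of_le (by omega) (Nat.le_mul_of_pos_right _ (by omega)))
    (P := A) (fun x => ⟨1, Subtype.ext (by simpa using h2 _ x.2)⟩) hA
  rw [← card_cj c]
  refine rank_gen (axE8 F) (prim_of hξ) (lt_of_lt_of_le (by decide) (Nat.pow_le_pow_left hl 8))
    (fun L => by rw [WL_E8]; exact cong8 L) hc ?_ ?_
  · rintro _ ⟨x, hx, rfl⟩ _ ⟨y, hy, rfl⟩
    rw [← map_mul, ← map_mul, h1 x hx y hy]
  · rintro _ ⟨x, hx, rfl⟩
    rw [← map_pow, h2 x hx, map_one]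

theorem fix8 {ξ : Fˣ} (hξ : orderOf ξ = 3 ^ (2 + 1)) {k : Type*} [Field k] (σ : F →+* k)
    {x : GL chevE8.Idx F} (hx : x ∈ GH (dE8 F)) (h3 : x ^ 3 = 1) (h1 : x ≠ 1) :
    finrank k (End.eigenspace (matRep σ (Units.coeHom _) x) 1) ≤ 139 := by
  classical
  haveI := Fact.mk Nat.prime_three
  obtain ⟨c, -, hc⟩ := syl_NW (axE8 F) hξ (by rw [rt8_eq]; exact reg8) (by norm_num)
    (Alt.isPGroup_zpowers ⟨1, h3⟩) (zpowers_le.mpr hx)
  refine (eig_conj _ c x 1).trans ?_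
  have h4 := hc (conj_mem_cj (mem_zpowers x))
  have h5 : (c * x * c⁻¹) ^ 3 = 1 := by rw [conj_pow, h3]; simp
  have h6 : c * x * c⁻¹ ≠ 1 := by simpa using h1
  generalize c * x * c⁻¹ = y at *
  obtain ⟨_, ⟨χ, rfl⟩, L, e1, e2⟩ := piW_spec (axE8 F) ⟨y, h4⟩
  have e3 : WL (dE8 F) L ^ 3 = 1 := by
    rw [← e2, ← Units.val_pow_eq_pow_val, ← map_pow,
      show (⟨y, h4⟩ : NW (axE8 F)) ^ 3 = 1 from Subtype.ext h5, map_one, Units.val_one]
  by_cases e4 : WL (dE8 F) L = 1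
  · have hζ := prim_of hξ
    obtain ⟨a, rfl⟩ := exists_tor hζ (axE8 F) ((piW_ker (axE8 F)).le (x := ⟨y, h4⟩)
      (Units.ext (e2.trans e4))) h5
    refine (fix_T (axE8 F) σ idx_E8 _).trans ?_
    have := tor3_le (a := a.toAdd) fun e => h6 (by rw [show a = 1 from e, map_one])
    refine (add_le_add_right ((Finset.card_le_card fun r hr => ?_).trans this) 8).trans (by decide)
    rw [Finset.mem_filter] at hr ⊢
    rw [rt8_eq] at hr
    exact ⟨hr.1, (ZMod.val_eq_zero _).mp (hζ.pow_inj (ZMod.val_lt _) (by decide)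
      (hr.2.trans (pow_zero _).symm))⟩
  · have a1 := fix_nw (axE8 F) σ idx_E8 χ L e3
    have a2 := fix74 L (WL_E8 (F := F) L ▸ e3) (WL_E8 (F := F) L ▸ e4)
    rw [← show y = _ from e1, ww_E8, Fintype.card_fin] at a1
    omega

theorem no19 {ζ : Fˣ} (hζ : orderOf ζ = 17) {H : Type*} [Group H]
    (ι : H →* GL chevE8.Idx F) (hι : Function.Injective ι) (hG : ∀ x, ι x ∈ GH (dE8 F))
    (φ : H →* Perm (Fin 19)) (hφ : ∀ σ, Perm.sign σ = 1 → σ ∈ φ.range) : False := by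
  haveI : Fact (Nat.Prime 17) := ⟨by norm_num⟩
  haveI := Finite.of_injective _ hι
  have hζ' : IsPrimitiveRoot ζ 17 := hζ ▸ IsPrimitiveRoot.orderOf ζ
  let y : Perm (Fin 19) := H7.Alt.sw [(0, 16), (0, 15), (0, 14), (0, 13), (0, 12), (0, 11), (0, 10),
    (0, 9), (0, 8), (0, 7), (0, 6), (0, 5), (0, 4), (0, 3), (0, 2), (0, 1)]
  let g : Perm (Fin 19) := H7.Alt.sw [(1, 6), (1, 2), (1, 12), (1, 4), (1, 7), (1, 8), (1, 14), (1, 16),
    (1, 11), (1, 15), (1, 5), (1, 13), (1, 10), (1, 9), (1, 3), (17, 18)]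
  have he : g * y * g⁻¹ = y ^ 3 := by decide +kernel
  obtain ⟨P, -, hP, h1, h2⟩ := frat φ ⊤ (Alt.isPGroup_zpowers (x := y) (l := 17) ⟨1, by decide +kernel⟩)
    (by rw [← MonoidHom.range_eq_map, zpowers_le]; exact hφ _ (H7.Alt.sign_sw _ (by decide) (by decide)))
  obtain ⟨h, hh, e⟩ := h2 g (by
    rw [← MonoidHom.range_eq_map]; exact hφ _ (H7.Alt.sign_sw _ (by decide) (by decide))) (by
    refine mem_normalizer_fintype ?_
    rintro _ ⟨j, rfl⟩
    show _ ∈ zpowers y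
    rw [← conj_zpow, he]
    exact zpow_mem (pow_mem (mem_zpowers y) 3) j)
  obtain ⟨c, hcG, hle⟩ := syl_NW (axE8 F) (j := 0) hζ (by rw [rt8_eq]; exact reg8) (by norm_num)
    (hP.map ι) (by rintro _ ⟨z, -, rfl⟩; exact hG z)
  have hT : ∀ x ∈ P, c * ι x * c⁻¹ ∈ (dE8 F).T := fun x hx => by
    obtain ⟨m, hm⟩ := exists_pow_of_isPGroup hP hx
    simpa using pow_T (axE8 F) (l := 17) (j := 0) (m := m) (by norm_num)
      (hle (conj_mem_cj (mem_map_of_mem ι hx))) (by rw [conj_pow, ← map_pow, hm]; simp)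
  have hc : ∀ x ∈ P, ∀ z ∈ P, x * z = z * x := fun x hx z hz => hι (by
    have := T_comm _ (hT x hx) _ (hT z hz)
    simpa [mul_assoc] using congrArg (· * c) this)
  have hn : ∀ x ∈ P, h * x * h⁻¹ ∈ P := fun x => conj_mem_of_mem_normalizer hh.2
  obtain ⟨x, hx, x1, x2⟩ : ∃ x ∈ P, x ≠ 1 ∧ h * x * h⁻¹ = x ^ 3 := by
    by_contra h3
    push Not at h3
    obtain ⟨z, hz, e1⟩ : y ∈ P.map φ := h1 ▸ mem_zpowers y
    obtain ⟨⟨x, hx⟩, e2⟩ := Finite.surjective_of_injective (f := fun x : P =>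
      (⟨h * x * h⁻¹ * (x.1 ^ 3)⁻¹, mul_mem (hn x x.2) (inv_mem (pow_mem x.2 3))⟩ : P)) (fun a b e => by
        by_contra h4
        refine h3 (b.1⁻¹ * a) (mul_mem (inv_mem b.2) a.2)
          (fun e => h4 (Subtype.ext (inv_mul_eq_one.mp e).symm)) ?_
        have e3 : h * a * h⁻¹ * (a.1 ^ 3)⁻¹ = h * b * h⁻¹ * (b.1 ^ 3)⁻¹ := congrArg Subtype.val e
        calc h * (b.1⁻¹ * a) * h⁻¹ = (h * b * h⁻¹)⁻¹ * (h * a * h⁻¹ * (a.1 ^ 3)⁻¹) * a.1 ^ 3 := by group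
          _ = (b.1 ^ 3)⁻¹ * a.1 ^ 3 := by rw [e3]; group
          _ = _ := by rw [Commute.mul_pow (hc _ (inv_mem b.2) _ a.2), inv_pow]) ⟨z, hz⟩
    obtain ⟨i, hi⟩ : φ x ∈ zpowers y := h1 ▸ mem_map_of_mem φ hx
    have e3 := congrArg (fun x : P => φ x) e2
    simp only [map_mul, map_inv, map_pow, e, e1, ← hi] at e3
    rw [← conj_zpow, he, ← zpow_natCast, ← zpow_natCast, ← zpow_mul, ← zpow_mul, mul_comm i,
      mul_inv_cancel] at e3
    exact absurd e3 (by decide +kernel)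
  obtain ⟨x, hx, x1, x2, x3⟩ : ∃ x ∈ P, x ≠ 1 ∧ h * x * h⁻¹ = x ^ 3 ∧ x ^ 17 = 1 := by
    obtain ⟨n, hn⟩ := exists_pow_of_isPGroup hP hx
    obtain ⟨n, h3, h4⟩ := Nat.exists_not_and_succ_of_not_zero_of_exists (p := fun n => x ^ 17 ^ n = 1)
      (by simpa using x1) ⟨n, hn⟩
    exact ⟨_, pow_mem hx _, h3, by rw [← conj_pow, x2, ← pow_mul, ← pow_mul, mul_comm],
      by rw [← pow_mul, ← pow_succ, h4]⟩
  obtain ⟨a, ha⟩ := exists_tor hζ' (axE8 F) (hT x hx) (by rw [conj_pow, ← map_pow, x3]; simp)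
  obtain ⟨L, hL⟩ := fuse_tor hζ' (axE8 F) (mul_mem (mul_mem hcG (hG h)) (inv_mem hcG))
  have h3 := hL a (a ^ 3) (by
    rw [map_pow, ha, conj_pow, ← map_pow, ← x2, map_mul, map_mul, map_inv]; group)
  refine no17 (a := a.toAdd) (L := L) (fun h5 => ?_) fun v => ?_
  · rw [show a = 1 from h5, map_one, eq_comm, mul_inv_eq_one, mul_eq_left] at ha
    exact x1 (hι (ha.trans (map_one ι).symm))
  · rw [h3, toAdd_pow, ← Nat.cast_smul_eq_nsmul (ZMod 17), evZ_smul, WL_E8]; rfl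

universe u

theorem no18_aux {F : Type u} [Field F] [Finite F] (p : ℕ) [Fact p.Prime] [CharP F p] (hp : p ≠ 3)
    {H : Type} [Group H] [Finite H] (key : ∀ (F' : Type u) [Field F'] (τ : F →+* F'),
      ∃ θ : H →* GL chevE8.Idx F', Function.Injective θ ∧ ∀ x, θ x ∈ GH (dE8 F'))
    (φ : H →* Perm (Fin 18)) (sgn : ∀ h, Perm.sign (φ h) = 1)
    (sur : ∀ σ, Perm.sign σ = 1 → ∃ h, φ h = σ) : False := by
  have ne : ∀ l n : ℕ, l.Prime → l ≠ p → ((l ^ n : ℕ) : F) ≠ 0 := fun l n hl h e =>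
    h ((Nat.prime_dvd_prime_iff_eq Fact.out hl).mp ((Fact.out : p.Prime).dvd_of_dvd_pow
      ((CharP.cast_eq_zero_iff F p _).mp e))).symm
  have hr : SmallRk p H := fun l l1 l2 A h3 h4 => by
    haveI := Fact.mk l1
    obtain ⟨F', _, _, τ, ξ, hξ⟩ := exists_ext F (l ^ (4 + 1)) (ne _ _ l1 l2)
    obtain ⟨θ, h1, h2⟩ := key F' τ
    rw [← card_map_of_injective h1]
    refine rank8 hξ (by rintro _ ⟨x, -, rfl⟩; exact h2 x) ?_ ?_
    · rintro _ ⟨x, hx, rfl⟩ _ ⟨y, hy, rfl⟩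
      rw [← map_mul, ← map_mul, h3 x hx y hy]
    · rintro _ ⟨x, hx, rfl⟩
      rw [← map_pow, h4 x hx, map_one]
  obtain ⟨F', _, _, τ, ξ, hξ⟩ := exists_ext F (3 ^ (2 + 1)) (ne _ _ Nat.prime_three hp.symm)
  obtain ⟨θ, h1, h2⟩ := key F' τ
  haveI := charP_of_injective_ringHom τ.injective p
  letI := ZMod.algebra F' p
  let σ : F' →ₐ[ZMod p] AlgebraicClosure (ZMod p) := IsAlgClosed.lift
  have h3 : (3 : AlgebraicClosure (ZMod p)) ≠ 0 := fun h => hp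
    ((Nat.prime_dvd_prime_iff_eq Fact.out Nat.prime_three).mp
      ((CharP.cast_eq_zero_iff (AlgebraicClosure (ZMod p)) p 3).mp (by exact_mod_cast h)))
  have h4 : Function.Injective ((matRep σ.toRingHom (Units.coeHom _)).comp θ) :=
    fun a b e => h1 (by
      rw [MonoidHom.comp_apply, MonoidHom.comp_apply] at e
      rw [← mul_inv_eq_one]
      refine Units.ext ((matRep_eq_one σ.toRingHom (Units.coeHom _) (θ a * (θ b)⁻¹)).mp ?_)
      rw [map_mul, e, ← map_mul, mul_inv_cancel, map_one])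
  refine no18 _ p h4 ((finrank_fintype_fun_eq_card _).trans card_idx) hr
    (fun t t1 t2 => ?_) sgn sur (Fintype.card_fin 18) h3
  rw [MonoidHom.comp_apply]
  exact fix8 hξ σ.toRingHom (h2 t) (by rw [← map_pow, t1, map_one])
    fun e => t2 (h1 (e.trans (map_one θ).symm))

theorem no18_E8 (p : ℕ) [Fact p.Prime] [CharP F p] (hp : p ≠ 3) {H : Type*} [Group H]
    (ι : H →* chevE8.group F) (hι : Function.Injective ι)
    (φ : H →* Perm (Fin 18)) (hφ : ∀ σ, Perm.sign σ = 1 → σ ∈ φ.range) : False := by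
  haveI := Finite.of_injective ι hι
  let G : Subgroup H := (alternatingGroup (Fin 18)).comap φ
  letI := (Fin.equivSubtype.symm.trans (Finite.equivFin G).symm).group
  let e : {i // i < Nat.card G} ≃* G := (Fin.equivSubtype.symm.trans (Finite.equivFin G).symm).mulEquiv
  haveI : Finite {i // i < Nat.card G} := Finite.of_equiv _ e.symm.toEquiv
  refine no18_aux (F := F) p hp (fun F' _ τ => ⟨(Matrix.GeneralLinearGroup.map τ).comp
    ((chevE8.group F).subtype.comp (ι.comp (G.subtype.comp e.toMonoidHom))),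
    (glmap_inj τ).comp (Subtype.val_injective.comp (hι.comp
      (Subtype.val_injective.comp e.injective))), fun x => mem_GH8 τ _⟩)
    ((φ.comp G.subtype).comp e.toMonoidHom) (fun g => (e g).2) fun τ hτ => ?_
  obtain ⟨h, rfl⟩ := hφ τ hτ
  exact ⟨e.symm ⟨h, hτ⟩, by simp⟩

theorem main_E8 (p : ℕ) [Fact p.Prime] [CharP F p] {H : Type*} [Group H]
    (ι : H →* chevE8.group F) (hι : Function.Injective ι) {r : ℕ} (φ : H →* Perm (Fin r))
    (hφ : ∀ σ, Perm.sign σ = 1 → σ ∈ φ.range) : r ≤ 17 + (if p = 3 then 1 else 0) := by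
  haveI := Finite.of_injective _ hι
  by_contra hr
  split_ifs at hr with hp
  · obtain ⟨F', _, _, σ, ζ, hζ⟩ := exists_ext F 17 (by
      rw [Ne, CharP.cast_eq_zero_iff F p, hp]; decide)
    obtain ⟨H', φ', h'⟩ := restrict (show 19 ≤ r by omega) φ hφ
    exact no19 hζ (((Matrix.GeneralLinearGroup.map σ).comp
      ((chevE8.group F).subtype.comp ι)).comp H'.subtype)
      (((glmap_inj σ).comp (Subtype.val_injective.comp hι)).comp Subtype.val_injective)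
      (fun x => mem_GH8 σ _) φ' h'
  · obtain ⟨H', φ', h'⟩ := restrict (show 18 ≤ r by omega) φ hφ
    exact no18_E8 p hp (ι.comp H'.subtype) (hι.comp Subtype.val_injective) φ' h'

end Cfsg.Agent.H7.E8
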