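import Cfsg.Agent.H6.AS8

/-!
Clifford relations on sixteen generators force dimension at least 256.
-/

set_option autoImplicit false

namespace Cfsg.Agent.H7.E8

open Module H6A

variable {k V : Type*} [Field k] [AddCommGroup V] [Module k V] [FiniteDimensional k V]

/-- Walsh vectors -/
def wal (a : ℕ) (i : Fin 16) : ℤ :=
  (if a % 2 = 1 ∧ i.1 % 2 = 1 then -1 else 1) * (if a / 2 % 2 = 1 ∧ i.1 / 2 % 2 = 1 then -1 else 1) *
    ((if a / 4 % 2 = 1 ∧ i.1 / 4 % 2 = 1 then -1 else 1) *
      (if a / 8 % 2 = 1 ∧ i.1 / 8 % 2 = 1 then -1 else 1))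

lemma cliff16 [IsAlgClosed k] [Nontrivial V] (h6 : (6 : k) ≠ 0) (T : Fin 16 → End k V)
    (h1 : ∀ i, T i * T i + T i + 1 = 0)
    (h2 : ∀ i j, i ≠ j → T i * T j + T j * T i + T i + T j + 1 = 0) : 256 ≤ finrank k V := by
  have n2 : (2 : k) ≠ 0 := fun e => h6 (by linear_combination 3 * e)
  let U : (Fin 16 → ℤ) → End k V := fun x => ∑ i, x i • (2 * T i + 1)
  let G : (Fin 16 → ℤ) → (Fin 16 → ℤ) → ℤ := fun x y =>
    ∑ i, ∑ j, x i * y j * (if i = j then -6 else -2)
  have key : ∀ x y, U x * U y + U y * U x = (G x y : k) • 1 := fun x y => by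
    simp only [U, G, Finset.sum_mul_sum, Int.cast_smul_eq_zsmul, Finset.sum_smul]
    rw [Finset.sum_comm (f := fun i j => y i • (2 * T i + 1) * x j • (2 * T j + 1)),
      ← Finset.sum_add_distrib]
    refine Finset.sum_congr rfl fun i _ => ?_
    rw [← Finset.sum_add_distrib]
    refine Finset.sum_congr rfl fun j _ => ?_
    rw [smul_mul_smul_comm, smul_mul_smul_comm, mul_comm (y j), ← smul_add, mul_smul (x i * y j)]
    congr 1
    split_ifs with h
    · subst h
      linear_combination (norm := noncomm_ring) 8 * h1 i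
    · linear_combination (norm := noncomm_ring) 4 * h2 i j h
  have d1 : ∀ a < 16, ∀ b < 16, a ≠ b → G (wal a) (wal b) = 0 := by decide +kernel
  have d2 : ∀ a < 16, G (wal a) (wal a) ∣ 576 := by decide +kernel
  rw [← finrank_top]
  refine cliff n2 (fun a => U (wal a)) 8 (fun a ha b hb h => ?_) (fun a ha => ?_) ⊤ top_ne_bot
    fun _ _ _ _ => trivial
  · rw [eq_neg_iff_add_eq_zero, key, d1 a ha b hb h]; simp
  · refine ⟨2⁻¹ * G (wal a) (wal a), mul_ne_zero (inv_ne_zero n2) fun e => ?_, ?_⟩
    · obtain ⟨c, hc⟩ := d2 a ha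
      have := congrArg (Int.cast : ℤ → k) hc
      rw [Int.cast_mul, e, zero_mul, Int.cast_ofNat] at this
      exact mul_ne_zero (pow_ne_zero 4 n2) (pow_ne_zero 2 h6) (by linear_combination this)
    · rw [mul_smul, ← key, ← two_smul k, smul_smul, inv_mul_cancel₀ n2, one_smul]

lemma half_le {W : Submodule k V} {s z : End k V} (hs : Function.Injective s)
    (h1 : ∀ w ∈ W, s w ∈ W) (h2 : ∀ w, z w = 0 → z (s w) = 0 → w = 0) :
    2 * finrank k (W ⊓ LinearMap.ker z : Submodule k V) ≤ finrank k W :=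
  two_le hs inf_le_left (by rintro _ ⟨v, hv, rfl⟩; exact h1 v hv.1) (by
    rw [eq_bot_iff]
    rintro _ ⟨g1, v, g2, rfl⟩
    rw [h2 v g2.2 g1.2, map_zero]; exact zero_mem _)

lemma ker_ne {W : Submodule k V} {z : End k V} (hW : W ≠ ⊥) (h1 : ∀ w ∈ W, z w ∈ W)
    (h2 : z * z = 0) : W ⊓ LinearMap.ker z ≠ ⊥ := by
  obtain ⟨w, hw, w0⟩ := (Submodule.ne_bot_iff _).mp hW
  rw [Submodule.ne_bot_iff]
  by_cases h : z w = 0
  · exact ⟨w, ⟨hw, h⟩, w0⟩
  · exact ⟨z w, ⟨h1 w hw, LinearMap.congr_fun h2 w⟩, h⟩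

lemma cliffTwo [IsAlgClosed k] (h2 : (2 : k) = 0) (u v : ℕ → End k V) (n : ℕ) :
    (∀ a < n, u a * u a = 1) → (∀ a < n, ∃ c : k, v a * v a = c • 1) →
    (∀ a < n, u a * v a + v a * u a = 1) →
    (∀ a < n, ∀ b < a, Commute (v a) (u b) ∧ Commute (v a) (v b)) →
    ∀ W : Submodule k V, W ≠ ⊥ → (∀ a < n, ∀ w ∈ W, u a w ∈ W ∧ v a w ∈ W) → 2 ^ n ≤ finrank k W := by
  induction n with
  | zero => exact fun _ _ _ _ W hW _ => by simpa [Nat.one_le_iff_ne_zero] using hW
  | succ n ih =>
    intro h3 h4 h5 h6 W hW h7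
    obtain ⟨c, hc⟩ := h4 n (by omega)
    obtain ⟨l, hl⟩ := IsAlgClosed.exists_eq_mul_self c
    have e2 : ∀ T : End k V, T + T = 0 := fun T => by rw [← two_smul k, h2, zero_smul]
    have i1 := ih (fun a ha => h3 a (by omega)) (fun a ha => h4 a (by omega))
      (fun a ha => h5 a (by omega)) (fun a ha => h6 a (by omega))
      (W ⊓ LinearMap.ker (v n - l • 1)) (ker_ne hW
        (fun w hw => sub_mem (h7 n (by omega) w hw).2 (W.smul_mem _ hw)) (by
          have := e2 (l • v n)
          have := e2 (c • 1)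
          simp only [mul_sub, sub_mul, hc, hl, mul_smul_comm, smul_mul_assoc, mul_one, one_mul,
            smul_smul] at *
          linear_combination (norm := module) ‹(l * l) • (1 : End k V) + _ = 0› - ‹l • v n + _ = 0›))
      fun a ha w hw => by
        have k1 : ∀ T : End k V, Commute (v n) T → T w ∈ LinearMap.ker (v n - l • 1) := fun T hT => by
          rw [LinearMap.mem_ker, ← End.mul_apply,
            (hT.sub_left ((Commute.one_left T).smul_left l)).eq, End.mul_apply,
            LinearMap.mem_ker.mp hw.2, map_zero]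
        exact ⟨⟨(h7 a (by omega) w hw.1).1, k1 _ (h6 n (by omega) a ha).1⟩,
          (h7 a (by omega) w hw.1).2, k1 _ (h6 n (by omega) a ha).2⟩
    have i2 := half_le (W := W) (s := u n) (z := v n - l • 1)
      (Function.LeftInverse.injective (LinearMap.congr_fun (h3 n (by omega))))
      (fun w hw => (h7 n (by omega) w hw).1) fun w e1 e3 => by
        have a1 := LinearMap.congr_fun (h5 n (by omega)) w
        have a2 := LinearMap.congr_fun (e2 (l • u n)) w
        simp only [LinearMap.sub_apply, LinearMap.smul_apply, End.one_apply, sub_eq_zero,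
          LinearMap.add_apply, End.mul_apply, LinearMap.zero_apply] at *
        rw [e1, e3, map_smul, a2] at a1
        exact a1.symm
    omega

lemma cliff16' [IsAlgClosed k] [Nontrivial V] (h0 : (2 : k) = 0) (T : ℕ → End k V)
    (h1 : ∀ i < 16, T i * T i + T i + 1 = 0)
    (h2 : ∀ i < 16, ∀ j < 16, i ≠ j → T i * T j + T j * T i + T i + T j + 1 = 0) :
    256 ≤ finrank k V := by
  have e2 : ∀ T : End k V, T + T = 0 := fun T => by rw [← two_smul k, h0, zero_smul]
  have cm : ∀ {A B : End k V}, A * B + B * A = 0 → Commute A B := fun {A B} h => show A * B = B * A by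
    linear_combination (norm := noncomm_ring) h - e2 (B * A)
  let P : ℕ → End k V := fun n => ∑ i ∈ Finset.range n, T i
  have PS : ∀ n, P (2 * (n + 1)) = P (2 * n) + (T (2 * n) + T (2 * n + 1)) := fun n => by
    simp only [P, mul_add, mul_one, Finset.sum_range_succ, add_assoc]
  have f1 : ∀ n, 2 * n ≤ 16 → ∀ j < 16, P (2 * n) * T j + T j * P (2 * n) =
      P (2 * n) + if j < 2 * n then 1 else 0 := fun n => by
    induction n with
    | zero => simp [P]
    | succ n ih =>
      intro hn j hj
      have i1 := ih (by omega) j hj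
      rw [PS]
      by_cases a : j = 2 * n
      · subst a
        rw [if_neg (by omega)] at i1
        rw [if_pos (by omega)]
        linear_combination (norm := noncomm_ring) i1 + e2 (T (2 * n) * T (2 * n)) +
          h2 (2 * n) hj (2 * n + 1) (by omega) (by omega) - e2 (T (2 * n) + T (2 * n + 1) + 1)
      by_cases b : j = 2 * n + 1
      · subst b
        rw [if_neg (by omega)] at i1
        rw [if_pos (by omega)]
        linear_combination (norm := noncomm_ring) i1 + e2 (T (2 * n + 1) * T (2 * n + 1)) +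
          h2 (2 * n) (by omega) (2 * n + 1) hj (by omega) - e2 (T (2 * n) + T (2 * n + 1) + 1)
      rw [if_congr (show j < 2 * (n + 1) ↔ j < 2 * n by omega) rfl rfl]
      linear_combination (norm := noncomm_ring) i1 + h2 (2 * n) (by omega) j hj (Ne.symm a) +
        h2 (2 * n + 1) (by omega) j hj (Ne.symm b) - e2 (T (2 * n) + T (2 * n + 1) + T j + 1)
  have u1 : ∀ i < 16, ∀ j < 16, i ≠ j → (T i + T j) * (T i + T j) = 1 := fun i hi j hj h => by
    linear_combination (norm := noncomm_ring) h1 i hi + h1 j hj + h2 i hi j hj h -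
      e2 (T i + T j + 1 + 1)
  have f2 : ∀ n, 2 * n ≤ 16 → ∀ i < 16, ∀ j < 16, (i < 2 * n ↔ j < 2 * n) →
      P (2 * n) * (T i + T j) + (T i + T j) * P (2 * n) = 0 := fun n hn i hi j hj h => by
    have a1 := f1 n hn i hi
    have a2 := f1 n hn j hj
    rw [if_congr h rfl rfl] at a1
    linear_combination (norm := noncomm_ring) a1 + a2 + e2 (P (2 * n) + if j < 2 * n then 1 else 0)
  have f3 : ∀ n, 2 * n ≤ 16 → P (2 * n) * P (2 * n) = (n : k) • 1 := fun n => by
    induction n with
    | zero => simp [P]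
    | succ n ih =>
      intro hn
      rw [PS, Nat.cast_succ, add_smul, one_smul]
      linear_combination (norm := noncomm_ring) ih (by omega) + u1 (2 * n) (by omega) (2 * n + 1)
        (by omega) (by omega) + f2 n (by omega) (2 * n) (by omega) (2 * n + 1) (by omega) (by omega)
  have f4 : ∀ m, 2 * m ≤ 16 → ∀ n ≤ m, Commute (P (2 * m)) (P (2 * n)) := fun m hm n => by
    induction n with
    | zero => simp [P]
    | succ n ih =>
      intro hn
      rw [PS]
      exact (ih (by omega)).add_right (cm (f2 m hm _ (by omega) _ (by omega) (by omega)))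
  have i1 := cliffTwo h0 (fun a => T (2 * a + 1) + T (2 * a + 2)) (fun a => P (2 * (a + 1))) 7
    (fun a ha => u1 _ (by omega) _ (by omega) (by omega)) (fun a ha => ⟨_, f3 _ (by omega)⟩)
    (fun a ha => by
      have a1 := f1 (a + 1) (by omega) (2 * a + 1) (by omega)
      have a2 := f1 (a + 1) (by omega) (2 * a + 2) (by omega)
      rw [if_pos (by omega)] at a1
      rw [if_neg (by omega)] at a2
      linear_combination (norm := noncomm_ring) a1 + a2 + e2 (P (2 * (a + 1))))
    (fun a ha b hb => ⟨cm (f2 _ (by omega) _ (by omega) _ (by omega) (by omega)),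
      f4 _ (by omega) _ (by omega)⟩) (⊤ ⊓ LinearMap.ker (P (2 * 8)))
    (ker_ne top_ne_bot (fun _ _ => trivial) (by
      rw [f3 8 le_rfl, show ((8 : ℕ) : k) = 0 by rw [Nat.cast_ofNat]; linear_combination 4 * h0,
        zero_smul]))
    fun a ha w hw => by
      have k1 : ∀ A : End k V, Commute (P (2 * 8)) A → A w ∈ ⊤ ⊓ LinearMap.ker (P (2 * 8)) :=
        fun A hA => ⟨trivial, by
          rw [SetLike.mem_coe, LinearMap.mem_ker, ← End.mul_apply, hA.eq, End.mul_apply,
            LinearMap.mem_ker.mp hw.2, map_zero]⟩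
      exact ⟨k1 _ (cm (f2 _ le_rfl _ (by omega) _ (by omega) (by omega))),
        k1 _ (f4 _ le_rfl _ (by omega))⟩
  have i2 := half_le (W := ⊤) (s := T 0) (z := P (2 * 8))
    (Function.LeftInverse.injective (g := T 0 * T 0) (LinearMap.congr_fun (show T 0 * T 0 * T 0 = 1 by
      linear_combination (norm := noncomm_ring) (T 0 - 1) * h1 0 (by omega))))
    (fun _ _ => trivial) fun w e1 e3 => by
      have a1 := LinearMap.congr_fun (f1 8 le_rfl 0 (by omega)) w
      simpa [e1, e3] using a1.symm
  rw [finrank_top] at i2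
  omega

end Cfsg.Agent.H7.E8
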