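import Cfsg.Agent.H7.E8R1
import Cfsg.Agent.H6.AS10
import Mathlib.LinearAlgebra.Trace

/-!
Weights of six commuting three-cycles on small modules of covers of the alternating group of
degree 18.
-/

set_option autoImplicit false
set_option maxRecDepth 100000

namespace Cfsg.Agent.H7.E8

open Module H6A Equiv Equiv.Perm Finset

section basis
variable {k V J : Type*} [Field k] [AddCommGroup V] [Module k V] [Fintype J] (b : Basis J k V)

omit [Fintype J] in
lemma repr_diag {X : End k V} {c : J → k} (h : ∀ j, X (b j) = c j • b j) (v : V) (j : J) :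
    b.repr (X v) j = c j * b.repr v j := by
  classical
  have : b.coord j ∘ₗ X = c j • b.coord j := b.ext fun i => by
    by_cases e : i = j <;> simp [h, e, Finsupp.single_apply]
  exact LinearMap.congr_fun this v

open Classical in
lemma fin_eig {S : Type*} (X : S → End k V) (c : S → J → k) (h : ∀ s j, X s (b j) = c s j • b j)
    (μ : S → k) : finrank k (⨅ s, (X s).eigenspace (μ s) : Submodule k V) =
      #{j | ∀ s, c s j = μ s} := by
  have : (⨅ s, (X s).eigenspace (μ s) : Submodule k V) =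
      Submodule.span k (b '' {j | ∀ s, c s j = μ s}) := by
    ext v
    simp only [Submodule.mem_iInf, End.mem_eigenspace_iff, Basis.mem_span_image]
    refine ⟨fun hv j hj s => ?_, fun hv s => b.ext_elem fun j => ?_⟩
    · have := repr_diag b (h s) v j
      rw [hv, map_smul] at this
      exact (mul_right_cancel₀ (by simpa using hj) this).symm
    · rw [repr_diag b (h s), map_smul]
      by_cases e : b.repr v j = 0
      · simp [e]
      · simp [hv (by simpa using e) s]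
  rw [this, Set.image_eq_range]
  refine (finrank_span_eq_card (b.linearIndependent.comp _ Subtype.val_injective)).trans ?_
  rw [Fintype.card_subtype]
  rfl

end basis

abbrev Wg := Fin 6 → ZMod 3
def nz (x : ZMod 3) : ℕ := if x = 0 then 0 else 1
def ty (a : Wg) : ℕ := nz (a 0) + nz (a 1) + nz (a 2) + (nz (a 3) + nz (a 4) + nz (a 5))
def code (a : Wg) : ℕ :=
  (a 5).val + 3 * ((a 4).val + 3 * ((a 3).val + 3 * ((a 2).val + 3 * ((a 1).val + 3 * (a 0).val))))
def cn (n : ℕ) : Wg := fun q => if 6 ≤ q.1 + n then 1 else 0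
def act (i j m : Fin 6) (a : Wg) : Wg :=
  fun q => ((if q = m then 2 else 1 : ℕ) : ZMod 3) * a (swap i j q)
def bl (i : Fin 6) (c : Fin 3) : Fin 18 := ⟨3 * i + c, by omega⟩

theorem desc : ∀ a : Wg, a = cn (ty a) ∨ ∃ i j m, i < j ∧ code (act i j m a) < code a ∧
    ty (act i j m a) = ty a := by
  decide +kernel

lemma act_act (i j m : Fin 6) (a : Wg) : act i j (swap i j m) (act i j m a) = a := by
  funext q
  have : ∀ x : ZMod 3, 2 * (2 * x) = x := by decide
  by_cases e : q = swap i j m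
  · simp [act, e, this]
  · simp [act, e, show swap i j q ≠ m from fun h => e (by simp [← h])]

lemma sum_fib {R B : Type*} [AddCommMonoid R] [DecidableEq B] (p : Wg → Prop) [DecidablePred p]
    (g : Wg → B) (S : Finset B) (hS : ∀ a, g a ∈ S) (f : B → R) :
    ∑ a, (if p a then f (g a) else 0) = ∑ n ∈ S, #{a | p a ∧ g a = n} • f n := by
  rw [← sum_filter, ← sum_fiberwise_of_maps_to (t := S) (g := g) fun a _ => hS a]
  refine sum_congr rfl fun n _ => ?_
  rw [filter_filter, ← sum_const]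
  exact sum_congr rfl fun a ha => by rw [(mem_filter.mp ha).2.2]

lemma ty_lt (a : Wg) : ty a ∈ range 7 := by
  simp only [ty, nz, mem_range]; split_ifs <;> omega

variable {α : Type} [DecidableEq α] [Fintype α] {H : Type} [Group H] {φ : H →* Perm α}
  {k V : Type} [Field k] [AddCommGroup V] [Module k V] [FiniteDimensional k V]
  (ρ : H →* End k V) {ζ : k} (hζ : IsPrimitiveRoot ζ 3)

/-- multiplicities of weights -/
noncomputable def mu (ζ : k) (x : Fin 6 → H) (a : Wg) : ℕ :=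
  finrank k (⨅ i, (ρ (x i)).eigenspace (ζ ^ (a i).val) : Submodule k V)

/-- weight bases -/
structure WB (ζ : k) (x : Fin 6 → H) where
  s : Finset V
  b : Basis s k V
  w : s → Wg
  h : ∀ j i, ρ (x i) (b j) = ζ ^ (w j i).val • b j

include hζ

lemma exists_wb [IsAlgClosed k] (h3 : (3 : k) ≠ 0) (x : Fin 6 → H) (hc : ∀ i j, Commute (x i) (x j))
    (hx : ∀ i, x i ^ 3 = 1) : Nonempty (WB ρ ζ x) := by
  obtain ⟨s, s1, s2, s3⟩ := exists_eigbasis (fun i => ρ (x i)) (fun i j => (hc i j).map ρ)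
    fun i => ⟨3, by exact_mod_cast h3, by rw [← map_pow, hx, map_one]⟩
  have h2 : ∀ (v : s) i, ∃ a : ZMod 3, ρ (x i) v = ζ ^ a.val • v.1 := fun v i => by
    obtain ⟨c, hc⟩ := s3 v v.2 i
    have := rho_pow ρ hc 3
    rw [hx, map_one, End.one_apply] at this
    obtain ⟨j, hj, rfl⟩ := hζ.eq_pow_of_pow_eq_one (ξ := c) (smul_left_injective k (s2.ne_zero v.2)
      (by simpa using this.symm))
    exact ⟨j, by rw [ZMod.val_cast_of_lt hj, hc]⟩
  choose w hw using h2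
  have s4 : LinearIndependent k fun v : s => v.1 := s2
  exact ⟨s, Basis.mk s4 (by simp [← s1]), w, fun j i => by
    rw [Basis.mk_apply]; exact hw j i⟩

lemma zinj {a c : ZMod 3} (h : ζ ^ a.val = ζ ^ c.val) : a = c :=
  ZMod.val_injective _ (hζ.pow_inj (ZMod.val_lt _) (ZMod.val_lt _) h)

variable {ρ} {x : Fin 6 → H}

lemma WB.mu_eq (B : WB ρ ζ x) (a : Wg) : mu ρ ζ x a = #{j | B.w j = a} := by
  rw [mu, fin_eig B.b (fun i => ρ (x i)) _ fun i j => B.h j i]
  congr 1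
  ext j
  simp only [mem_filter, mem_univ, true_and, funext_iff]
  exact forall_congr' fun i => ⟨zinj hζ, fun e => by rw [e]⟩

lemma WB.sum (B : WB ρ ζ x) {R : Type*} [AddCommMonoid R] (F : Wg → R) :
    ∑ j, F (B.w j) = ∑ a, mu ρ ζ x a • F a := by
  rw [← sum_fiberwise (g := B.w)]
  refine sum_congr rfl fun a _ => ?_
  rw [B.mu_eq hζ, ← sum_const]
  exact sum_congr rfl fun j hj => by rw [(mem_filter.mp hj).2]

lemma mu_le {g : H} {π : Fin 6 → Fin 6} {e : Fin 6 → ℕ} (hg : ∀ i, g * x i * g⁻¹ = x (π i) ^ e i)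
    (a : Wg) : mu ρ ζ x a ≤ mu ρ ζ x fun i => (e i : ZMod 3) * a (π i) := by
  rw [mu, LinearEquiv.finrank_eq (Submodule.equivMapOfInjective (ρ g⁻¹)
    ((injective_iff_map_eq_zero _).mpr fun v => rho_inj ρ _) _)]
  refine Submodule.finrank_mono ?_
  rintro _ ⟨v, hv, rfl⟩
  simp only [SetLike.mem_coe, Submodule.mem_iInf, End.mem_eigenspace_iff] at hv ⊢
  intro i
  rw [← map_smul, pow_val_nsmul hζ, ← rho_pow ρ (hv _), ← hg, ← rho_mul, ← rho_mul]
  congr 2; group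

omit hζ in
/-- the six three-cycles -/
noncomputable def xx (φ : H →* Perm α) (ι : Fin 18 ↪ α) (i : Fin 6) : H :=
  t3 φ (ι (bl i 0)) (ι (bl i 1)) (ι (bl i 2))

variable (hφ : CE φ) (h18 : Fintype.card α = 18) (ι : Fin 18 ↪ α)

omit hζ [DecidableEq α] [Fintype α] in
lemma d3_bl (i : Fin 6) : D3 (ι (bl i 0)) (ι (bl i 1)) (ι (bl i 2)) := by simp [D3, bl]

omit hζ
include hφ h18

lemma cj_emb {g : H} {g0 : Perm (Fin 18)} (hg : φ g = viaEmbeddingHom ι g0) (i : Fin 6) :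
    g * xx φ ι i * g⁻¹ = t3 φ (ι (g0 (bl i 0))) (ι (g0 (bl i 1))) (ι (g0 (bl i 2))) := by
  rw [xx, hφ.t3_conj (by omega) (d3_bl ι i), hg, emb_apply, emb_apply, emb_apply]

lemma xx_map (i : Fin 6) : φ (xx φ ι i) = viaEmbeddingHom ι (cy (bl i 0) (bl i 1) (bl i 2)) := by
  rw [emb_cy, xx, hφ.t3_map (by omega) (d3_bl ι i)]

lemma xx_comm (i j : Fin 6) : Commute (xx φ ι i) (xx φ ι j) := by
  by_cases e : i = j
  · rw [e]
  have := cj_emb hφ h18 ι (xx_map hφ h18 ι i) j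
  have h : ∀ i j : Fin 6, i ≠ j → ∀ c, cy (bl i 0) (bl i 1) (bl i 2) (bl j c) = bl j c := by
    decide +kernel
  rw [h i j e, h i j e, h i j e] at this
  exact mul_inv_eq_iff_eq_mul.mp this

lemma xx_pow (i : Fin 6) : xx φ ι i ^ 3 = 1 := hφ.t3_pow (by omega) (d3_bl ι i)

include hζ

lemma mu_act {i j : Fin 6} (h : i ≠ j) (m : Fin 6) (a : Wg) :
    mu ρ ζ (xx φ ι) a ≤ mu ρ ζ (xx φ ι) (act i j m a) := by
  have h1 : ∀ i j m : Fin 6, i ≠ j →
      let L := [(bl i 0, bl j 0), (bl i 1, bl j 1), (bl i 2, bl j 2), (bl m 1, bl m 2)]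
      ((∀ x ∈ L, x.1 ≠ x.2) ∧ Even L.length) ∧ ∀ q, sw L (bl q 0) = bl (swap i j q) 0 ∧
        sw L (bl q 1) = bl (swap i j q) (if q = m then 2 else 1) ∧
        sw L (bl q 2) = bl (swap i j q) (if q = m then 1 else 2) := by decide +kernel
  obtain ⟨h2, h3⟩ := h1 i j m h
  obtain ⟨g, hg⟩ := hφ.sur _ ((sign_emb ι _).trans (sign_sw _ h2))
  refine mu_le hζ (g := g) (fun q => ?_) a
  rw [cj_emb hφ h18 ι hg, (h3 q).1, (h3 q).2.1, (h3 q).2.2]
  split_ifs
  · exact hφ.t3_sq (by omega) (d3_bl ι _)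
  · exact (pow_one _).symm

lemma mu_ty (a : Wg) : mu ρ ζ (xx φ ι) a = mu ρ ζ (xx φ ι) (cn (ty a)) := by
  induction hn : code a using Nat.strong_induction_on generalizing a with
  | _ n ih =>
  rcases desc a with h | ⟨i, j, m, h1, h2, h3⟩
  · rw [← h]
  rw [← h3, ← ih _ (hn ▸ h2) _ rfl]
  refine le_antisymm (mu_act hζ hφ h18 ι h1.ne m a) ?_
  simpa only [act_act] using mu_act (ρ := ρ) hζ hφ h18 ι h1.ne (swap i j m) (act i j m a)

lemma tr_ne (h3 : (3 : k) ≠ 0) (B : WB ρ ζ (xx φ ι)) (μ : Wg) (h : ∀ a : Wg, a 3 = μ 3 → a 4 = μ 4 →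
    a 5 = μ 5 → mu ρ ζ (xx φ ι) a = if nz (a 0) + nz (a 1) + nz (a 2) = 2 then 1 else 0) : False := by
  set x := xx φ ι
  let L : List (Fin 18 × Fin 18) := [(1, 3), (2, 6), (5, 7), (3, 6), (4, 7), (5, 8)]
  obtain ⟨g, hg⟩ := hφ.sur _ ((sign_emb ι _).trans (sign_sw L (by decide)))
  let σ : Perm (Fin 18) := sw L * (cy (bl 0 0) (bl 0 1) (bl 0 2) * cy (bl 1 0) (bl 1 1) (bl 1 2) *
    cy (bl 2 0) (bl 2 1) (bl 2 2)) * (sw L)⁻¹
  have hs : φ (g * (x 0 * x 1 * x 2) * g⁻¹) = viaEmbeddingHom ι σ := by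
    simp only [σ, x, map_mul, map_inv, hg, xx_map hφ h18]
  set s := g * (x 0 * x 1 * x 2) * g⁻¹ with hsd
  have s1 : ∀ i j : Fin 6, (∀ c, σ (bl i c) = bl j c) → x j * s = s * x i := fun i j e => by
    have := cj_emb hφ h18 ι hs i
    rw [e, e, e] at this
    exact (mul_inv_eq_iff_eq_mul.mp this).symm
  have g1 : ∀ i : Fin 6, (∀ c, sw L (bl i c) = bl i c) → Commute (ρ g) (ρ (x i)) := fun i e => by
    have := cj_emb hφ h18 ι hg i
    rw [e, e, e] at this
    exact Commute.map (mul_inv_eq_iff_eq_mul.mp this) ρ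
  let pj : Fin 6 → End k V := fun i =>
    ρ (x i) * ρ (x i) + ζ ^ (μ i).val • ρ (x i) + (ζ ^ (μ i).val) ^ 2 • 1
  have p1 : ∀ i j, pj i (B.b j) = (if B.w j i = μ i then 3 * (ζ ^ (μ i).val) ^ 2 else 0) • B.b j :=
    fun i j => by
      simp only [pj, LinearMap.add_apply, End.mul_apply, B.h, map_smul, LinearMap.smul_apply,
        End.one_apply, smul_smul, ← add_smul]
      congr 1
      split_ifs with e
      · rw [e]; ring
      · have a1 : ∀ n, (ζ ^ n) ^ 3 = 1 := fun n => by rw [← pow_mul, mul_comm, pow_mul, hζ.pow_eq_one, one_pow]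
        refine mul_left_cancel₀ (sub_ne_zero.mpr fun e' => e (zinj hζ e')) ?_
        linear_combination a1 (B.w j i).val - a1 (μ i).val
  have p2 : ∀ i : Fin 6, (∀ c, sw L (bl i c) = bl i c) → Commute (ρ g) (pj i) := fun i e =>
    (((g1 i e).mul_right (g1 i e)).add_right ((g1 i e).smul_right _)).add_right
      ((Commute.one_right _).smul_right _)
  have p3 : Commute (ρ g) (pj 3 * pj 4 * pj 5) := ((p2 3 (by decide +kernel)).mul_right
    (p2 4 (by decide +kernel))).mul_right (p2 5 (by decide +kernel))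
  let K := 3 * (ζ ^ (μ 3).val) ^ 2 * (3 * (ζ ^ (μ 4).val) ^ 2) * (3 * (ζ ^ (μ 5).val) ^ 2)
  have p4 : ∀ j, (pj 3 * pj 4 * pj 5) (B.b j) =
      (if B.w j 3 = μ 3 ∧ B.w j 4 = μ 4 ∧ B.w j 5 = μ 5 then K else 0) • B.b j := fun j => by
    simp only [End.mul_apply, p1, map_smul, smul_smul]
    congr 1
    by_cases e3 : B.w j 3 = μ 3 <;> by_cases e4 : B.w j 4 = μ 4 <;> by_cases e5 : B.w j 5 = μ 5 <;>
      simp [e3, e4, e5, K]; ring
  set P := pj 3 * pj 4 * pj 5
  have t1 : LinearMap.trace k V (ρ s * P) = LinearMap.trace k V (ρ (x 0 * x 1 * x 2) * P) := by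
    have : ρ g⁻¹ * P * ρ g = P := by rw [mul_assoc, ← p3.eq, ← mul_assoc, ← map_mul]; simp
    rw [hsd, map_mul ρ _ g⁻¹, map_mul ρ g, mul_assoc, mul_assoc, LinearMap.trace_mul_comm, mul_assoc,
      this]
  classical
  have t2 : ∀ T : End k V, LinearMap.trace k V T = ∑ j, B.b.repr (T (B.b j)) j := fun T => by
    simp [LinearMap.trace_eq_matrix_trace k B.b, Matrix.trace, LinearMap.toMatrix_apply]
  let F : Wg → k := fun a =>
    if a 3 = μ 3 ∧ a 4 = μ 4 ∧ a 5 = μ 5 then K * ζ ^ (a 0 + a 1 + a 2).val else 0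
  have t3 : ∀ j, B.b.repr ((ρ (x 0 * x 1 * x 2) * P) (B.b j)) j = F (B.w j) := fun j => by
    simp only [F, End.mul_apply, p4, map_smul, map_mul, B.h, pow_val_add hζ]
    split_ifs
    · simp only [Finsupp.smul_apply, Basis.repr_self, Finsupp.single_eq_same, smul_eq_mul]; ring
    · simp
  have t4 : ∀ a, mu ρ ζ x a • F a =
      if (a 3 = μ 3 ∧ a 4 = μ 4 ∧ a 5 = μ 5) ∧ nz (a 0) + nz (a 1) + nz (a 2) = 2 then
        (fun c : ZMod 3 => K * ζ ^ c.val) (a 0 + a 1 + a 2) else 0 := fun a => by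
    by_cases e : a 3 = μ 3 ∧ a 4 = μ 4 ∧ a 5 = μ 5
    · rw [h a e.1 e.2.1 e.2.2]; simp [e, F]
    · simp [e, F]
  rw [t2, t2, sum_eq_zero fun j _ => ?_, sum_congr rfl fun j _ => t3 j, B.sum hζ F,
    sum_congr rfl fun a _ => t4 a, sum_fib _ (fun a => a 0 + a 1 + a 2) {0, 1, 2}
      (by decide +kernel) fun c : ZMod 3 => K * ζ ^ c.val] at t1
  · have c1 : ∀ u v w c : ZMod 3, #{a : Wg | ((a 3 = u ∧ a 4 = v ∧ a 5 = w) ∧
        nz (a 0) + nz (a 1) + nz (a 2) = 2) ∧ a 0 + a 1 + a 2 = c} = if c = 0 then 6 else 3 := by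
      decide +kernel
    simp only [c1] at t1
    rw [sum_insert (by decide), sum_insert (by decide), sum_singleton, if_pos rfl, if_neg (by decide),
      if_neg (by decide)] at t1
    have z1 := hζ.geom_sum_eq_zero (by decide)
    have z0 := hζ.ne_zero (by decide)
    simp only [sum_range_succ, range_zero, sum_empty, show (0 : ZMod 3).val = 0 from rfl,
      show (1 : ZMod 3).val = 1 from rfl, show (2 : ZMod 3).val = 2 from rfl, nsmul_eq_mul] at z1 t1
    refine mul_ne_zero h3 (show K ≠ 0 by simp [K, h3, z0]) ?_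
    push_cast at t1
    linear_combination -t1 - 3 * K * z1
  · rw [End.mul_apply, p4, map_smul, map_smul]
    split_ifs with e
    swap
    · simp
    have a1 := h _ e.1 e.2.1 e.2.2
    rw [B.mu_eq hζ] at a1
    have a2 : ∀ i q : Fin 6, (∀ c, σ (bl i c) = bl q c) → B.w j i ≠ B.w j q →
        B.b.repr (ρ s (B.b j)) j = 0 := fun i q e e' => by
      have a3 := repr_diag B.b (fun j => B.h j q) (ρ s (B.b j)) j
      rw [← rho_mul, s1 i q e, rho_mul, B.h, map_smul, map_smul] at a3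
      by_contra a4
      exact e' (zinj hζ (mul_right_cancel₀ a4 a3))
    have a5 : ∀ u v w : ZMod 3, nz u + nz v + nz w = 2 → u ≠ v ∨ v ≠ w := by decide
    split_ifs at a1 with e2
    · rcases a5 _ _ _ e2 with e3 | e3
      · simp [a2 0 1 (by decide +kernel) e3]
      · simp [a2 1 2 (by decide +kernel) e3]
    · exact absurd a1 (card_ne_zero_of_mem (a := j) (by simp))

omit h18 hφ in
lemma WB.sum_ty (B : WB ρ ζ x) (M : ℕ → ℕ) (hM : ∀ a, mu ρ ζ x a = M (ty a)) (p : Wg → Prop)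
    [DecidablePred p] : #{j | p (B.w j)} = ∑ n ∈ range 7, #{a | p a ∧ ty a = n} * M n := by
  rw [card_filter, B.sum hζ fun a => if p a then 1 else 0]
  simp only [hM, smul_eq_mul, mul_ite, mul_one, mul_zero]
  exact sum_fib p ty _ ty_lt M

omit h18 hφ in
lemma WB.dim (B : WB ρ ζ x) (M : ℕ → ℕ) (hM : ∀ a, mu ρ ζ x a = M (ty a)) : finrank k V =
    M 0 + 12 * M 1 + 60 * M 2 + 160 * M 3 + 240 * M 4 + 192 * M 5 + 64 * M 6 := by
  have := B.sum_ty hζ M hM fun _ => True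
  have c : ∀ n ∈ range 7, #{a : Wg | True ∧ ty a = n} = [1, 12, 60, 160, 240, 192, 64].getD n 0 := by
    decide +kernel
  rw [sum_congr rfl fun n hn => by rw [c n hn]] at this
  rw [finrank_eq_card_basis B.b]
  simpa [sum_range_succ] using this

lemma no45 (h3 : (3 : k) ≠ 0) (hV : finrank k V ≤ 248) (B : WB ρ ζ (xx φ ι)) (j : B.s) :
    ty (B.w j) ≠ 4 ∧ ty (B.w j) ≠ 5 := by
  have hM := mu_ty (ρ := ρ) hζ hφ h18 ι
  have h1 := B.dim hζ (fun n => mu ρ ζ (xx φ ι) (cn n)) hM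
  have h2 : mu ρ ζ (xx φ ι) (B.w j) ≠ 0 := B.mu_eq hζ _ ▸ card_ne_zero_of_mem (a := j) (by simp)
  have h4 : ∀ u v w, nz u + nz v + nz w ≤ 3 := by decide
  have h5 : ∀ (M : ℕ → ℕ) (c n : ℕ), n ≤ 3 → c = 2 ∨ c = 3 → M 0 + 12 * M 1 + 60 * M 2 + 160 * M 3 +
      240 * M 4 + 192 * M 5 + 64 * M 6 ≤ 248 → M (c + 2) ≠ 0 →
      M (n + c) = if n = 2 then 1 else 0 := by
    rintro M c n hn (rfl | rfl) h h' <;> interval_cases n <;> simp at h' ⊢ <;> omega
  rw [hM] at h2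
  refine ⟨fun e => tr_ne hζ hφ h18 ι h3 B ![0, 0, 0, 1, 1, 0] fun a e3 e4 e5 => ?_,
    fun e => tr_ne hζ hφ h18 ι h3 B ![0, 0, 0, 1, 1, 1] fun a e3 e4 e5 => ?_⟩ <;>
    rw [hM, ty, e3, e4, e5]
  · exact h5 (fun n => mu ρ ζ (xx φ ι) (cn n)) 2 _ (h4 _ _ _) (by simp) (h1 ▸ hV) (by rwa [e] at h2)
  · exact h5 (fun n => mu ρ ζ (xx φ ι) (cn n)) 3 _ (h4 _ _ _) (by simp) (h1 ▸ hV) (by rwa [e] at h2)

end Cfsg.Agent.H7.E8
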