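import Cfsg.Agent.H7.E8K
import Cfsg.Agent.H6.AS11

/-!
Eigenspaces of three-cycles on modules of dimension at most 248 for covers of the alternating group
of degree 18.
-/

set_option autoImplicit false
set_option maxRecDepth 100000

namespace Cfsg.Agent.H7.E8

open Module H6A Equiv Equiv.Perm Finset

variable {α : Type} [DecidableEq α] [Fintype α] {H : Type} [Group H] {φ : H →* Perm α}
  {k V : Type} [Field k] [IsAlgClosed k] [AddCommGroup V] [Module k V] [FiniteDimensional k V]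
  {ρ : H →* End k V} {ζ : k} (hζ : IsPrimitiveRoot ζ 3)

/-- vectors killed by the quadratic polynomial -/
def Zq (X : End k V) (v : V) : Prop := X (X v) + X v + v = 0

include hζ in
omit [IsAlgClosed k] in
lemma WB.zq {x : Fin 6 → H} (B : WB ρ ζ x) (h3 : (3 : k) ≠ 0) (i : Fin 6) (v : V) :
    Zq (ρ (x i)) v ↔ ∀ j, B.b.repr v j ≠ 0 → B.w j i ≠ 0 := by
  have z1 := hζ.geom_sum_eq_zero (by decide)
  simp only [sum_range_succ, range_zero, sum_empty] at z1
  have h1 : ∀ c : ZMod 3, (ζ ^ c.val * ζ ^ c.val + ζ ^ c.val + 1 = 0 ↔ c ≠ 0) := fun c => by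
    obtain rfl | rfl | rfl : c = 0 ∨ c = 1 ∨ c = 2 := by revert c; decide
    · simp only [ZMod.val_zero, pow_zero, ne_eq, not_true, iff_false]
      exact fun e => h3 (by linear_combination e)
    · exact iff_of_true (by rw [show (1 : ZMod 3).val = 1 from rfl]; linear_combination z1) (by decide)
    · exact iff_of_true (by
        rw [show (2 : ZMod 3).val = 2 from rfl]; linear_combination z1 + ζ * hζ.pow_eq_one) (by decide)
  rw [Zq, B.b.ext_elem_iff]
  refine forall_congr' fun j => ?_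
  rw [map_add, map_add, Finsupp.add_apply, Finsupp.add_apply, repr_diag B.b fun j => B.h j i,
    repr_diag B.b fun j => B.h j i, ← h1, map_zero, Finsupp.zero_apply, ← mul_assoc, ← add_mul,
    ← add_one_mul, mul_eq_zero]
  tauto

variable (hφ : CE φ) (h18 : Fintype.card α = 18) (h3 : (3 : k) ≠ 0) (hV : finrank k V ≤ 248)
include hζ hφ h18 h3 hV

lemma zq_five (ι : Fin 18 ↪ α) (v : V) (h : ∀ i < 4, Zq (ρ (xx φ ι i)) v) : Zq (ρ (xx φ ι 4)) v := by
  obtain ⟨B⟩ := exists_wb ρ hζ h3 _ (xx_comm hφ h18 ι) (xx_pow hφ h18 ι)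
  simp only [B.zq hζ h3] at h ⊢
  intro j hj
  have h1 : ∀ a : Wg, (∀ i < 4, a i ≠ 0) → ty a ≠ 4 ∧ ty a ≠ 5 → a 4 ≠ 0 := by decide +kernel
  exact h1 _ (fun i hi => h i hi j hj) (no45 hζ hφ h18 ι h3 hV B j)

lemma zq_list (ι : Fin 18 ↪ α) (v : V) (L : List (Fin 18)) (hL : L.Nodup) (h15 : L.length = 15)
    (h : ∀ i < 4, Zq (ρ (t3 φ (ι (L.getD (3 * i) 0)) (ι (L.getD (3 * i + 1) 0))
      (ι (L.getD (3 * i + 2) 0)))) v) :
    Zq (ρ (t3 φ (ι (L.getD 12 0)) (ι (L.getD 13 0)) (ι (L.getD 14 0)))) v := by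
  obtain ⟨κ, hκ⟩ := exists_emb (m := L.length) (n := 18) (by omega) (by simp)
    ⟨L.get, List.nodup_iff_injective_get.mp hL⟩
  have h1 : ∀ i : Fin 6, i < 5 → ∀ c, κ (bl i c) = L.getD (3 * i + c) 0 := fun i hi c => by
    have hi' : 3 * i.1 + c.1 < L.length := by omega
    rw [List.getD_eq_getElem?_getD, List.getElem?_eq_getElem hi']
    exact hκ ⟨_, hi'⟩
  have := zq_five hζ hφ h18 h3 hV (κ.trans ι) v fun i hi => by
    simp only [xx, Function.Embedding.trans_apply, h1 i (by omega)]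
    exact h i hi
  simp only [xx, Function.Embedding.trans_apply, h1 4 (by decide)] at this
  exact this

lemma zq_all (ι : Fin 18 ↪ α) (v : V) (h : ∀ i, Zq (ρ (xx φ ι i)) v) (a b c : Fin 18)
    (hd : D3 a b c) : Zq (ρ (t3 φ (ι a) (ι b) (ι c))) v := by
  have s1 : ∀ i j l d e f a b c, (pt i j l d e f a b c).Nodup → Zq (ρ (t3 φ (ι d) (ι e) (ι f))) v →
      Zq (ρ (t3 φ (ι a) (ι b) (ι c))) v := fun i j l d e f a b c h1 h2 =>
    zq_list hζ hφ h18 h3 hV ι v _ h1 rfl fun n hn => by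
      interval_cases n
      exacts [h i, h j, h l, h2]
  have s2 : ∀ a b c : Fin 18, D3 a b c → tw a b c → Zq (ρ (t3 φ (ι a) (ι b) (ι c))) v :=
    fun a b c h1 h2 => s1 _ _ _ _ _ _ _ _ _ (ck2 a b c h1 h2) (h _)
  by_cases h2 : tw a b c
  · exact s2 a b c hd h2
  obtain ⟨h4, h5, h6⟩ := ck3 a b c h2
  exact s1 _ _ _ _ _ _ _ _ _ h4 (s2 _ _ _ h5 h6)

variable (irr : ∀ U : Submodule k V, (∀ g, U ≤ U.comap (ρ g)) → U = ⊥ ∨ U = ⊤)
include irr

omit hζ hV [IsAlgClosed k] in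
lemma rel2 [Nontrivial V] (ι : Fin 18 ↪ α) (r1 : ∀ a b c, D3 a b c →
    ρ (t3 φ a b c) * ρ (t3 φ a b c) + ρ (t3 φ a b c) + 1 = 0) (i j : Fin 16) (hij : i ≠ j) :
    ρ (t3 φ (ι 0) (ι 1) (ι (i.natAdd 2))) * ρ (t3 φ (ι 0) (ι 1) (ι (j.natAdd 2))) +
      ρ (t3 φ (ι 0) (ι 1) (ι (j.natAdd 2))) * ρ (t3 φ (ι 0) (ι 1) (ι (i.natAdd 2))) +
      ρ (t3 φ (ι 0) (ι 1) (ι (i.natAdd 2))) + ρ (t3 φ (ι 0) (ι 1) (ι (j.natAdd 2))) + 1 = 0 := by
  have h8 : 8 ≤ Fintype.card α := by omega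
  obtain ⟨l, m, h⟩ := ck4 i j hij
  have h' : D6 (ι 0) (ι 1) (ι (i.natAdd 2)) (ι (j.natAdd 2)) (ι l) (ι m) := h.map ι.injective
  obtain ⟨z, z1, z2, z3, z4, z5⟩ := zrel hφ h8 h'
  have fl : ∀ x y : H, x * y * (x * y) = z → y * x * (y * x) = z := fun x y h => by
    rw [← mul_inv_cancel_right z y, ← z2, ← h]; group
  have mp : ∀ x y : H, x * y * (x * y) = z → ρ x * ρ y * (ρ x * ρ y) = ρ z :=
    fun x y h => by rw [← h]; simp only [map_mul]
  rw [d6_iff] at h'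
  have a1 := r1 _ _ _ h'.1
  have a2 := r1 (ι 0) (ι 1) (ι (j.natAdd 2)) (by unfold D3 at *; grind)
  by_cases h2 : (2 : k) = 0
  · have e2 : ∀ T : End k V, T + T = 0 := fun T => by rw [← two_smul k, h2, zero_smul]
    have z6 : ρ z * ρ z = 1 := by rw [← map_mul, z1, map_one]
    have z7 : ρ z = 1 := by
      have := (irr (LinearMap.ker (ρ z - 1)) fun g u hu => by
        simp only [Submodule.mem_comap, LinearMap.mem_ker, LinearMap.sub_apply, End.one_apply,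
          sub_eq_zero] at hu ⊢
        rw [← rho_mul, ← z2, rho_mul, hu]).resolve_left (top_inf_eq (LinearMap.ker (ρ z - 1)) ▸
          ker_ne top_ne_bot (fun _ _ => trivial) (by
            linear_combination (norm := noncomm_ring) z6 + e2 (1 - ρ z)))
      exact sub_eq_zero.mp (LinearMap.ker_eq_top.mp this)
    have a3 := (mp _ _ z3).trans z7
    generalize ρ (t3 φ (ι 0) (ι 1) (ι (i.natAdd 2))) = A at *
    generalize ρ (t3 φ (ι 0) (ι 1) (ι (j.natAdd 2))) = B at *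
    linear_combination (norm := noncomm_ring) a3 * ((B + 1) * (A + 1)) -
      A * B * A * a2 * (A + 1) + A * B * a1 + e2 ((B + 1) * (A + 1))
  exact spin_rel (k := k) (fun e => mul_ne_zero h2 h3 (by linear_combination e)) a1 a2
    (r1 (ι 0) (ι 1) (ι l) (by unfold D3 at *; grind))
    (by rw [← map_mul, z1, map_one]) (mp _ _ z3) (mp _ _ (fl _ _ z3)) (mp _ _ z4)
    (mp _ _ (fl _ _ z4)) (mp _ _ z5) (mp _ _ (fl _ _ z5))

lemma no6 (ι : Fin 18 ↪ α) {v : V} (hv : v ≠ 0) (h : ∀ i, Zq (ρ (xx φ ι i)) v) : False := by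
  have h8 : 8 ≤ Fintype.card α := by omega
  haveI : Nontrivial V := ⟨v, 0, hv⟩
  let Y : Submodule k V := ⨅ (a) (b) (c) (_ : D3 a b c),
    LinearMap.ker (ρ (t3 φ a b c) * ρ (t3 φ a b c) + ρ (t3 φ a b c) + 1)
  have hY : ∀ u, u ∈ Y ↔ ∀ a b c, D3 a b c → Zq (ρ (t3 φ a b c)) u := fun u => by
    simp only [Y, Submodule.mem_iInf]; rfl
  have sur : Function.Surjective ι :=
    ((Fintype.bijective_iff_injective_and_card ι).mpr ⟨ι.injective, by simp [h18]⟩).2
  have hT := (irr Y fun g u hu => (hY _).mpr fun a b c h => by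
    have h2 := (hY u).mp hu _ _ _ (show D3 (φ g⁻¹ a) (φ g⁻¹ b) (φ g⁻¹ c) by simpa [D3] using h)
    rw [← hφ.t3_conj h8 h g⁻¹] at h2
    have := congrArg (ρ g) h2
    simpa only [Zq, ← rho_mul, mul_assoc, map_add, map_zero, inv_inv, mul_inv_cancel_left] using
      this).resolve_left ((Submodule.ne_bot_iff _).mpr
    ⟨v, (hY v).mpr fun a b c hd => by
      obtain ⟨a, rfl⟩ := sur a
      obtain ⟨b, rfl⟩ := sur b
      obtain ⟨c, rfl⟩ := sur c
      exact zq_all hζ hφ h18 h3 hV ι v h a b c (by simpa [D3] using hd), hv⟩)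
  have r1 : ∀ a b c, D3 a b c → ρ (t3 φ a b c) * ρ (t3 φ a b c) + ρ (t3 φ a b c) + 1 = 0 :=
    fun a b c h => LinearMap.ext fun u => (hY u).mp (hT.ge Submodule.mem_top) a b c h
  have r2 := rel2 hφ h18 h3 irr ι r1
  have r3 : ∀ i : Fin 16, D3 (ι 0) (ι 1) (ι (i.natAdd 2)) := fun i => by
    simp [D3, Fin.ext_iff]; omega
  by_cases h2 : (2 : k) = 0
  · have := cliff16' h2 (fun i => ρ (t3 φ (ι 0) (ι 1) (ι ((Fin.ofNat 16 i).natAdd 2))))
      (fun i _ => r1 _ _ _ (r3 _)) fun i hi j hj e => r2 _ _ fun e' => e (by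
        simpa [Fin.ext_iff, Nat.mod_eq_of_lt, hi, hj] using e')
    omega
  · have := cliff16 (fun e => mul_ne_zero h2 h3 (by linear_combination e)) _
      (fun i => r1 _ _ _ (r3 i)) r2
    omega

theorem eig6 {a b c : α} (hd : D3 a b c) : 6 * finrank k ((ρ (t3 φ a b c)).eigenspace ζ) ≤
    finrank k V + if 160 ≤ finrank k V then 80 else 0 := by
  obtain ⟨ι, hι⟩ := exists_emb (m := 3) (n := 18) (by omega) h18.ge
    ⟨![a, b, c], List.nodup_ofFn.mp (by simpa [D3, and_assoc] using hd)⟩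
  obtain rfl : ι 0 = a := hι 0
  obtain rfl : ι 1 = b := hι 1
  obtain rfl : ι 2 = c := hι 2
  obtain ⟨B⟩ := exists_wb ρ hζ h3 _ (xx_comm hφ h18 ι) (xx_pow hφ h18 ι)
  have hM := mu_ty (ρ := ρ) hζ hφ h18 ι
  set M := fun n => mu ρ ζ (xx φ ι) (cn n)
  have h1 := B.dim hζ M hM
  have h2 : ∀ n, ty (cn n) = n → (∀ j, ty (B.w j) ≠ n) → M n = 0 := fun n e h => by
    simp only [M, B.mu_eq hζ, card_eq_zero, filter_eq_empty_iff]
    exact fun j _ e' => h j (e' ▸ e)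
  have h4 := h2 4 rfl fun j => (no45 hζ hφ h18 ι h3 hV B j).1
  have h5 := h2 5 rfl fun j => (no45 hζ hφ h18 ι h3 hV B j).2
  have h6 := h2 6 rfl fun j e => no6 hζ hφ h18 h3 hV irr ι (B.b.ne_zero j) fun i =>
    (B.zq hζ h3 i _).mpr fun j' hj => by
      obtain rfl : j = j' := by
        by_contra e'
        simp [e'] at hj
      exact (by decide +kernel : ∀ a : Wg, ty a = 6 → ∀ i, a i ≠ 0) _ e i
  have h7 := fin_eig B.b (fun _ : Unit => ρ (xx φ ι 0)) _ (fun _ j => B.h j 0) fun _ => ζ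
  have h8 := B.sum_ty hζ M hM fun a => a 0 = 1
  have c : ∀ n ∈ range 7, #{a : Wg | a 0 = 1 ∧ ty a = n} = [0, 1, 10, 40, 80, 80, 32].getD n 0 := by
    decide +kernel
  rw [sum_congr rfl fun n hn => by rw [c n hn]] at h8
  replace h7 := h7.trans ((congrArg card (ext fun j => by
    simp only [mem_filter, mem_univ, true_and]
    exact ⟨fun e => zinj hζ ((e ()).trans (pow_one ζ).symm),
      fun e _ => by rw [e]; exact pow_one ζ⟩)).trans h8)
  rw [iInf_const] at h7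
  change 6 * finrank k ((ρ (xx φ ι 0)).eigenspace ζ) ≤ _
  simp [sum_range_succ] at h7
  split_ifs <;> omega

end Cfsg.Agent.H7.E8
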