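import Cfsg.Agent.H7.Cnt
import Cfsg.Agent.H6.Ord

/-!
Orders of pointwise stabilisers in orthogonal groups of characteristic two.
-/

set_option autoImplicit false

namespace Cfsg.Agent.H7

open QuadraticMap Module

variable {F V : Type*} [Field F] [AddCommGroup V] [Module F V] {Q : QuadraticForm F V}

variable (Q) in
/-- pointwise stabiliser of a subspace -/
def fixO (W : Submodule F V) : Subgroup (OG Q) where
  carrier := {g | ∀ w ∈ W, g.1 w = w}
  one_mem' := fun _ _ => rfl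
  mul_mem' {a b} ha hb w hw := by rw [OG.mul_apply, hb w hw, ha w hw]
  inv_mem' {a} ha w hw := OG.inv_apply_eq.2 (ha w hw).symm

lemma mem_fixO {W : Submodule F V} {g : OG Q} : g ∈ fixO Q W ↔ ∀ w ∈ W, g.1 w = w := Iff.rfl

lemma mem_fixO_sup {W : Submodule F V} {x : V} {g : OG Q} :
    g ∈ fixO Q (W ⊔ F ∙ x) ↔ g ∈ fixO Q W ∧ g.1 x = x := by
  refine ⟨fun h => ⟨fun w hw => h w (Submodule.mem_sup_left hw),
    h x (Submodule.mem_sup_right (Submodule.mem_span_singleton_self x))⟩, fun h w hw => ?_⟩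
  obtain ⟨a, ha, _, h3, rfl⟩ := Submodule.mem_sup.1 hw
  obtain ⟨c, rfl⟩ := Submodule.mem_span_singleton.1 h3
  rw [map_add, map_smul, h.1 a ha, h.2]

lemma mem_perp_sup {W : Submodule F V} {x y : V} :
    y ∈ perp Q (W ⊔ F ∙ x) ↔ y ∈ perp Q W ∧ polar Q x y = 0 := by
  rw [perp_sup, Submodule.mem_inf, mem_perp_span]; simp

lemma eps_congr {W : Type*} [AddCommGroup W] [Module F W] {Q' : QuadraticForm F W}
    (e : V ≃ₗ[F] W) (he : ∀ x, Q' (e x) = Q x) : eps Q' = eps Q := by
  have : PlusType Q' ↔ PlusType Q :=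
    ⟨fun h => h.congr e.symm fun x => by rw [← he, e.apply_symm_apply], fun h => h.congr e he⟩
  unfold eps
  rw [this]

variable [FiniteDimensional F V]

lemma card_fixO_step (hQ : ND Q) {W : Submodule F V} {x : V} (hx : x ∉ W) :
    Nat.card (fixO Q W) = Nat.card {y // (y - x ∈ perp Q W ∧ Q y = Q x) ∧ y ∉ W} *
      Nat.card (fixO Q (W ⊔ F ∙ x)) := by
  have h1 : MulAction.stabilizer (fixO Q W) x = (fixO Q (W ⊔ F ∙ x)).subgroupOf (fixO Q W) := by
    ext g
    rw [Subgroup.mem_subgroupOf, mem_fixO_sup, and_iff_right g.2]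
    rfl
  rw [← (MulAction.stabilizer (fixO Q W) x).index_mul_card, MulAction.index_stabilizer, h1,
    Nat.card_congr (Subgroup.subgroupOfEquivOfLe fun g hg => (mem_fixO_sup.1 hg).1).toEquiv,
    ← Nat.card_coe_set_eq]
  congr 1
  refine Nat.card_congr (Equiv.subtypeEquivRight fun y => ⟨?_, fun h => ?_⟩)
  · rintro ⟨g, rfl⟩
    refine ⟨⟨mem_perp.2 fun w hw => ?_, OG.map_Q g.1 x⟩, fun h => hx ?_⟩
    · rw [polar_sub_right, sub_eq_zero]
      nth_rw 1 [← g.2 w hw]
      exact OG.map_B g.1 w x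
    · exact (g.1.1.injective (g.2 _ h) : g.1.1 x = x) ▸ h
  · obtain ⟨g, -, h2, h3⟩ := witt_step hQ gen_top W hx h.2 h.1.2.symm fun w hw => by
      have := mem_perp.1 h.1.1 w hw
      rw [polar_sub_right, sub_eq_zero] at this
      exact this.symm
    exact ⟨⟨g, h2⟩, h3⟩

variable [Finite F]

lemma card_fixO_step' (hQ : ND Q) {W : Submodule F V} (hW : perp Q W ≤ W) {x : V} (hx : x ∉ W) :
    Nat.card (fixO Q W) = Nat.card {u : perp Q W // Q u + polar Q x u = 0} *
      Nat.card (fixO Q (W ⊔ F ∙ x)) := by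
  rw [card_fixO_step hQ hx]
  congr 1
  exact Nat.card_congr
    { toFun := fun y => ⟨⟨y.1 - x, y.2.1.1⟩, by
        have := Q_add Q x (y.1 - x)
        rw [add_sub_cancel, y.2.1.2] at this
        linear_combination -this⟩
      invFun := fun u => ⟨x + u.1, ⟨by simp, by rw [Q_add, add_assoc, u.2, add_zero]⟩,
        fun h => hx (by simpa using W.sub_mem h (hW u.1.2))⟩
      left_inv := fun y => by simp
      right_inv := fun u => by simp }

theorem card_fixO_of_ts (hQ : ND Q) (c : ℕ) (W : Submodule F V) (hW : perp Q W ≤ W)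
    (ht : TS Q (perp Q W)) (hc : finrank F W + c = finrank F V) :
    Nat.card (fixO Q W) = Nat.card F ^ c.choose 2 := by
  induction c generalizing W with
  | zero =>
    obtain rfl := Submodule.eq_top_of_finrank_eq (S := W) hc
    rw [show fixO Q ⊤ = ⊥ from eq_bot_iff.2 fun g hg => OG.ext' fun v => hg v trivial]
    simp
  | succ c ih =>
    obtain ⟨x, hx⟩ : ∃ x, x ∉ W := by
      by_contra! h
      rw [show W = ⊤ from eq_top_iff.2 fun x _ => h x] at hc
      simp at hc
    have h1 := finrank_sup_span hx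
    have h2 := finrank_perp hQ (W ⊔ F ∙ x)
    rw [card_fixO_step' hQ hW hx, ih _ (fun y hy => Submodule.mem_sup_left (hW (mem_perp_sup.1 hy).1))
      (fun y hy => ht y (mem_perp_sup.1 hy).1) (by omega), Nat.choose_succ_succ' c,
      Nat.choose_one_right, pow_add]
    congr 1
    rw [show c = finrank F (perp Q (W ⊔ F ∙ x)) by omega, ← Module.natCard_eq_pow_finrank]
    exact Nat.card_congr
      { toFun := fun u => ⟨u.1, mem_perp_sup.2 ⟨u.1.2, by simpa [ht _ u.1.2] using u.2⟩⟩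
        invFun := fun u => ⟨⟨u.1, (mem_perp_sup.1 u.2).1⟩, by
          rw [ht _ (mem_perp_sup.1 u.2).1, (mem_perp_sup.1 u.2).2, add_zero]⟩
        left_inv := fun _ => rfl
        right_inv := fun _ => rfl }

lemma card_perp_ts (hQ : ND Q) {W : Submodule F V} (hW : TS Q W) (hp : PlusType Q) {j : ℕ}
    (hc : 2 * (finrank F W + (j + 1)) = finrank F V) {c : F} (h0 : c ≠ 0) :
    Nat.card {y // y ∈ perp Q W ∧ Q y = c} =
      Nat.card F ^ finrank F W * (Nat.card F ^ j * (Nat.card F ^ (j + 1) - 1)) := by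
  obtain ⟨e, f, h, he⟩ := hW.exists_hypSys hQ
  have h1 := h.finrank_eq
  rw [Fintype.card_fin] at h1
  have h2 := nQ_eq (h.nd_hperp hQ) (m := j + 1) (by omega) c
  have h3 := eps_congr (Q := (QP F _).prod (Q.restrict (hperp Q e f))) h.equiv fun x =>
    h.Q_equiv x.1 x.2
  rw [eps_prod (nd_QP _) (h.nd_hperp hQ) (by simp) ⟨j + 1, by omega⟩, eps_plus hp,
    eps_plus (plusType_QP _), one_mul] at h3
  have h4 : 1 ≤ Nat.card F ^ (j + 1) := Nat.one_le_pow _ _ Nat.card_pos
  rw [show Nat.card F ^ j * (Nat.card F ^ (j + 1) - 1) = nQ (Q.restrict (hperp Q e f)) c by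
    zify [h4]
    refine mul_left_cancel₀ (a := (Nat.card F : ℤ)) (by simp [Nat.card_pos.ne']) ?_
    rw [h2, if_neg h0, ← h3]; ring, nQ, ← Module.natCard_eq_pow_finrank, ← Nat.card_prod]
  have h5 : ∀ u ∈ hperp Q e f, u ∈ perp Q W := fun u hu => by
    rw [← he, mem_perp_span]
    rintro _ ⟨i, rfl⟩
    rw [B_comm, (mem_hperp.1 hu i).1]
  refine (Nat.card_congr (Equiv.ofBijective (fun x => ⟨x.1.1 + x.2.1.1,
    add_mem (hW.le_perp x.1.2) (h5 _ x.2.1.2), by
      rw [Q_add, hW _ x.1.2, mem_perp.1 (h5 _ x.2.1.2) _ x.1.2, zero_add, add_zero]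
      exact x.2.2⟩) ⟨?_, fun y => ?_⟩)).symm
  · rintro ⟨w, u⟩ ⟨w', u'⟩ h6
    have h6 : w.1 + u.1.1 = w'.1 + u'.1.1 := congrArg Subtype.val h6
    have h7 : u.1.1 - u'.1.1 = 0 := h.nd_hperp' hQ _ (sub_mem u.1.2 u'.1.2) fun y hy => by
      rw [show u.1.1 - u'.1.1 = w'.1 - w.1 by rw [sub_eq_sub_iff_add_eq_add, add_comm, h6]]
      exact mem_perp.1 (h5 y hy) _ (sub_mem w'.2 w.2)
    rw [sub_eq_zero] at h7
    exact Prod.ext (Subtype.ext (by rwa [h7, add_left_inj] at h6)) (Subtype.ext (Subtype.ext h7))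
  · have h6 : hcomb e f (hcoord Q e f y.1) ∈ W := by
      rw [hcomb_apply]
      refine add_mem (sum_mem fun i _ => W.smul_mem _ ?_) (sum_mem fun i _ => ?_)
      · exact he.le (Submodule.subset_span ⟨i, rfl⟩)
      · rw [hcoord_inr, B_comm, mem_perp.1 y.2.1 _ (he.le (Submodule.subset_span ⟨i, rfl⟩)), zero_smul]
        exact zero_mem _
    refine ⟨(⟨_, h6⟩, ⟨⟨_, h.sub_mem y.1⟩, ?_⟩), Subtype.ext (add_sub_cancel _ _)⟩
    rw [restrict_apply, Q_sub, hW _ h6, B_comm, mem_perp.1 y.2.1 _ h6, y.2.2, add_zero, sub_zero]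

variable [CharP F 2]

lemma exists_sqrt_repr (hQ : ND Q) {R : Submodule F V} (hR : R ≤ perp Q R) :
    ∃ x, ∀ u ∈ R, Q u = polar Q x u ^ 2 := by
  have := Fact.mk Nat.prime_two
  let φ := frobeniusEquiv F 2
  have h0 : ∀ x, φ x = x ^ 2 := fun _ => rfl
  let l : Dual F R :=
    { toFun := fun v => φ.symm (Q v)
      map_add' := fun u v => by
        rw [← map_add, Submodule.coe_add, Q_add, mem_perp.1 (hR v.2) _ u.2, add_zero]
      map_smul' := fun c v => φ.injective (by
        rw [Submodule.coe_smul, Q_smul, smul_eq_mul, φ.apply_symm_apply, map_mul,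
          φ.apply_symm_apply, h0]
        rfl) }
  obtain ⟨x, hx⟩ := hQ.exists_repr (Subspace.dualLift R l)
  exact ⟨x, fun u hu => by
    rw [B_comm, hx, Subspace.dualLift_of_mem hu, ← h0]; exact (φ.apply_symm_apply _).symm⟩

theorem card_fixO_of_not_ts (hQ : ND Q) {c : ℕ} {W : Submodule F V} (hW : perp Q W ≤ W)
    (ht : ¬ TS Q (perp Q W)) (hc : finrank F W + c = finrank F V) :
    Nat.card (fixO Q W) = 2 * Nat.card F ^ c.choose 2 := by
  obtain ⟨x, h1⟩ := exists_sqrt_repr hQ (R := perp Q W) (by rwa [perp_perp hQ])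
  have hx : x ∉ W := fun h => ht fun u hu => by rw [h1 u hu, mem_perp.1 hu x h, zero_pow two_ne_zero]
  have h2 := finrank_sup_span hx
  have h3 := finrank_perp hQ W
  have h4 := Submodule.finrank_le (W ⊔ F ∙ x)
  obtain ⟨c, rfl⟩ : ∃ d, c = d + 1 := ⟨c - 1, by omega⟩
  let φ : perp Q W →ₗ[F] F := (polarBilin Q x).domRestrict _
  have h5 : φ ≠ 0 := fun h => ht fun u hu => by
    rw [h1 u hu]; exact pow_eq_zero_iff two_ne_zero |>.2 (LinearMap.congr_fun h ⟨u, hu⟩)
  have h6 : ∀ a, Nat.card {u // φ u = a} = Nat.card F ^ c := fun a =>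
    Nat.eq_of_mul_eq_mul_left Nat.card_pos (by
      rw [card_fiber_mul h5, Module.natCard_eq_pow_finrank (K := F), ← pow_succ']
      congr 1; omega)
  rw [card_fixO_step' hQ hW hx, card_fixO_of_ts hQ c _
    (fun y hy => Submodule.mem_sup_left (hW (mem_perp_sup.1 hy).1)) (fun y hy => by
      rw [h1 y (mem_perp_sup.1 hy).1, (mem_perp_sup.1 hy).2, zero_pow two_ne_zero]) (by omega),
    Nat.choose_succ_succ' c, Nat.choose_one_right, pow_add, ← mul_assoc, two_mul]
  congr 1
  classical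
  have := Module.finite_of_finite F (M := V)
  rw [Nat.card_congr ((Equiv.subtypeEquivRight (q := fun u => φ u = 0 ∨ φ u = -1) fun u => by
    rw [h1 _ u.2, ← add_eq_zero_iff_eq_neg, ← mul_eq_zero, mul_add, mul_one, pow_two]; rfl).trans
    (subtypeOrEquiv _ _ (by
      rw [Pi.disjoint_iff]
      intro u
      rw [Prop.disjoint_iff]
      exact fun h => one_ne_zero (neg_eq_zero.1 (h.2.symm.trans h.1))))), Nat.card_sum, h6, h6]

lemma card_Q_fiber {R : Submodule F V} {z : V} (hz : z ∈ R) (h0 : Q z ≠ 0)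
    (h1 : ∀ u ∈ R, polar Q u z = 0) (c : F) :
    Nat.card F * Nat.card {y // y ∈ R ∧ Q y = c} = Nat.card F ^ finrank F R := by
  have := Fintype.ofFinite F
  have := Module.finite_of_finite F (M := R)
  have h2 : ∀ d, nQ (Q.restrict R) d = nQ (Q.restrict R) c := fun d => by
    obtain ⟨a, ha⟩ := isSquare_of_two CharTwo.two_eq_zero ((d - c) / Q z)
    refine nQ_congr (Equiv.addRight (a • ⟨z, hz⟩)) fun x => ?_
    rw [restrict_apply, restrict_apply, Equiv.coe_addRight, Submodule.coe_add, Submodule.coe_smul,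
      Q_add, Q_smul, B_smul_right, h1 _ x.2, pow_two, ← ha, div_mul_cancel₀ _ h0]
    constructor <;> intro h <;> linear_combination h
  rw [← Module.natCard_eq_pow_finrank, ← sum_nQ (Q := Q.restrict R), Finset.sum_congr rfl fun d _ => h2 d,
    Finset.sum_const, Finset.card_univ, smul_eq_mul, Nat.card_eq_fintype_card,
    ← Nat.card_congr (Equiv.subtypeSubtypeEquivSubtypeInter (· ∈ R) (Q · = c))]
  rfl

omit [Finite F] [FiniteDimensional F V] in
lemma le_perp_sup {W : Submodule F V} (hW : W ≤ perp Q W) {x : V} (hx : x ∈ perp Q W) :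
    W ⊔ F ∙ x ≤ perp Q (W ⊔ F ∙ x) :=
  sup_le (fun w hw => mem_perp_sup.2 ⟨hW hw, by rw [B_comm, mem_perp.1 hx w hw]⟩)
    ((Submodule.span_singleton_le_iff_mem _ _).2 (mem_perp_sup.2 ⟨hx, by
      rw [B_self, CharTwo.two_eq_zero, zero_mul]⟩))

omit [Finite F] [CharP F 2] in
lemma exists_nonsing_perp (hQ : ND Q) {W : Submodule F V} (hW : W ≤ perp Q W)
    (h : 2 * finrank F W < finrank F V) : ∃ v ∈ perp Q W, v ∉ W ∧ Q v ≠ 0 := by
  have h1 := finrank_perp hQ W
  by_contra! h2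
  obtain ⟨x, h3, hx⟩ := SetLike.exists_of_lt (lt_of_le_of_ne hW fun h => by rw [← h] at h1; omega)
  have h4 : TS Q (perp Q W) := fun z hz => by
    by_cases h4 : z ∈ W
    · have := h2 (z + x) (add_mem hz h3) fun h => hx (by simpa using W.sub_mem h h4)
      rwa [Q_add, h2 x h3 hx, mem_perp.1 h3 z h4, add_zero, add_zero] at this
    · exact h2 z hz h4
  have := h4.two_mul_finrank_le hQ
  omega

theorem card_fixO_not_ts (hQ : ND Q) (j : ℕ) (W : Submodule F V) (hW : W ≤ perp Q W)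
    (ht : ¬ TS Q W) {k : ℕ} (hk : finrank F W = k + 1) (hc : 2 * (k + 1 + j) = finrank F V) :
    Nat.card (fixO Q W) =
      2 * (Nat.card F ^ (2 * k * j + (k + 1).choose 2) * H6.spO (Nat.card F) j) := by
  have hp := finrank_perp hQ W
  induction j generalizing W k with
  | zero =>
    have h1 : W = perp Q W := Submodule.eq_of_le_of_finrank_le hW (by omega)
    rw [card_fixO_of_not_ts hQ (c := k + 1) h1.ge (h1 ▸ ht) (by omega)]
    simp [H6.spO]
  | succ j ih =>
    obtain ⟨x, h1, hx, -⟩ := exists_nonsing_perp hQ hW (by omega)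
    obtain ⟨z, hz, h0⟩ : ∃ z ∈ W, Q z ≠ 0 := by simpa [TS] using ht
    have h2 : Nat.card {y // (y - x ∈ perp Q W ∧ Q y = Q x) ∧ y ∉ W} =
        Nat.card F ^ k * (Nat.card F ^ (2 * (j + 1)) - 1) := by
      have := Module.finite_of_finite F (M := V)
      have h3 := Set.ncard_sdiff (s := {y | y ∈ W ∧ Q y = Q x}) (t := {y | y ∈ perp Q W ∧ Q y = Q x})
        fun y hy => ⟨hW hy.1, hy.2⟩
      have h4 := card_Q_fiber hz h0 (fun u hu => mem_perp.1 (hW hz) u hu) (Q x)
      have h5 := card_Q_fiber (hW hz) h0 (fun u hu => by rw [B_comm, mem_perp.1 hu z hz]) (Q x)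
      rw [hk, pow_succ'] at h4
      rw [show finrank F (perp Q W) = k + 2 * (j + 1) + 1 by omega, pow_succ'] at h5
      rw [Nat.mul_sub, ← pow_add, mul_one, ← Nat.eq_of_mul_eq_mul_left Nat.card_pos h4,
        ← Nat.eq_of_mul_eq_mul_left Nat.card_pos h5]
      refine (Nat.card_congr (Equiv.subtypeEquivRight fun y => ?_)).trans h3
      rw [Submodule.sub_mem_iff_left _ h1]
      exact and_congr_right fun h => (not_congr (and_iff_left h.2)).symm
    rw [card_fixO_step hQ hx, h2, ih _ (le_perp_sup hW h1)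
      (fun h => h0 (h z (Submodule.mem_sup_left hz))) (k := k + 1) (by rw [finrank_sup_span hx, hk])
      (by omega) (finrank_perp hQ _), H6.spO_succ, Nat.choose_succ_succ' (k + 1), Nat.choose_one_right]
    ring

theorem card_fixO_ts (hQ : ND Q) (hp : PlusType Q) {j : ℕ} {W : Submodule F V} (ht : TS Q W)
    {k : ℕ} (hk : finrank F W = k) (hc : 2 * (k + (j + 1)) = finrank F V) :
    Nat.card (fixO Q W) = 2 * (Nat.card F ^ (2 * k * j + (k + 1).choose 2 + k + j) *
      (Nat.card F ^ (j + 1) - 1) * H6.spO (Nat.card F) j) := by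
  obtain ⟨x, h1, hx, h0⟩ := exists_nonsing_perp hQ ht.le_perp (by omega)
  rw [card_fixO_step hQ hx, Nat.card_congr (Equiv.subtypeEquivRight
    (q := fun y => y ∈ perp Q W ∧ Q y = Q x) fun y => by
      rw [Submodule.sub_mem_iff_left _ h1]
      exact and_iff_left_of_imp fun h hy => h0 (h.2.symm.trans (ht y hy))),
    card_perp_ts hQ ht hp (j := j) (hk ▸ hc) h0, card_fixO_not_ts hQ j _ (le_perp_sup ht.le_perp h1)
    (fun h => h0 (h x (Submodule.mem_sup_right (Submodule.mem_span_singleton_self x)))) (k := k)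
    (by rw [finrank_sup_span hx, hk]) (by omega), hk]
  ring

end Cfsg.Agent.H7
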