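import Cfsg.Agent.H7.Pf

/-!
Fusion of semisimple classes of odd order in orthogonal groups.
-/

set_option autoImplicit false

namespace Cfsg.Agent.H7

open QuadraticMap Module Subgroup

variable {F V : Type*} [Field F] [AddCommGroup V] [Module F V] {Q : QuadraticForm F V}
  [FiniteDimensional F V] [Finite F] (h2 : (2 : F) ≠ 0) (hQ : ND Q) {k : ℕ}
  (hk : finrank F V = 2 * k)
include h2 hQ hk

lemma exists_sim_det (c : Fˣ) : ∃ f : V ≃ₗ[F] V, (∀ x, Q (f x) = c * Q x) ∧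
    LinearMap.det f.toLinearMap = c ^ k := by
  cases subsingleton_or_nontrivial V with
  | inl h =>
    obtain rfl : k = 0 := by have := finrank_zero_of_subsingleton (R := F) (M := V); omega
    exact ⟨LinearEquiv.refl _ _, fun x => by simp [Subsingleton.elim x 0],
      (LinearMap.det_id).trans (pow_zero _).symm⟩
  | inr h =>
    obtain ⟨δ, h1, rfl⟩ := exists_DS_c hQ (nonExc_of_two hQ h2) (hk ▸ even_two_mul k) c
    obtain ⟨h3, h4⟩ := (mem_DS h2).1 h1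
    exact ⟨δ.lin h3, SS.map_Q' h3, by
      rw [← SS.det_eq h3 (a := (δ.lin h3).toLinearMap) fun _ => rfl, h4, hk]; simp⟩

variable {h : OG Q} {r : ℕ} (hr : h ^ r = 1) (ho : Odd r) (h0 : (r : F) ≠ 0)
include hr ho h0

theorem exists_z_ss (hk0 : 1 ≤ k) : ∃ z : OG Q, Even (rk z) ∧ theta z = -1 ∧ z * h = h * z := by
  by_cases h1 : 2 ≤ finrank F (fixS h)
  · obtain ⟨u, hu, v, hv, h3, h4⟩ := exists_z_of_le h2 hQ (isCompl_fixS_of_pow hQ hr h0) h1
    refine ⟨_, h3, h4, (mul_inv_eq_iff_eq_mul.1 ?_).symm⟩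
    rw [← conj_mul, refl_conj, refl_conj, mem_fixS.1 hu, mem_fixS.1 hv]
  · have : Nontrivial V := Module.nontrivial_of_finrank_pos (R := F) (by omega)
    obtain ⟨j, hj⟩ := even_rk_of_pow hQ (nonExc_of_two hQ h2) hr ho
    have h3 := rk_add_fix h
    exact exists_z_fpf h2 hQ hk hr ho (fun x hx => (Submodule.eq_bot_iff _).1
      (Submodule.finrank_eq_zero.1 (show finrank F (fixS h) = 0 by omega)) x (mem_fixS.2 hx)) h0

theorem exists_delta_ss (c : Fˣ) : ∃ δ ∈ DS Q, δ.c = c ∧ δ * SS.ofO Q h = SS.ofO Q h * δ := by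
  have hU := isCompl_fixS_of_pow hQ hr h0
  obtain ⟨j, hj⟩ := even_rk_of_pow hQ (nonExc_of_two hQ h2) hr ho
  have h3 := rk_add_fix h
  have h4 : finrank F (perp Q (fixS h)) = 2 * j := by rw [perp_fixS hQ, ← rk]; omega
  let ρ := resU (zpowers h) (perp Q (fixS h)) (by
    rintro _ ⟨n, rfl⟩ u hu
    refine mem_perp.2 fun v hv => ?_
    rw [B_comm, OG.B_left, ← zpow_neg, show (h ^ (-n)).1 v = v from
      zpow_mem (K := MulAction.stabilizer (OG Q) v) (mem_fixS.1 hv) _, B_comm, mem_perp.1 hu v hv])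
  obtain ⟨f, f1, f2⟩ := exists_sim_det h2 (nd_restrict_iff.2 hU.inf_eq_bot) (k := k - j) (by omega) c
  obtain ⟨g, g1, g2, g3⟩ := exists_sim_fpf h2 (nd_restrict_iff.2 (perp_nd hQ hU.inf_eq_bot)) h4
    (h := ρ ⟨h, mem_zpowers h⟩) (by rw [← map_pow]; exact (congrArg ρ (Subtype.ext hr)).trans ρ.map_one)
    ho (fun x hx => Subtype.ext (Submodule.disjoint_def.1 hU.disjoint _ (mem_fixS.2 (congrArg Subtype.val hx)) x.2)) c
  let e := Submodule.prodEquivOfIsCompl _ _ hU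
  have e1 : ∀ u y, (e.symm.trans ((f.prodCongr g).trans e)) (u.1 + y.1) = (f u).1 + (g y).1 :=
    fun u y => congrArg (fun x => e ((f.prodCongr g) x)) (e.symm_apply_apply (u, y))
  refine ⟨SS.ofLin (e.symm.trans ((f.prodCongr g).trans e)) c fun x => ?_,
    (mem_DS h2).2 ⟨rfl, ?_⟩, rfl, SS.ext rfl (Units.ext (by simp)) (AddEquiv.ext fun x => ?_)⟩
  · obtain ⟨u, y, rfl⟩ := exists_add_of_isCompl hU x
    rw [e1, Q_add, Q_add, mem_perp.1 (g y).2 _ (f u).2, mem_perp.1 y.2 _ u.2]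
    rw [show Q (f u) = c * Q u from f1 u, show Q (g y) = c * Q y from g1 y]
    ring
  · rw [SS.det_eq (mem_GO.2 rfl) (a := e.toLinearMap ∘ₗ (f.toLinearMap.prodMap g.toLinearMap) ∘ₗ
      e.symm.toLinearMap) fun _ => rfl, LinearMap.det_conj, LinearMap.det_prodMap, f2, g2, ← pow_add, hk]
    simp only [SS.ofLin_c]
    congr 1; omega
  · obtain ⟨u, y, rfl⟩ := exists_add_of_isCompl hU x
    simp only [SS.mul_apply, SS.ofLin_apply, SS.ofO_apply]
    rw [e1, map_add h.1, map_add h.1, mem_fixS.1 u.2, mem_fixS.1 (f u).2]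
    exact (e1 u ((ρ ⟨h, mem_zpowers h⟩).1 y)).trans (congrArg _ (congrArg Subtype.val (g3 y)))

omit hr ho h0 in
theorem fusion_ss (hk0 : 1 ≤ k) {A : Type*} [Group A] {a : SS Q →* A} (ha : a.ker = ZS Q) {x : A}
    (hx : x ∈ (GO Q).map a) (hr : x ^ r = 1) (ho : Odd r) (h0 : (r : F) ≠ 0) :
    (∀ y, (Cfsg.IsConjUnder ((KS Q).map a) x y ↔ Cfsg.IsConjUnder ((DS Q).map a) x y) ∧
      (Cfsg.IsConjUnder (((SOG Q).map (SS.ofO Q)).map a) x y ↔
        Cfsg.IsConjUnder ((DS Q).map a) x y)) ∧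
    ∀ y, Cfsg.IsConjUnder ((OO Q).map a) x y ↔ Cfsg.IsConjUnder ((GO Q).map a) x y := by
  have : Nontrivial V := Module.nontrivial_of_finrank_pos (R := F) (by omega)
  have hE := nonExc_of_two hQ h2
  have hev : Even (finrank F V) := hk ▸ even_two_mul k
  have hs : ∀ l, a (SS.sc Q l) = 1 := fun l => ha.ge ⟨l, rfl⟩
  obtain ⟨h, rfl, hh⟩ : ∃ h : OG Q, x = a (SS.ofO Q h) ∧ h ^ r = 1 := by
    obtain ⟨g, hg, rfl⟩ := hx
    obtain ⟨l, hl⟩ := ha.le (show g ^ r ∈ a.ker from (map_pow a g r).trans hr)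
    obtain ⟨h, t, rfl⟩ := exists_ofO_mul_sc' hg ((chi_eq_one_iff g.c.ne_zero).1 (by
      have := chi_c_of_mem_KS (hl ▸ sc_mem_KS l)
      rw [SS.pow_c_of_GO hg, Units.val_pow_eq_pow_val, map_pow] at this
      by_contra h1
      rw [chi_unit_of_ne h1, ho.neg_one_pow] at this
      exact absurd this (by decide)))
    rw [map_mul, hs, mul_one] at hr ⊢
    obtain ⟨l, hl⟩ := ha.le (show SS.ofO Q (h ^ r) ∈ a.ker by rw [MonoidHom.mem_ker, map_pow, map_pow, hr])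
    have h3 : l ^ 2 = 1 := congrArg SS.c hl
    refine ⟨h ^ (r + 1), by rw [map_pow, map_pow, pow_succ, hr, one_mul], SS.ofO_injective ?_⟩
    obtain ⟨j, hj⟩ := ho
    rw [← pow_mul, mul_comm, pow_mul, map_pow, ← hl, ← map_pow, show r + 1 = 2 * (j + 1) by omega,
      pow_mul, h3, one_pow, map_one, map_one]
  obtain ⟨z, z1, z2, z3⟩ := exists_z_ss h2 hQ hk hh ho h0 hk0
  obtain ⟨c, hc⟩ := exists_chi_eq_neg_one h2
  obtain ⟨δ, d1, rfl, d3⟩ := exists_delta_ss h2 hQ hk hh ho h0 c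
  have key : ∀ {H : Subgroup (SS Q)} {d e y}, e * SS.ofO Q h = SS.ofO Q h * e → d * e⁻¹ ∈ H ⊔ ZS Q →
      y = a d * a (SS.ofO Q h) * (a d)⁻¹ → Cfsg.IsConjUnder (H.map a) (a (SS.ofO Q h)) y :=
    fun {H d e y} h1 h3 h4 => by
      obtain ⟨b, hb, _, ⟨l, rfl⟩, h5⟩ := mem_sup_of_normal_right.1 h3
      refine ⟨_, ⟨b, hb, rfl⟩, ?_⟩
      rw [h4, ← mul_inv_eq_iff_eq_mul.1 h5.symm |>.symm, map_mul, map_mul, hs, mul_one, mul_assoc (a b),
        ← map_mul a e, h1, map_mul]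
      group
  have hK : ∀ {y}, Cfsg.IsConjUnder ((DS Q).map a) (a (SS.ofO Q h)) y →
      Cfsg.IsConjUnder ((OmS Q).map a) (a (SS.ofO Q h)) y := by
    rintro y ⟨_, ⟨d, hd, rfl⟩, hy⟩
    obtain ⟨e, he, h3⟩ := DS_map_le hQ hE hev (S := (centralizer {SS.ofO Q h}).map (piO Q))
      ⟨_, mem_centralizer_singleton_iff.2 (by rw [← map_mul, z3, map_mul]), piO_eq_z hQ hE z1 z2⟩ d1 hc
      ⟨δ, mem_centralizer_singleton_iff.2 d3, rfl⟩ (mem_map_of_mem _ hd)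
    exact key (mem_centralizer_singleton_iff.1 he) (piO_eq_one_iff.1 (by simp [h3])) hy
  have mono : ∀ {H K : Subgroup (SS Q)} {y}, H ≤ K → Cfsg.IsConjUnder (H.map a) (a (SS.ofO Q h)) y →
    Cfsg.IsConjUnder (K.map a) (a (SS.ofO Q h)) y := fun hH ⟨b, hb, h3⟩ => ⟨b, map_mono hH hb, h3⟩
  refine ⟨fun y => ⟨⟨mono (KS_le_DS hQ hE hev), fun h3 => mono le_sup_left (hK h3)⟩, mono ?_,
    fun h3 => mono (map_mono fun s hs => ?_) (hK h3)⟩, fun y => ⟨mono fun g hg => (mem_OO.1 hg).1, ?_⟩⟩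
  · rintro _ ⟨s, hs, rfl⟩
    exact (ofO_mem_DS_iff hQ hE).2 ((det_eq_one_iff h2 hQ s).1 (mem_SOG.1 hs))
  · exact mem_SOG.2 ((det_eq_one_iff h2 hQ s).2 (even_rk_of_mem_commutator hQ hE hs))
  · rintro ⟨_, ⟨d, hd, rfl⟩, hy⟩
    have h3 : ∀ g ∈ GO Q, chi (g.c : F) = 1 → g ∈ OO Q ⊔ ZS Q := fun g hg h3 => by
      obtain ⟨s, l, rfl⟩ := exists_ofO_mul_sc' hg ((chi_eq_one_iff g.c.ne_zero).1 h3)
      exact mul_mem_sup ⟨s, rfl⟩ ⟨l, rfl⟩
    by_cases h4 : chi (d.c : F) = 1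
    · exact key (e := 1) (by simp) (h3 _ (by simpa using hd) (by simpa using h4)) hy
    · exact key d3 (h3 _ (mul_mem hd (inv_mem (DS_le_GO d1)))
        (by rw [chi_c_mul, chi_c_inv, hc, chi_unit_of_ne h4]; rfl)) hy

end Cfsg.Agent.H7
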