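import Cfsg.Agent.H7.FixO
import Cfsg.Agent.H6.Inv2

/-!
Involutions of orthogonal groups in characteristic two.
-/

set_option autoImplicit false

namespace Cfsg.Agent.H7

open QuadraticMap Module Matrix

section abstract

variable {F V : Type*} [Field F] [AddCommGroup V] [Module F V] {Q : QuadraticForm F V}
  {t t' : OG Q}

lemma inv_apply_apply (ht : t ^ 2 = 1) (v : V) : t.1 (t.1 v) = v := by
  rw [← OG.mul_apply, ← pow_two, ht, OG.one_apply]

lemma inv_adj (ht : t ^ 2 = 1) (u v : V) : polar Q (t.1 v - v) u = polar Q v (t.1 u - u) := by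
  rw [polar_sub_left, polar_sub_right, ← OG.map_B t v (t.1 u), inv_apply_apply ht]

lemma B_mov_self (t : OG Q) (v : V) : polar Q (t.1 v - v) v = - Q (t.1 v - v) := by
  rw [polar_sub_left, Q_sub, B_self, OG.map_Q]; ring

lemma ts_movS_iff : TS Q (movS t) ↔ ∀ v, Q (t.1 v - v) = 0 :=
  ⟨fun h v => h _ (sub_mem_movS t v), fun h _ ⟨v, hv⟩ => hv ▸ h v⟩

lemma inv_transfer (hQ : ND Q) (ht : t ^ 2 = 1) {g h : V ≃ₗ[F] V}
    (hg : ∀ u v, polar Q (g u) (g v) = polar Q u v) (hh : ∀ u v, polar Q (h u) (h v) = polar Q u v)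
    (e : ∀ v, g (t.1 v) = t'.1 (g v)) (e' : ∀ w ∈ movS t, h w = g w) (v : V) :
    h (t.1 v) = t'.1 (h v) := by
  rw [← sub_left_inj (a := h v)]
  refine hQ.ext fun u => ?_
  obtain ⟨u, rfl⟩ := h.surjective u
  obtain ⟨w, hw⟩ := g.surjective (h v)
  rw [← map_sub, hh, inv_adj ht, ← hh, e' _ (sub_mem_movS t u), ← hw, hg, ← e, ← map_sub,
    ← e' _ (sub_mem_movS t w), hh, inv_adj ht]

lemma ts_movS_conj (g : OG Q) : TS Q (movS (g * t * g⁻¹)) ↔ TS Q (movS t) := by
  simp only [ts_movS_iff, OG.mul_apply]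
  refine ⟨fun h v => ?_, fun h v => ?_⟩
  · rw [← h (g.1 v), OG.inv_apply_apply, ← map_sub, OG.map_Q]
  · rw [← h ((g⁻¹).1 v), ← OG.map_Q g (t.1 _ - _), _root_.map_sub g.1, OG.apply_inv_apply]

lemma rk_conj' (g : OG Q) : rk (g * t * g⁻¹) = rk t := by rw [rk, movS_conj, finrank_img, rk]

lemma comm_refl {v : V} (hv : t.1 v = v) : refl Q v * t = t * refl Q v := by
  have := refl_conj t v
  rwa [hv, mul_inv_eq_iff_eq_mul, eq_comm] at this

variable [FiniteDimensional F V]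

lemma rk_eq_zero_iff : rk t = 0 ↔ t = 1 := by
  refine ⟨fun h => OG.ext' fun v => ?_, fun h => h ▸ rk_one⟩
  have := sub_mem_movS t v
  rwa [Submodule.finrank_eq_zero.1 h, Submodule.mem_bot, sub_eq_zero] at this

lemma orderOf_two_iff : orderOf t = 2 ↔ t ^ 2 = 1 ∧ rk t ≠ 0 := by
  rw [orderOf_eq_prime_iff, Ne, Ne, rk_eq_zero_iff]

lemma inv_lift (hQ : ND Q) (ht : t ^ 2 = 1) {g : V ≃ₗ[F] V}
    (hg : ∀ u v, polar Q (g u) (g v) = polar Q u v) (e : ∀ v, g (t.1 v) = t'.1 (g v)) :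
    ∃ h : OG Q, (∀ w ∈ movS t, h.1 w = g w) ∧ h * t = t' * h := by
  obtain ⟨h, hh⟩ := witt hQ (movS t) (g.toLinearMap ∘ₗ (movS t).subtype)
    (g.injective.comp Subtype.val_injective) fun ⟨_, v, rfl⟩ => neg_injective (by
      change - Q (g (t.1 v - v)) = - Q (t.1 v - v)
      rw [← B_mov_self, ← hg, map_sub, e, B_mov_self])
  exact ⟨h, fun w hw => hh ⟨w, hw⟩, OG.ext' (inv_transfer hQ ht hg (OG.map_B h) e
    fun w hw => hh ⟨w, hw⟩)⟩

variable [CharP F 2]

omit [FiniteDimensional F V] in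
lemma movS_le_perp (ht : t ^ 2 = 1) : movS t ≤ perp Q (movS t) := by
  rintro _ ⟨u, rfl⟩
  rw [mem_perp]
  rintro _ ⟨v, rfl⟩
  change polar Q (t.1 v - v) (t.1 u - u) = 0
  rw [inv_adj ht, map_sub, inv_apply_apply ht, show u - t.1 u - (t.1 u - u) = (2 : F) • (u - t.1 u) by
    module, CharTwo.two_eq_zero, zero_smul, polar_zero_right]

lemma two_rk_le (hQ : ND Q) (ht : t ^ 2 = 1) : 2 * rk t ≤ finrank F V := by
  have := Submodule.finrank_mono (movS_le_perp ht)
  have := finrank_perp hQ (movS t)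
  unfold rk
  omega

lemma exists_fix_nonsing (hQ : ND Q) (ht : t ^ 2 = 1)
    (h : ¬ (TS Q (movS t) ∧ 2 * rk t = finrank F V)) : ∃ v, Q v ≠ 0 ∧ t.1 v = v := by
  by_cases h1 : TS Q (movS t)
  · obtain ⟨v, h2, -, h3⟩ := exists_nonsing_perp hQ h1.le_perp
      (lt_of_le_of_ne (two_rk_le hQ ht) fun h2 => h ⟨h1, h2⟩)
    exact ⟨v, h3, by rwa [perp_movS hQ, mem_fixS] at h2⟩
  · obtain ⟨v, h2, h3⟩ : ∃ z ∈ movS t, Q z ≠ 0 := by simpa [TS] using h1
    exact ⟨v, h3, by have := movS_le_perp ht h2; rwa [perp_movS hQ, mem_fixS] at this⟩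

lemma exists_inv_not_ts (hQ : ND Q) (s : ℕ) (hs : 2 * s ≤ finrank F V) :
    ∃ t : OG Q, t ^ 2 = 1 ∧ rk t = s ∧ (s ≠ 0 → ¬ TS Q (movS t)) := by
  induction s with
  | zero => exact ⟨1, one_pow _, rk_one, fun h => absurd rfl h⟩
  | succ s ih =>
    obtain ⟨t, h1, h2, -⟩ := ih (by omega)
    obtain ⟨v, h3, h4, h5⟩ := exists_nonsing_perp hQ (movS_le_perp h1) (by unfold rk at h2; omega)
    rw [perp_movS hQ, mem_fixS] at h3
    have h6 := mem_movS_mul_refl hQ t h5 h4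
    refine ⟨t * refl Q v, ?_, ?_, fun _ h => h5 (h v h6)⟩
    · rw [pow_two, mul_assoc, ← mul_assoc (refl Q v), comm_refl h3, mul_assoc, refl_mul_self, mul_one,
        ← pow_two, h1]
    · rw [rk_step h5 h6, mul_assoc, refl_mul_self, mul_one, h2]

lemma exists_inv_ts (hQ : ND Q) {U : Submodule F V} (hU : TS Q U) (k : ℕ)
    (hk : 2 * k ≤ finrank F U) : ∃ t : OG Q, t ^ 2 = 1 ∧ rk t = 2 * k ∧ movS t ≤ U := by
  induction k with
  | zero => exact ⟨1, one_pow _, rk_one, fun _ ⟨v, hv⟩ => by simp [← hv]⟩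
  | succ k ih =>
    obtain ⟨t, h1, h2, h3⟩ := ih (by omega)
    unfold rk at h2 ⊢
    obtain ⟨p, hp, hp'⟩ := SetLike.exists_of_lt (lt_of_le_of_ne h3 fun h => by rw [h] at h2; omega)
    have h4 := finrank_sup_span hp'
    have h5 := sup_le h3 ((Submodule.span_singleton_le_iff_mem _ _).2 hp)
    obtain ⟨w, hw, hw'⟩ := SetLike.exists_of_lt (lt_of_le_of_ne h5 fun h => by rw [h] at h4; omega)
    have h6 : ∀ u ∈ U, t.1 u = u := fun u hu => by
      rw [← mem_fixS, ← perp_movS hQ]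
      exact mem_perp.2 fun y hy => hU.polar_eq (h3 hy) hu
    have h7 := siegel_conj t (hU p hp) (hU.polar_eq hp hw)
    simp only [h6 p hp, h6 w hw, mul_inv_eq_iff_eq_mul] at h7
    have h8 : movS (t * siegel p w (hU p hp) (hU.polar_eq hp hw)) = (movS t ⊔ F ∙ p) ⊔ F ∙ w := by
      rw [← perp_fixS hQ, ← perp_perp hQ (_ ⊔ _)]
      congr 1
      ext x
      rw [mem_perp_sup, mem_perp_sup, perp_movS hQ, mem_fixS, mem_fixS, OG.mul_apply,
        sg_apply _ _ (hU w hw), map_sub, map_add, map_smul, map_smul, h6 p hp, h6 w hw, B_comm Q p,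
        B_comm Q w]
      refine ⟨fun h => ?_, fun h => by rw [h.1.1, h.1.2, h.2]; simp⟩
      have h8 : polar Q x p = 0 := by
        by_contra h8
        refine hw' ((Submodule.smul_mem_iff _ h8).1 ?_)
        rw [show polar Q x p • w = (t.1 x - x) + polar Q x w • p by nth_rw 3 [← h]; abel]
        exact Submodule.add_mem_sup (sub_mem_movS t x)
          (Submodule.smul_mem _ _ (Submodule.mem_span_singleton_self p))
      rw [h8, zero_smul, sub_zero] at h
      have h9 : polar Q x w = 0 := by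
        by_contra h9
        refine hp' ((Submodule.smul_mem_iff _ h9).1 ?_)
        rw [show polar Q x w • p = -(t.1 x - x) by nth_rw 3 [← h]; abel]
        exact neg_mem (sub_mem_movS t x)
      rw [h9, zero_smul, add_zero] at h
      exact ⟨⟨h, h8⟩, h9⟩
    refine ⟨t * siegel p w (hU p hp) (hU.polar_eq hp hw), ?_, by rw [h8, finrank_sup_span hw']; omega,
      h8.trans_le (sup_le h5 ((Submodule.span_singleton_le_iff_mem _ _).2 hw))⟩
    rw [pow_two, mul_assoc, ← mul_assoc (siegel ..), ← h7, mul_assoc, ← mul_assoc, ← pow_two, h1,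
      one_mul, siegel_mul]
    refine OG.ext' fun x => ?_
    simp only [siegel_apply, ← two_smul F w, CharTwo.two_eq_zero, zero_smul, polar_zero_right, smul_zero,
      map_zero, zero_mul, OG.one_apply, add_zero, sub_zero]

end abstract

variable {F : Type*} [Field F] {ι : Type} [Fintype ι] [DecidableEq ι] {Q : QuadraticForm F (ι → F)}
  {t t' : OG Q}

variable (Q) in
/-- the orthogonal group inside the symplectic group -/
noncomputable def toSp : OG Q →* H6.isoGrp (H6.pG Q) :=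
  (Subgroup.inclusion fun _ h => H6.pG_isom (mem_isometryGroup.1 h)).comp (isoEquiv Q).symm.toMonoidHom

/-- the matrix representation of the symplectic group of the polar form -/
noncomputable abbrev spR (Q : QuadraticForm F (ι → F)) := H6.jRho (H6.isoGrp (H6.pG Q)).subtype

lemma toSp_mulVec (g : OG Q) (v : ι → F) : spR Q (toSp Q g) *ᵥ v = g.1 v := isoEquiv_symm_mulVec g v

lemma range_toSp (g : OG Q) : LinearMap.range (spR Q (toSp Q g) - 1).mulVecLin = movS g := by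
  ext v
  simp only [LinearMap.mem_range, mulVecLin_apply, sub_mulVec, toSp_mulVec, one_mulVec, mem_movS]

lemma rank_toSp (g : OG Q) : (spR Q (toSp Q g) - 1).rank = rk g := by rw [Matrix.rank, range_toSp, rk]

lemma alt_toSp : (∀ v, H6.sf (RingHom.id F) (H6.pG Q) ((spR Q (toSp Q t) - 1) *ᵥ v) v = 0) ↔ TS Q (movS t) := by
  simp only [H6.bf_pG, sub_mulVec, toSp_mulVec, one_mulVec, B_mov_self, neg_eq_zero, ts_movS_iff]

lemma toSp_sq (ht : t ^ 2 = 1) : toSp Q t ^ 2 = 1 := by rw [← map_pow, ht, map_one]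

variable [CharP F 2]

lemma spR_splike (hQ : ND Q) : H6.Splike (spR Q) (H6.pG Q) :=
  H6.isoGrp_spLike H6.isAlt_pG (H6.det_pG.2 hQ)

lemma sp_lift (hQ : ND Q) (ht : t ^ 2 = 1) {g : H6.isoGrp (H6.pG Q)}
    (h : g * toSp Q t = toSp Q t' * g) :
    ∃ k : OG Q, (∀ w ∈ movS t, k.1 w = spR Q g *ᵥ w) ∧ k * t = t' * k :=
  inv_lift hQ ht (g := glEquiv ι F g.1) (fun u v => by
    rw [← H6.bf_pG, ← H6.bf_pG]; exact (spR_splike hQ).isom g u v) fun v => by
      have := congrArg (spR Q · *ᵥ v) h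
      simp only [map_mul, ← mulVec_mulVec, toSp_mulVec] at this
      exact this

variable [Finite F]

theorem inv_conj (hQ : ND Q) (ht : t ^ 2 = 1) (ht' : t' ^ 2 = 1) (h1 : rk t = rk t')
    (h2 : TS Q (movS t) ↔ TS Q (movS t')) : ∃ g, g * t * g⁻¹ = t' := by
  obtain ⟨g, hg⟩ := (spR_splike hQ).inv_conj (toSp_sq ht) (toSp_sq ht')
    (by rw [rank_toSp, rank_toSp, h1]) (by rw [alt_toSp, alt_toSp, h2])
  obtain ⟨k, -, hk⟩ := sp_lift hQ ht hg.eq
  exact ⟨k, mul_inv_eq_iff_eq_mul.2 hk⟩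

lemma even_rk_of_ts (hQ : ND Q) (ht : t ^ 2 = 1) (h : TS Q (movS t)) : Even (rk t) :=
  (spR_splike hQ).inv_even (toSp_sq ht) (rank_toSp t) (alt_toSp.2 h)

lemma card_cent_of (hQ : ND Q) (ht : t ^ 2 = 1) {m a : ℕ} (hm : 2 * m = Fintype.card ι)
    (h : Nat.card (Subgroup.centralizer {toSp Q t}) = a * (Nat.card F ^ (2 * rk t * (m - rk t) +
      (rk t + 1).choose 2) * H6.spO (Nat.card F) (m - rk t))) :
    Nat.card (Subgroup.centralizer {t}) = a * Nat.card (fixO Q (movS t)) := by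
  have U := spR_splike hQ
  have h1 := two_rk_le hQ ht
  rw [finrank_fintype_fun_eq_card] at h1
  rw [← U.card_fixW (m - rk t) (movS t) (fun x hx => H6.mem_perp.2 fun w hw => by
    rw [H6.bf_pG]; exact mem_perp.1 (movS_le_perp ht hx) w hw) (k := rk t) rfl (by omega)] at h
  have h2 := H6.card_fib (S := Subgroup.centralizer {toSp Q t}) (K := H6.fixW (spR Q) (movS t))
    (fun g hg => Subgroup.mem_centralizer_singleton_iff.2 (U.inj (H6.ext_mv fun v => by
      simp only [map_mul, ← mulVec_mulVec, toSp_mulVec]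
      exact inv_transfer hQ ht (g := LinearEquiv.refl F _) (h := glEquiv ι F g.1) (fun _ _ => rfl)
        (fun u v => by rw [← H6.bf_pG, ← H6.bf_pG]; exact U.isom g u v) (fun _ => rfl) hg v)))
    (fun g (x : movS t → ι → F) => g ∈ Subgroup.centralizer {toSp Q t} ∧ ∀ w, spR Q g *ᵥ w.1 = x w)
    (fun g => ⟨fun h => ⟨_, h, fun _ => rfl⟩, fun ⟨_, h, _⟩ => h⟩)
    fun g x g' x' h h' => ⟨fun e w hw => by
      rw [map_mul, ← mulVec_mulVec, h'.2 ⟨w, hw⟩, ← e, ← h.2, mulVec_mulVec, ← map_mul]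
      simp, fun e => funext fun w => by
        rw [← h.2, ← h'.2, ← e w.1 w.2, mulVec_mulVec, ← map_mul, mul_inv_cancel_left, e w.1 w.2]⟩
  rw [H6.card_fib (S := Subgroup.centralizer {t}) (K := fixO Q (movS t))
    (fun g hg => Subgroup.mem_centralizer_singleton_iff.2 (OG.ext' (inv_transfer hQ ht
      (g := LinearEquiv.refl F _) (fun _ _ => rfl) (OG.map_B g) (fun _ => rfl) hg)))
    (fun g (x : movS t → ι → F) => g ∈ Subgroup.centralizer {t} ∧ ∀ w, g.1 w.1 = x w)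
    (fun g => ⟨fun h => ⟨_, h, fun _ => rfl⟩, fun ⟨_, h, _⟩ => h⟩)
    fun g x g' x' h h' => ⟨fun e w hw => by
      rw [OG.mul_apply, h'.2 ⟨w, hw⟩, ← e, ← h.2, OG.inv_apply_apply], fun e => funext fun w => by
        rw [← h.2, ← h'.2]; exact (OG.inv_apply_eq.1 (e w.1 w.2)).symm⟩]
  have : Finite (H6.isoGrp (H6.pG Q)) := Finite.of_injective _ U.inj
  rw [← Nat.eq_of_mul_eq_mul_right Nat.card_pos (h2.symm.trans h)]
  refine congrArg (· * _) (Nat.card_congr (Equiv.subtypeEquivRight fun x => ⟨?_, ?_⟩))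
  · rintro ⟨g, h3, h4⟩
    refine ⟨toSp Q g, ?_, fun w => by rw [toSp_mulVec, h4]⟩
    rw [Subgroup.mem_centralizer_singleton_iff] at h3 ⊢
    rw [← map_mul, h3, map_mul]
  · rintro ⟨g, h3, h4⟩
    obtain ⟨k, h5, h6⟩ := sp_lift hQ ht (Subgroup.mem_centralizer_singleton_iff.1 h3)
    exact ⟨k, Subgroup.mem_centralizer_singleton_iff.2 h6, fun w => by rw [h5 _ w.2, h4]⟩

variable (hQ : ND Q) (ht : t ^ 2 = 1) {m s : ℕ} (hm : 2 * m = Fintype.card ι) (hs : rk t = s)

include hQ ht hm hs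

omit [Finite F] in
lemma inv_le : s ≤ m := by
  have h1 := two_rk_le hQ ht
  rw [finrank_fintype_fun_eq_card] at h1
  omega

lemma card_fix_mov (h : ¬ TS Q (movS t)) : Nat.card (fixO Q (movS t)) =
    2 * (Nat.card F ^ (2 * (s - 1) * (m - s) + s.choose 2) * H6.spO (Nat.card F) (m - s)) := by
  have h1 := inv_le hQ ht hm hs
  obtain ⟨k, rfl⟩ : ∃ k, s = k + 1 := Nat.exists_eq_succ_of_ne_zero fun h0 => h fun u hu => by
    rw [Submodule.finrank_eq_zero.1 (hs.trans h0), Submodule.mem_bot] at hu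
    rw [hu, map_zero]
  exact card_fixO_not_ts hQ _ _ (movS_le_perp ht) h hs (by simp; omega)

theorem card_cent_b (h : Odd s) : Nat.card (Subgroup.centralizer {t}) =
    2 * (Nat.card F ^ (2 * (s - 1) * (m - s) + s.choose 2) * H6.spO (Nat.card F) ((s - 1) / 2) *
      H6.spO (Nat.card F) (m - s)) := by
  rw [card_cent_of hQ ht hm ((spR_splike hQ).card_cent_b (toSp_sq ht) hm (rank_toSp t) (hs ▸ h)),
    card_fix_mov hQ ht hm hs fun h1 => Nat.not_even_iff_odd.2 h (hs ▸ even_rk_of_ts hQ ht h1), hs]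
  ring

theorem card_cent_c (h : Even s) (h' : ¬ TS Q (movS t)) : 2 ≤ s ∧ Nat.card (Subgroup.centralizer {t}) =
    2 * (Nat.card F ^ (2 * (s - 1) * (m - s) + s.choose 2 + (s - 1)) *
      H6.spO (Nat.card F) ((s - 2) / 2) * H6.spO (Nat.card F) (m - s)) := by
  obtain ⟨h1, h2⟩ := (spR_splike hQ).card_cent_c (toSp_sq ht) hm (rank_toSp t) (hs ▸ h)
    (mt alt_toSp.1 h')
  refine ⟨hs ▸ h1, ?_⟩
  rw [card_cent_of hQ ht hm h2, card_fix_mov hQ ht hm hs h', hs]
  ring

theorem card_cent_a (h : TS Q (movS t)) : Nat.card (Subgroup.centralizer {t}) =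
    H6.spO (Nat.card F) (s / 2) * Nat.card (fixO Q (movS t)) := by
  rw [card_cent_of hQ ht hm ((spR_splike hQ).card_cent_a (toSp_sq ht) hm (rank_toSp t)
    (alt_toSp.2 h)), hs]

omit ht hm hs in
lemma card_cent_om (hE : NonExc Q) {v : ι → F} (hv : Q v ≠ 0) (h : t.1 v = v) {n : ℕ}
    (hn : Nat.card (Subgroup.centralizer {t}) = 2 * n) :
    Nat.card {g : Om Q // g.1 * t = t * g.1} = n := by
  have h1 : ((Om Q).subgroupOf (Subgroup.centralizer {t})).index = 2 := by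
    rw [Subgroup.index_eq_two_iff]
    refine ⟨⟨refl Q v, Subgroup.mem_centralizer_singleton_iff.2 (comm_refl h)⟩, fun g => ?_⟩
    simp only [Subgroup.mem_subgroupOf, mem_commutator_iff_two hQ hE CharTwo.two_eq_zero,
      Subgroup.coe_mul, even_rk_mul_refl hQ _ hv]
    exact xor_not_left.2 Iff.rfl
  have h2 := ((Om Q).subgroupOf (Subgroup.centralizer {t})).index_mul_card
  rw [h1, hn] at h2
  rw [← Nat.eq_of_mul_eq_mul_left two_pos h2]
  exact Nat.card_congr
    { toFun := fun g => ⟨⟨g.1.1, Subgroup.mem_centralizer_singleton_iff.2 g.2⟩, g.1.2⟩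
      invFun := fun g => ⟨⟨g.1.1, g.2⟩, Subgroup.mem_centralizer_singleton_iff.1 g.1.2⟩
      left_inv := fun _ => rfl
      right_inv := fun _ => rfl }

theorem card_om_b (hE : NonExc Q) (h : Odd s) : Nat.card {g : Om Q // g.1 * t = t * g.1} =
    Nat.card F ^ (2 * (s - 1) * (m - s) + s.choose 2) * H6.spO (Nat.card F) ((s - 1) / 2) *
      H6.spO (Nat.card F) (m - s) := by
  obtain ⟨v, h1, h2⟩ := exists_fix_nonsing hQ ht fun h1 =>
    Nat.not_even_iff_odd.2 h (hs ▸ even_rk_of_ts hQ ht h1.1)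
  exact card_cent_om hQ hE h1 h2 (card_cent_b hQ ht hm hs h)

theorem card_om_c (hE : NonExc Q) (h : Even s) (h' : ¬ TS Q (movS t)) :
    2 ≤ s ∧ Nat.card {g : Om Q // g.1 * t = t * g.1} =
    Nat.card F ^ (2 * (s - 1) * (m - s) + s.choose 2 + (s - 1)) *
      H6.spO (Nat.card F) ((s - 2) / 2) * H6.spO (Nat.card F) (m - s) := by
  obtain ⟨v, h1, h2⟩ := exists_fix_nonsing hQ ht fun h1 => h' h1.1
  exact (card_cent_c hQ ht hm hs h h').imp_right (card_cent_om hQ hE h1 h2)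

theorem card_om_a (hE : NonExc Q) (hp : PlusType Q) (h : TS Q (movS t)) {j : ℕ} (hj : m = s + (j + 1)) :
    Nat.card {g : Om Q // g.1 * t = t * g.1} = Nat.card F ^ (2 * s * j + (s + 1).choose 2 + s + j) *
      H6.spO (Nat.card F) (s / 2) * ((Nat.card F ^ (j + 1) - 1) * H6.spO (Nat.card F) j) := by
  obtain ⟨v, h1, h2⟩ := exists_fix_nonsing hQ ht fun h1 => by
    have := h1.2
    rw [finrank_fintype_fun_eq_card] at this
    omega
  refine card_cent_om hQ hE h1 h2 ?_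
  rw [card_cent_a hQ ht hm hs h, card_fixO_ts hQ hp h (j := j) hs (by simp; omega)]
  ring

theorem card_om_a' (hE : NonExc Q) (h : TS Q (movS t)) (hj : s = m) :
    Nat.card {g : Om Q // g.1 * t = t * g.1} =
      Nat.card F ^ s.choose 2 * H6.spO (Nat.card F) (s / 2) := by
  have h1 : 2 * finrank F (movS t) = finrank F (ι → F) := by
    rw [finrank_fintype_fun_eq_card, ← hm, ← hj, ← hs, rk]
  have h2 := h.perp_eq hQ h1
  rw [mul_comm, ← card_fixO_of_ts hQ s (movS t) h2.le (h2.symm ▸ h) (by unfold rk at hs; omega),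
    ← card_cent_a hQ ht hm hs h]
  exact Nat.card_congr
    { toFun := fun g => ⟨g.1.1, Subgroup.mem_centralizer_singleton_iff.2 g.2⟩
      invFun := fun g => ⟨⟨g.1, (mem_commutator_iff_two hQ hE CharTwo.two_eq_zero _).2
        (even_rk_of_stab hQ hE h h1 (by
          rw [← movS_conj, Subgroup.mem_centralizer_singleton_iff.1 g.2, mul_inv_cancel_right]))⟩,
        Subgroup.mem_centralizer_singleton_iff.1 g.2⟩
      left_inv := fun _ => rfl
      right_inv := fun _ => rfl }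

omit hQ ht hm hs [Finite F] [CharP F 2] in
lemma card_om_congr (x : Cfsg.isometryGroup F ⇑Q) :
    Nat.card {g : Cfsg.Omega F ⇑Q // (g : Cfsg.isometryGroup F ⇑Q) * x = x * g} =
      Nat.card {g : Om Q // g.1 * isoEquiv Q x = isoEquiv Q x * g.1} :=
  Nat.card_congr ((omEquiv Q).toEquiv.subtypeEquiv fun g => by
    rw [← (isoEquiv Q).injective.eq_iff, map_mul, map_mul]; rfl)

omit hQ ht hm hs [Finite F] [CharP F 2] in
lemma card_classes_congr {G H : Type*} [Group G] [Group H] (e : G ≃* H) (n : ℕ) :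
    Nat.card {C : ConjClasses G // ∃ g, ConjClasses.mk g = C ∧ orderOf g = n} =
      Nat.card {C : ConjClasses H // ∃ g, ConjClasses.mk g = C ∧ orderOf g = n} :=
  H6.card_classes _ (fun g C => ConjClasses.mk (e g) = C.1)
    (fun g hg => ⟨⟨_, e g, rfl, by rw [e.orderOf_eq, hg]⟩, rfl⟩)
    (fun ⟨_, g, rfl, hg⟩ => ⟨e.symm g, by rw [e.symm.orderOf_eq, hg], by simp⟩)
    fun g g' C C' _ _ h h' => by
      rw [Subtype.ext_iff, ← h, ← h', ConjClasses.mk_eq_mk_iff_isConj]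
      exact ⟨e.toMonoidHom.map_isConj, fun h => by simpa using e.symm.toMonoidHom.map_isConj h⟩

omit ht hs

variable {U : Submodule F (ι → F)} (hU : TS Q U) (hU' : ∀ W, TS Q W → finrank F W ≤ finrank F U)

include hU hU'

theorem card_inv_classes :
    Nat.card {C : ConjClasses (Cfsg.isometryGroup F ⇑Q) // ∃ g, ConjClasses.mk g = C ∧ orderOf g = 2} =
      m + finrank F U / 2 := by
  let f : Fin m ⊕ Fin (finrank F U / 2) → ℕ × Prop :=
    Sum.elim (fun i => (i + 1, False)) fun j => (2 * (j + 1), True)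
  have hf : Function.Injective f := by
    rintro (i | i) (j | j) h <;> simp [f] at h ⊢ <;> omega
  rw [card_classes_congr (isoEquiv Q)]
  simp only [orderOf_two_iff]
  refine (H6.card_classes _ (fun t x => f x = (rk t, TS Q (movS t))) (fun t ht => ?_) ?_
    fun t t' x x' ht ht' h h' => ?_).trans (by simp)
  · have h3 := inv_le hQ ht.1 hm rfl
    have h4 := ht.2
    by_cases h : TS Q (movS t)
    · obtain ⟨j, hj⟩ := even_rk_of_ts hQ ht.1 h
      have : rk t ≤ _ := hU' _ h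
      exact ⟨.inr ⟨j - 1, by omega⟩, Prod.ext (by simp [f]; omega) (by simp [f, h])⟩
    · exact ⟨.inl ⟨rk t - 1, by omega⟩, Prod.ext (by simp [f]; omega) (by simpa [f] using h)⟩
  · rintro (i | j)
    · obtain ⟨t, h1, h2, h3⟩ := exists_inv_not_ts hQ (i + 1) (by simp; omega)
      exact ⟨t, ⟨h1, by omega⟩, Prod.ext h2.symm (eq_false (h3 i.1.succ_ne_zero)).symm⟩
    · obtain ⟨t, h1, h2, h3⟩ := exists_inv_ts hQ hU (j + 1) (by omega)
      exact ⟨t, ⟨h1, by omega⟩, Prod.ext h2.symm (eq_true fun u hu => hU u (h3 hu)).symm⟩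
  rw [← hf.eq_iff, h, h', Prod.ext_iff, isConj_iff]
  refine ⟨?_, fun h => inv_conj hQ ht.1 ht'.1 h.1 h.2.to_iff⟩
  rintro ⟨g, rfl⟩
  exact ⟨(rk_conj' g).symm, propext (ts_movS_conj g).symm⟩

theorem card_inv_classes_om (hE : NonExc Q) (h1m : 1 ≤ m) :
    Nat.card {C : ConjClasses (Cfsg.Omega F ⇑Q) // ∃ g, ConjClasses.mk g = C ∧ orderOf g = 2} =
      m / 2 + finrank F U / 2 + if finrank F U = m ∧ Even m then 1 else 0 := by
  let f : (Fin (m / 2) ⊕ Fin (finrank F U / 2)) ⊕ {_u : Unit // finrank F U = m ∧ Even m} →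
      ℕ × Prop × Prop := Sum.elim (Sum.elim (fun i => (2 * (i + 1), False, False))
        fun j => (2 * (j + 1), True, False)) fun _ => (m, True, True)
  have hf : Function.Injective f := by
    rintro ((i | i) | i) ((j | j) | j) h <;> simp [f] at h ⊢ <;>
      first | omega | exact Subsingleton.elim _ _
  have hV : finrank F (ι → F) = 2 * m := by rw [finrank_fintype_fun_eq_card, hm]
  have hO := mem_commutator_iff_two hQ hE CharTwo.two_eq_zero
  let P : OG Q → Prop := fun t => (TS Q (movS t) ∧ rk t = m) ∧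
    ¬ Even (finrank F U - finrank F (U ⊓ movS t : Submodule F _))
  have hw : ∀ t : OG Q, TS Q (movS t) ∧ rk t = m → finrank F U = m := fun t h => by
    have : rk t ≤ _ := hU' _ h.1
    have := hU.two_mul_finrank_le hQ
    omega
  have hP : ∀ t g : OG Q, TS Q (movS t) ∧ rk t = m → (Even (rk g) ↔ (P t ↔ P (g * t * g⁻¹))) :=
    fun t g h => by
      obtain ⟨k, hk⟩ := hU.exists_img_eq hQ h.1 ((hw t h).trans h.2.symm)
      have h2 := parity_iff hQ hE hU (by rw [hw t h, hV])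
      simp only [P, ts_movS_conj, rk_conj', h, true_and]
      rw [movS_conj, ← hk, ← img_mul, h2, h2, even_rk_mul hQ hE]
      tauto
  rw [card_classes_congr (omEquiv Q)]
  simp only [← Subgroup.orderOf_coe (H := Om Q), orderOf_two_iff]
  refine (H6.card_classes _ (fun t x => f x = (rk t.1, TS Q (movS t.1), P t.1)) (fun t ht => ?_) ?_
    fun t t' x x' ht ht' h h' => ?_).trans (by split_ifs with h <;> simp [h])
  · have h3 := inv_le hQ ht.1 hm rfl
    have h4 := ht.2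
    obtain ⟨j, hj⟩ := (hO _).1 t.2
    by_cases h5 : P t.1
    · exact ⟨.inr ⟨(), hw _ h5.1, h5.1.2 ▸ ⟨j, hj⟩⟩, by simp [f, h5, h5.1.1, h5.1.2]⟩
    by_cases h : TS Q (movS t.1)
    · have : rk t.1 ≤ _ := hU' _ h
      exact ⟨.inl (.inr ⟨j - 1, by omega⟩), Prod.ext (by simp [f]; omega) (by simp [f, h, h5])⟩
    · exact ⟨.inl (.inl ⟨j - 1, by omega⟩), Prod.ext (by simp [f]; omega) (by simp [f, h, h5])⟩
  · have key : ∀ k, 2 * k ≤ finrank F U → ∃ t : OG Q, t ^ 2 = 1 ∧ rk t = 2 * k ∧ TS Q (movS t) ∧ ¬ P t :=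
      fun k hk => by
        obtain ⟨t, h1, h2, h3⟩ := exists_inv_ts hQ hU k hk
        exact ⟨t, h1, h2, fun u hu => hU u (h3 hu), fun h => h.2 (by
          rw [inf_eq_right.2 h3, hw t h.1, ← h.1.2, rk, Nat.sub_self]; exact Even.zero)⟩
    rintro ((i | j) | ⟨_, h1, k, hk⟩)
    · obtain ⟨t, h1, h2, h3⟩ := exists_inv_not_ts hQ (2 * (i + 1)) (by omega)
      have h4 := h3 (by omega)
      exact ⟨⟨t, (hO _).2 (h2 ▸ even_two_mul _)⟩, ⟨h1, by simp [h2]⟩, by simp [f, P, h2, h4]⟩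
    · obtain ⟨t, h1, h2, h3, h4⟩ := key (j + 1) (by omega)
      exact ⟨⟨t, (hO _).2 (h2 ▸ even_two_mul _)⟩, ⟨h1, by simp [h2]⟩, by simp [f, h2, h3, h4]⟩
    · obtain ⟨t, h2, h3, h4, h5⟩ := key k (by omega)
      obtain ⟨v, -, hv⟩ := exists_nonsing (Q := Q) (W := ⊤) (fun x _ h => hQ.eq_zero fun y => h y trivial)
        fun h => by rw [← finrank_top, h, finrank_bot] at hV; omega
      have h6 := hP t (refl Q v) ⟨h4, by omega⟩
      rw [rk_refl hQ hv] at h6
      refine ⟨⟨refl Q v * t * (refl Q v)⁻¹, (hO _).2 (by rw [rk_conj', h3]; exact even_two_mul _)⟩,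
        ⟨by rw [conj_pow, h2]; simp, by rw [rk_conj']; omega⟩, ?_⟩
      simp only [rk_conj', ts_movS_conj]
      refine Prod.ext (by simp [f]; omega) (Prod.ext (eq_true h4).symm (eq_true ?_).symm)
      by_contra h7
      exact Nat.not_even_one (h6.2 (iff_of_false h5 h7))
  rw [← hf.eq_iff, h, h', Prod.ext_iff, Prod.ext_iff, isConj_iff]
  refine ⟨?_, fun h => ?_⟩
  · rintro ⟨g, rfl⟩
    refine ⟨(rk_conj' g.1).symm, propext (ts_movS_conj g.1).symm, propext ?_⟩
    by_cases h : TS Q (movS t.1) ∧ rk t.1 = m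
    · exact (hP _ _ h).1 ((hO _).1 g.2)
    · exact iff_of_false (fun h' => h h'.1) fun h' => h
        ⟨(ts_movS_conj g.1).1 h'.1.1, (rk_conj' g.1).symm.trans h'.1.2⟩
  obtain ⟨g, hg⟩ := inv_conj hQ ht.1 ht'.1 h.1 h.2.1.to_iff
  by_cases h1 : Even (rk g)
  · exact ⟨⟨g, (hO _).2 h1⟩, Subtype.ext hg⟩
  obtain ⟨v, h2, h3⟩ := exists_fix_nonsing hQ ht.1 fun h2 =>
    h1 ((hP _ g ⟨h2.1, by omega⟩).2 (hg ▸ h.2.2.to_iff))
  refine ⟨⟨g * refl Q v, (hO _).2 ((even_rk_mul_refl hQ g h2).2 h1)⟩, Subtype.ext ?_⟩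
  change g * refl Q v * t.1 * (g * refl Q v)⁻¹ = t'.1
  rw [← hg, mul_assoc g, comm_refl h3]
  group

end Cfsg.Agent.H7
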