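import Cfsg.Agent.H7.BalG
import Cfsg.Agent.H6.Res
import Cfsg.Agent.H6.SLc
import Cfsg.Agent.H6.H90

/-!
Centralisers of semisimple isometries of odd order.
-/

set_option autoImplicit false

namespace Cfsg.Agent.H7

open QuadraticMap Module Subgroup Matrix

variable {F V : Type*} [Field F] [AddCommGroup V] [Module F V] {Q : QuadraticForm F V}
  [FiniteDimensional F V]

section alt
variable (β : LinearMap.BilinForm F V) (h1 : ∀ v, β v v = 0) (h2 : ∀ u, (∀ v, β u v = 0) → u = 0)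
  {k : ℕ} (hk : finrank F V = 2 * k)
include h1 h2 hk

lemma exists_gram_J : ∃ b : Basis (Fin k ⊕ Fin k) F V, gram β b = J (Fin k) F := by
  obtain ⟨Φ, hΦ⟩ := H6.exists_symp_equiv (κ := Fin k) β h1 h2 (by simpa using hk)
  refine ⟨(Pi.basisFun F _).map Φ.symm, Matrix.ext fun i j => ?_⟩
  simp [gram, ← hΦ, H6.bf_eq]

lemma det_of_alt {f : V →ₗ[F] V} {c : F} (hc : c ≠ 0) (h : ∀ x y, β (f x) (f y) = c * β x y) :
    LinearMap.det f = c ^ k := by
  obtain ⟨b, hb⟩ := exists_gram_J β h1 h2 hk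
  have h3 : (LinearMap.toMatrix b b f)ᵀ * J (Fin k) F * LinearMap.toMatrix b b f = c • J (Fin k) F := by
    rw [← hb, gram_eq_toMatrix, ← LinearMap.BilinForm.toMatrix_comp, ← map_smul]
    exact congrArg _ (LinearMap.ext₂ h)
  have h4 := SymplecticGroup.det_eq_one (M := LinearMap.toMatrix b b f * fromBlocks (c⁻¹ • 1) 0 0 1)
    (SymplecticGroup.mem_iff'.2 (by
      rw [transpose_mul, Matrix.mul_assoc, Matrix.mul_assoc, ← Matrix.mul_assoc (J _ _),
        ← Matrix.mul_assoc _ᵀ (J _ _ * _), ← Matrix.mul_assoc _ᵀ (J _ _), h3]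
      simp [J, fromBlocks_transpose, fromBlocks_multiply, fromBlocks_smul, smul_smul, hc]))
  rw [det_mul, LinearMap.det_toMatrix, det_fromBlocks_zero₂₁] at h4
  simpa [mul_inv_eq_one₀ (pow_ne_zero k hc)] using h4

end alt

/-- the adjoint of an endomorphism -/
noncomputable def adjQ (hQ : ND Q) (f : End F V) : End F V :=
  LinearMap.BilinForm.leftAdjointOfNondegenerate (polarBilin Q) hQ f

lemma B_adjQ (hQ : ND Q) (f : End F V) (x y : V) : polar Q (adjQ hQ f x) y = polar Q x (f y) :=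
  LinearMap.BilinForm.isAdjointPairLeftAdjointOfNondegenerate _ hQ f x y

lemma B_adjQ' (hQ : ND Q) (f : End F V) (x y : V) : polar Q x (adjQ hQ f y) = polar Q (f x) y := by
  rw [B_comm, B_adjQ, B_comm]

lemma adjQ_eq (hQ : ND Q) {f g : End F V} (h : ∀ x y, polar Q (g x) y = polar Q x (f y)) :
    adjQ hQ f = g := LinearMap.ext fun x => hQ.ext fun y => (B_adjQ hQ f x y).trans (h x y).symm

lemma anti_adjQ (hQ : ND Q) : H6.Anti (adjQ hQ) where
  add _ _ := adjQ_eq hQ fun x y => by simp [B_adjQ]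
  mul _ _ := adjQ_eq hQ fun x y => by simp [B_adjQ]
  one := adjQ_eq hQ fun x y => rfl

lemma adjQ_adjQ (hQ : ND Q) (f : End F V) : adjQ hQ (adjQ hQ f) = f :=
  adjQ_eq hQ fun x y => (B_adjQ' hQ f x y).symm

lemma adjQ_OG (hQ : ND Q) (h : OG Q) : adjQ hQ h.1.toLinearMap = h⁻¹.1.toLinearMap :=
  adjQ_eq hQ fun x y => OG.B_left h⁻¹ x y

lemma det_adjQ (hQ : ND Q) (f : End F V) : LinearMap.det (adjQ hQ f) = LinearMap.det f := by
  have h1 := gram_comp_left (polarBilin Q) (Module.finBasis F V) (adjQ hQ f) LinearMap.id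
  rw [show LinearMap.BilinForm.comp (polarBilin Q) (adjQ hQ f) LinearMap.id = LinearMap.BilinForm.comp (polarBilin Q) LinearMap.id f from
    LinearMap.ext₂ (B_adjQ hQ f), gram_comp_left] at h1
  simpa [gram_det_ne_zero hQ] using h1.symm

omit [FiniteDimensional F V] in
lemma fix_of_pow {h : OG Q} {r n : ℕ} (hr : h ^ r = 1) (hn : n.Coprime r) {x : V}
    (hx : (h ^ n).1 x = x) : h.1 x = x := by
  obtain ⟨m, hm⟩ := exists_pow_eq_self_of_coprime (x := h)
    (hn.coprime_dvd_right (orderOf_dvd_of_pow_eq_one hr))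
  rw [← hm]
  clear hm
  induction m with
  | zero => rfl
  | succ m ih => rw [pow_succ, OG.mul_apply, hx, ih]

lemma isCompl_fixS_of_pow (hQ : ND Q) {h : OG Q} {r : ℕ} (hr : h ^ r = 1) (h0 : (r : F) ≠ 0) :
    IsCompl (fixS h) (perp Q (fixS h)) := by
  refine isCompl_perp ((Submodule.eq_bot_iff _).2 fun x hx => ?_)
  obtain ⟨y, rfl⟩ := mem_movS.1 (perp_fixS hQ h ▸ hx.2)
  have h1 : ∀ n : ℕ, (h ^ n).1 y = y + (n : F) • (h.1 y - y) := fun n => by
    induction n with
    | zero => simp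
    | succ n ih =>
      rw [pow_succ', OG.mul_apply, ih, map_add, map_smul, mem_fixS.1 hx.1, Nat.cast_succ, add_smul]
      simp; abel
  simpa [hr, h0] using h1 r

lemma even_rk_of_pow (hQ : ND Q) (hE : NonExc Q) {h : OG Q} {r : ℕ} (hr : h ^ r = 1) (ho : Odd r) :
    Even (rk h) := by
  have := congrArg (dickHom hQ hE) hr
  rw [map_pow, map_one] at this
  rw [← dickHom_eq_one_iff hQ hE]
  rcases Int.units_eq_one_or (dickHom hQ hE h) with h1 | h1
  · exact h1
  · rw [h1, ho.neg_one_pow] at this; exact absurd this (by decide)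

variable [Finite F] (h2 : (2 : F) ≠ 0) (hQ : ND Q) {k : ℕ} (hk : finrank F V = 2 * k)
include h2 hQ hk

omit [Finite F] hk in
lemma skew_alt {t : End F V} (ht : adjQ hQ t = -t) (hi : Function.Injective t) :
    (∀ v, LinearMap.BilinForm.comp (polarBilin Q) t LinearMap.id v v = 0) ∧
      ∀ u, (∀ v, LinearMap.BilinForm.comp (polarBilin Q) t LinearMap.id u v = 0) → u = 0 :=
  ⟨fun v => by
    have := B_adjQ hQ t v v
    rw [ht, LinearMap.neg_apply, polar_neg_left, B_comm Q v] at this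
    exact (mul_eq_zero.1 (by change 2 * polar Q (t v) v = 0; linear_combination -this)).resolve_left h2,
    fun u hu => hi ((hQ.eq_zero hu).trans (map_zero t).symm)⟩

lemma chi_det_skew {t : End F V} (ht : adjQ hQ t = -t) (hi : Function.Injective t) :
    chi (LinearMap.det t) * disc Q = 1 := by
  obtain ⟨b, hb⟩ := exists_gram_J _ (skew_alt h2 hQ ht hi).1 (skew_alt h2 hQ ht hi).2 hk
  have := gram_comp_left (polarBilin Q) b t LinearMap.id
  rw [hb, SymplecticGroup.det_eq_one (SymplecticGroup.J_mem _ _)] at this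
  rw [disc_eq Q b, ← map_mul]
  simpa using congrArg chi this.symm

lemma theta_of_normal {w : End F V} (hw : IsUnit w) (hn : w * adjQ hQ w = adjQ hQ w * w)
    (hf : ∀ x, w x = adjQ hQ w x → x = 0) :
    ∃ z : OG Q, (∀ x, z.1 (adjQ hQ w x) = w x) ∧ fixS z = ⊥ ∧ theta z = chi (LinearMap.det w) := by
  have h0 := (LinearMap.isUnit_iff_isUnit_det _).1 hw
  let W := LinearMap.equivOfIsUnitDet h0
  let W' := LinearMap.equivOfIsUnitDet (f := adjQ hQ w) (det_adjQ hQ w ▸ h0)
  have e1 : ∀ x, W x = w x := fun x => LinearMap.equivOfIsUnitDet_apply _ x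
  have e2 : ∀ x, W' x = adjQ hQ w x := fun x => LinearMap.equivOfIsUnitDet_apply _ x
  have e3 : ∀ x, (W'.symm.trans W) (adjQ hQ w x) = w x := fun x => by simp [← e2, e1]
  let z : OG Q := ⟨W'.symm.trans W, fun x => mul_left_cancel₀ h2 (by
    obtain ⟨x, rfl⟩ := W'.surjective x
    rw [← B_self, ← B_self, e2, e3, B_adjQ, ← B_adjQ' hQ]
    exact congrArg (fun f : End F V => polar Q x (f x)) hn.symm)⟩
  have h3 : fixS z = ⊥ := (Submodule.eq_bot_iff _).2 fun x hx => by
    obtain ⟨x, rfl⟩ := W'.surjective x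
    rw [hf x ((e3 x).symm.trans (e2 x ▸ mem_fixS.1 hx)), map_zero]
  refine ⟨z, e3, h3, ?_⟩
  have h4 := chi_det_skew h2 hQ hk (t := adjQ hQ w - w)
    (by rw [(anti_adjQ hQ).sub, adjQ_adjQ, neg_sub])
    ((injective_iff_map_eq_zero _).2 fun x hx => hf x (sub_eq_zero.1 hx).symm)
  rw [show adjQ hQ w - w = (LinearMap.id - z.1.toLinearMap) ∘ₗ adjQ hQ w from
    LinearMap.ext fun x => congrArg _ (e3 x).symm, LinearMap.det_comp, det_adjQ, map_mul] at h4
  rw [theta_of_fix_bot h3]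
  linear_combination chi (LinearMap.det w) * h4 -
    chi (LinearMap.det (LinearMap.id - z.1.toLinearMap)) * disc Q * chi_mul_self h0.ne_zero

variable {h : OG Q} {r : ℕ} (hr : h ^ r = 1) (ho : Odd r) (hf : ∀ x, h.1 x = x → x = 0)
include hr ho hf

omit [Finite F] h2 hQ hk [FiniteDimensional F V] in
lemma skew_inj : Function.Injective (h.1.toLinearMap - h⁻¹.1.toLinearMap) :=
  (injective_iff_map_eq_zero _).2 fun x hx => hf x (fix_of_pow hr (n := 2) (by simpa using ho) (by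
    rw [pow_two, OG.mul_apply, show h.1 x = h⁻¹.1 x from sub_eq_zero.1 hx, OG.apply_inv_apply]))

omit [Finite F] in
lemma det_of_comm {f : End F V} {c : F} (hc : c ≠ 0) (h1 : ∀ x, f (h.1 x) = h.1 (f x))
    (h3 : ∀ x y, polar Q (f x) (f y) = c * polar Q x y) : LinearMap.det f = c ^ k := by
  obtain ⟨h4, h5⟩ := skew_alt h2 hQ (t := h.1.toLinearMap - h⁻¹.1.toLinearMap)
    (by rw [(anti_adjQ hQ).sub, adjQ_OG, adjQ_OG, inv_inv, neg_sub]) (skew_inj hr ho hf)
  refine det_of_alt _ h4 h5 hk hc fun x y => ?_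
  change polar Q (h.1 (f x) - h⁻¹.1 (f x)) (f y) = c * polar Q (h.1 x - h⁻¹.1 x) y
  rw [← h3, map_sub, h1, OG.inv_apply_eq.2 (show f x = h.1 (f (h⁻¹.1 x)) by
    rw [← h1, OG.apply_inv_apply])]

omit h2 hk in
lemma exists_norm_eq {X : End F V} (h1 : IsUnit X) (h3 : adjQ hQ X = X)
    (h4 : X * h.1.toLinearMap = h.1.toLinearMap * X) : ∃ Y : End F V, adjQ hQ Y * Y = X ∧
      Y * adjQ hQ Y = adjQ hQ Y * Y ∧ Y * h.1.toLinearMap = h.1.toLinearMap * Y := by
  have := Module.finite_of_finite F (M := V)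
  have : Finite (End F V) := Finite.of_injective _ DFunLike.coe_injective
  have h5 : h⁻¹.1.toLinearMap * h.1.toLinearMap = (1 : End F V) := LinearMap.ext (OG.inv_apply_apply h)
  have h6 : h.1.toLinearMap * h⁻¹.1.toLinearMap = (1 : End F V) := LinearMap.ext (OG.apply_inv_apply h)
  have h7 : X * h⁻¹.1.toLinearMap = h⁻¹.1.toLinearMap * X := by
    rw [← one_mul (X * _), ← h5, mul_assoc, ← mul_assoc _ X, ← h4, mul_assoc X, h6, mul_one]
  have hc : ∀ a ∈ ({X, h.1.toLinearMap, h⁻¹.1.toLinearMap} : Set (End F V)),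
      ∀ b ∈ ({X, h.1.toLinearMap, h⁻¹.1.toLinearMap} : Set (End F V)), a * b = b * a := by
    rintro a (rfl | rfl | rfl) b (rfl | rfl | rfl) <;> simp only [h4, h5, h6, h7]
  have hd : ∀ a ∈ ({X, h.1.toLinearMap, h⁻¹.1.toLinearMap} : Set (End F V)),
      adjQ hQ a ∈ ({X, h.1.toLinearMap, h⁻¹.1.toLinearMap} : Set (End F V)) := by
    rintro a (rfl | rfl | rfl)
    · rw [h3]; simp
    · rw [adjQ_OG]; simp
    · rw [adjQ_OG, inv_inv]; simp
  obtain ⟨Y, h8, h9⟩ := (anti_adjQ hQ).norm_surj hc hd (fun a _ => adjQ_adjQ hQ a)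
    (k := h.1.toLinearMap) (Subring.subset_closure (by simp)) (Subring.subset_closure (by simp))
    (by rw [adjQ_OG, End.isUnit_iff]
        exact ⟨skew_inj hr ho hf, LinearMap.injective_iff_surjective.1 (skew_inj hr ho hf)⟩) h1 h3
  have := (Subring.isMulCommutative_closure hc).is_comm.comm
  exact ⟨Y, h9, congrArg Subtype.val (this ⟨Y, h8⟩ ⟨_, ((anti_adjQ hQ).closure hd
    (fun a _ => adjQ_adjQ hQ a) h8).1⟩), congrArg Subtype.val (this ⟨Y, h8⟩
      ⟨_, Subring.subset_closure (by simp)⟩)⟩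

lemma exists_sim_fpf (c : Fˣ) : ∃ f : V ≃ₗ[F] V, (∀ x, Q (f x) = c * Q x) ∧
    LinearMap.det f.toLinearMap = c ^ k ∧ ∀ x, f (h.1 x) = h.1 (f x) := by
  obtain ⟨Y, h3, -, h4⟩ := exists_norm_eq hQ hr ho hf (X := (c : F) • 1)
    (Algebra.algebraMap_eq_smul_one (A := End F V) (c : F) ▸ c.isUnit.map _)
    (adjQ_eq hQ fun x y => by simp) (by simp)
  have h5 : ∀ x y, polar Q (Y x) (Y y) = c * polar Q x y := fun x y => by
    rw [← B_adjQ' hQ, ← End.mul_apply, h3]; simp
  have h6 := det_of_comm h2 hQ hk hr ho hf c.ne_zero (LinearMap.congr_fun h4) h5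
  refine ⟨LinearMap.equivOfIsUnitDet (f := Y) (h6 ▸ c.isUnit.pow k), fun x => ?_, by simpa using h6,
    fun x => by simpa using LinearMap.congr_fun h4 x⟩
  refine mul_left_cancel₀ h2 ?_
  rw [LinearMap.equivOfIsUnitDet_apply, ← B_self, h5, B_self, mul_left_comm]

lemma exists_z_fpf [Nontrivial V] (h0 : (r : F) ≠ 0) :
    ∃ z : OG Q, Even (rk z) ∧ theta z = -1 ∧ z * h = h * z := by
  have := Module.finite_of_finite F (M := V)
  have : Finite (End F V) := Finite.of_injective _ DFunLike.coe_injective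
  have hA := anti_adjQ hQ
  set A : End F V := h.1.toLinearMap
  have hp : ∀ n : ℕ, A ^ n = (h ^ n).1.toLinearMap := fun n => by
    induction n with
    | zero => rfl
    | succ n ih => rw [pow_succ, pow_succ, ih]; rfl
  obtain ⟨a, ha⟩ := exists_chi_eq_neg_one h2
  obtain ⟨w, h3, h4⟩ := H6.exists_comm_det_end (φ := A) (g := Polynomial.X ^ r - 1)
    (by simp [hp, hr]; exact sub_self _) (H6.squarefree_X_pow_sub_one h0) a
  obtain ⟨w, rfl⟩ : IsUnit w := (LinearMap.isUnit_iff_isUnit_det _).2 (h4 ▸ a.isUnit)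
  have h5 : ∀ {f : End F V}, Commute f A → Commute (adjQ hQ f) A := fun {f} hc => by
    have := congrArg (adjQ hQ) (show f * h⁻¹.1.toLinearMap = h⁻¹.1.toLinearMap * f from
      LinearMap.ext fun x => OG.inv_apply_eq.2 ((congrArg f (OG.apply_inv_apply h x)).symm.trans
        (LinearMap.congr_fun hc _)) |>.symm)
    rw [hA.mul, hA.mul, adjQ_OG, inv_inv] at this
    exact this.symm
  obtain ⟨Y, h6, h7, h8⟩ := exists_norm_eq hQ hr ho hf (X := adjQ hQ w * w)
    ((LinearMap.isUnit_iff_isUnit_det _).2 (by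
      rw [map_mul, det_adjQ, h4]; exact a.isUnit.mul a.isUnit)) (by rw [hA.mul, adjQ_adjQ])
    ((h5 h3).mul_left h3)
  have h9 : LinearMap.det Y = a := by
    have := det_of_comm h2 hQ hk hr ho hf (f := Y * w⁻¹.1) one_ne_zero
      (LinearMap.congr_fun ((show Commute Y A from h8).mul_left (Commute.units_inv_left h3)))
      fun x y => by
        rw [End.mul_apply, End.mul_apply, ← B_adjQ' hQ, ← End.mul_apply (adjQ hQ Y), h6,
          End.mul_apply, B_adjQ', ← End.mul_apply, ← End.mul_apply]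
        simp
    rw [← h4, ← mul_one (LinearMap.det w.1), ← one_pow k, ← this, mul_comm, ← map_mul]
    simp
  obtain ⟨Y, rfl⟩ : IsUnit Y := (LinearMap.isUnit_iff_isUnit_det _).2 (h9 ▸ a.isUnit)
  obtain ⟨e, n, hn, h10⟩ := Nat.exists_eq_two_pow_mul_odd (orderOf_pos Y).ne'
  have h11 : (Y.1 ^ n) ^ 2 ^ e = 1 := by
    rw [← pow_mul, mul_comm, ← h10, ← Units.val_pow_eq_pow_val, pow_orderOf_eq_one, Units.val_one]
  have c1 : Commute (Y.1 ^ n) A := Commute.pow_left h8 n
  have c2 : Commute (Y.1 ^ n) (adjQ hQ (Y.1 ^ n)) := by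
    rw [hA.pow]; exact Commute.pow_pow h7 n n
  have h12 : chi (LinearMap.det (Y.1 ^ n)) = -1 := by rw [map_pow, map_pow, h9, ha, hn.neg_one_pow]
  have h13 : IsUnit (Y.1 ^ n) := Y.isUnit.pow n
  generalize Y.1 ^ n = y at *
  have c3 : A * adjQ hQ A = 1 := by rw [adjQ_OG]; exact LinearMap.ext (OG.apply_inv_apply h)
  have c4 := h5 (Commute.refl A)
  obtain ⟨z, h14, h15, h16⟩ := theta_of_normal h2 hQ hk (w := y * A)
    (h13.mul (IsUnit.of_mul_eq_one _ c3)) (by
      rw [hA.mul, mul_assoc, ← mul_assoc A, c3, one_mul, c2.eq, mul_assoc, ← mul_assoc _ y,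
        ← ((h5 c1).symm.mul_right c1.symm).eq, ← mul_assoc, c4.eq, c3, one_mul]) fun x hx => by
      have h14 : ∀ j : ℕ, ((A ^ 2 * y) ^ j) x = (adjQ hQ y ^ j) x := fun j => by
        induction j with
        | zero => rfl
        | succ j ih =>
          have h15 : (A ^ 2 * y) x = adjQ hQ y x := by
            rw [pow_two, mul_assoc, ← c1.eq, End.mul_apply, hx, hA.mul, ← End.mul_apply,
              ← mul_assoc, c3, one_mul]
          rw [pow_succ, End.mul_apply, h15, ← End.mul_apply,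
            ((((h5 c1).symm.pow_left 2).mul_left c2).pow_left j).eq, End.mul_apply, ih,
            ← End.mul_apply, pow_succ']
      have h15 := h14 (2 ^ e)
      rw [(c1.symm.pow_left 2).mul_pow, h11, ← hA.pow, h11, hA.one, mul_one, ← pow_mul, hp] at h15
      exact hf x (fix_of_pow hr (by rw [← pow_succ']; exact (Nat.coprime_two_left.2 ho).pow_left _) h15)
  refine ⟨z, ?_, ?_, OG.ext' fun x => ?_⟩
  · have := rk_add_fix z
    rw [h15, finrank_bot, hk] at this
    exact ⟨k, by omega⟩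
  · rw [h16, map_mul, map_mul, h12, det_of_comm h2 hQ hk hr ho hf (f := A) one_ne_zero
      (fun _ => rfl) (fun x y => (OG.map_B h x y).trans (one_mul _).symm)]
    simp
  · obtain ⟨x, rfl⟩ := ((End.isUnit_iff _).1 ((LinearMap.isUnit_iff_isUnit_det _).2 (det_adjQ hQ _ ▸
      (LinearMap.isUnit_iff_isUnit_det _).1 (h13.mul (IsUnit.of_mul_eq_one _ c3))))).2 x
    have c5 := c1.mul_left (Commute.refl A)
    rw [OG.mul_apply, OG.mul_apply, h14]
    exact (congrArg z.1 (LinearMap.congr_fun (h5 c5) x).symm).trans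
      ((h14 _).trans (LinearMap.congr_fun c5 x))

end Cfsg.Agent.H7
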