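import Cfsg.Agent.H7.RX1

/-! Root involutions with `|E(d)| = 2`: the rank two case. -/

set_option autoImplicit false

namespace Cfsg.Agent.H7.RX

open Cfsg.Agent.H8 RI RS Subgroup

variable {G : Type*} [Group G] {D : Set G} {a b c d e f g h k m n p q u w x y : G}

theorem braid (aa : a * a = 1) (ff : f * f = 1) (h : orderOf (a * f) = 3) :
    a * f * a = f * a * f := by
  have h1 : (a * f) ^ 3 = 1 := h ▸ pow_orderOf_eq_one _
  have h2 : a * f * a * (f * a * f) = 1 := by
    rw [← h1]; simp only [pow_succ, pow_zero, one_mul, mul_assoc]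
  have h3 : f * a * f * (f * a * f) = 1 := by simp only [mul_assoc, ii ff, ii aa, ff]
  exact mul_right_cancel (h2.trans h3.symm)

omit [Group G] in
theorem pair_le (a b : G) : ({a, b} : Set G).ncard ≤ 2 :=
  (Set.ncard_insert_le _ _).trans (by rw [Set.ncard_singleton])

theorem card_ext [Finite G] (K : Subgroup G) (aa : a * a = 1) (h : ∀ k ∈ K, a * k * a ∈ K) :
    ∃ L : Subgroup G, K ≤ L ∧ a ∈ L ∧ Nat.card L ≤ 2 * Nat.card K := by
  have ai : a⁻¹ = a := inv_eq_of_mul_eq_one_left aa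
  let L : Subgroup G :=
    { carrier := {x | x ∈ K ∨ a * x ∈ K}
      one_mem' := .inl K.one_mem
      mul_mem' := by
        rintro x y (hx | hx) (hy | hy)
        · exact .inl (K.mul_mem hx hy)
        · refine .inr ?_
          have := K.mul_mem (h x hx) hy
          rwa [mul_assoc, ii aa, mul_assoc] at this
        · exact .inr (by rw [← mul_assoc]; exact K.mul_mem hx hy)
        · refine .inl ?_
          have := K.mul_mem (h _ hx) hy
          rwa [ii aa, mul_assoc, ii aa] at this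
      inv_mem' := by
        rintro x (hx | hx)
        · exact .inl (K.inv_mem hx)
        · refine .inr ?_
          have := K.inv_mem (h _ hx)
          rwa [ii aa, _root_.mul_inv_rev, ai] at this }
  refine ⟨L, fun x hx => .inl hx, .inr (aa ▸ K.one_mem), ?_⟩
  have h1 : (L : Set G) ⊆ (K : Set G) ∪ (fun x => a * x) '' (K : Set G) := by
    rintro x (hx | hx)
    · exact .inl hx
    · exact .inr ⟨_, hx, ii aa x⟩
  have h2 := Set.ncard_le_ncard h1
  have h3 := Set.ncard_union_le (K : Set G) ((fun x => a * x) '' (K : Set G))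
  have h4 := Set.ncard_image_le (s := (K : Set G)) (f := fun x => a * x)
  change (L : Set G).ncard ≤ 2 * (K : Set G).ncard
  omega

/-- the group generated by the points collinear with `d` -/
def M (D : Set G) (d : G) : Subgroup G := closure {e | Co D e d}

theorem M_mem (h : Co D e d) : e ∈ M D d := subset_closure h

theorem M_comm (hn : n ∈ M D d) : n * d = d * n := by
  have : M D d ≤ centralizer {d} := (closure_le _).2 fun e he => mem_centralizer_singleton_iff.2 he.c
  exact mem_centralizer_singleton_iff.1 (this hn)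

theorem M_conj (hD : IsRootInvolutionSet D) (hg : g * d = d * g) (hn : n ∈ M D d) :
    g * n * g⁻¹ ∈ M D d := by
  induction hn using closure_induction with
  | mem x hx =>
    have := Co.conj hD hx g
    rw [hg, mul_inv_cancel_right] at this
    exact M_mem this
  | one => simp
  | mul x y _ _ h1 h2 => rw [← conj_mul]; exact mul_mem h1 h2
  | inv x _ h1 => rw [← conj_inv]; exact inv_mem h1

theorem alt_mul (dd : d * d = 1) (h0 : y * d = d * y) (h1 : x * m = m * x ∨ x * m = m * x * d)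
    (h2 : y * m = m * y ∨ y * m = m * y * d) (h3 : x * d = d * x) :
    x * y * m = m * (x * y) ∨ x * y * m = m * (x * y) * d := by
  rcases h1 with h1 | h1 <;> rcases h2 with h2 | h2
  · left; rw [mul_assoc, h2, ← mul_assoc, h1, mul_assoc]
  · right; rw [mul_assoc, h2, ← mul_assoc, ← mul_assoc, h1]; simp only [mul_assoc]
  · right; rw [mul_assoc, h2, ← mul_assoc, h1]; simp only [mul_assoc, h0]
  · left; rw [mul_assoc, h2, ← mul_assoc, ← mul_assoc, h1]
    simp only [mul_assoc, h0, ii dd]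

theorem alt_inv (h0 : m * d = d * m) (h1 : x * m = m * x ∨ x * m = m * x * d) (dd : d * d = 1)
    (h3 : x * d = d * x) : x⁻¹ * m = m * x⁻¹ ∨ x⁻¹ * m = m * x⁻¹ * d := by
  rcases h1 with h1 | h1
  · left; rw [inv_mul_eq_iff_eq_mul, ← mul_assoc, h1, mul_inv_cancel_right]
  · right; rw [inv_mul_eq_iff_eq_mul, ← mul_assoc, ← mul_assoc, h1, mul_assoc m, h3]
    simp only [mul_assoc, mul_inv_cancel_left, dd, mul_one]

theorem alt_swap (dd : d * d = 1) (h1 : x * m = m * x ∨ x * m = m * x * d) :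
    m * x = x * m ∨ m * x = x * m * d := by
  rcases h1 with h1 | h1
  · exact .inl h1.symm
  · right; rw [h1, mul_assoc, dd, mul_one]

theorem alt_iff (dd : d * d = 1) (h0 : y * d = d * y)
    (h1 : x * m = m * x ∨ x * m = m * x * d) (h2 : y * m = m * y ∨ y * m = m * y * d) :
    x * y * m = m * (x * y) ↔ (x * m = m * x ↔ y * m = m * y) := by
  by_cases e1 : x * m = m * x
  · have := (centralizer {m}).mul_mem_cancel_left (y := y) (mem_centralizer_singleton_iff.2 e1)
    simp only [mem_centralizer_singleton_iff] at this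
    rw [this]; tauto
  by_cases e2 : y * m = m * y
  · have := (centralizer {m}).mul_mem_cancel_right (y := x) (mem_centralizer_singleton_iff.2 e2)
    simp only [mem_centralizer_singleton_iff] at this
    rw [this]; tauto
  refine iff_of_true ?_ (iff_of_false e1 e2)
  rw [mul_assoc, h2.resolve_left e2, ← mul_assoc, ← mul_assoc, h1.resolve_left e1]
  simp only [mul_assoc, h0, ii dd]

variable [Finite G] (H : HX D)
include H

theorem M_alt (hd : d ∈ D) (hn : n ∈ M D d) (hm : m ∈ M D d) : n * m = m * n ∨ n * m = m * n * d := by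
  have hD := H.nc.rt
  have dd := sq hD hd
  have k : ∀ a, Co D a d → ∀ n ∈ M D d, n * a = a * n ∨ n * a = a * n * d := by
    intro a ha n hn
    induction hn using closure_induction with
    | mem x hx =>
      by_cases e : x * a = a * x
      · exact .inl e
      · right
        rw [mul_assoc, ← cA H hx ha e, mul_assoc, ii (sq hD ha.l)]
    | one => simp
    | mul x y hx hy h1 h2 => exact alt_mul dd (M_comm hy) h1 h2 (M_comm hx)
    | inv x hx h1 => exact alt_inv ha.c h1 dd (M_comm hx)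
  induction hm using closure_induction with
  | mem x hx => exact k x hx n hn
  | one => simp
  | mul x y hx hy h1 h2 =>
    exact alt_swap dd (alt_mul dd (M_comm hy) (alt_swap dd h1) (alt_swap dd h2) (M_comm hx))
  | inv x hx h1 => exact alt_swap dd (alt_inv (M_comm hn) (alt_swap dd h1) dd (M_comm hx))

theorem card_closure (hd : d ∈ D) (hc : Co D c d) : ∀ (k : ℕ) (S : Set G), (∀ a ∈ S, Co D a d) →
    (∀ a ∈ S, a * d ∈ S) → S.ncard ≤ 2 * k →
    ∃ K : Subgroup G, K ≤ M D d ∧ d ∈ K ∧ S ⊆ K ∧ Nat.card K ≤ 2 ^ (k + 1) := by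
  have hD := H.nc.rt
  have dd := sq hD hd
  have dM : d ∈ M D d := by
    have := mul_mem (M_mem hc) (M_mem (hc.mul_r hD))
    rwa [ii (sq hD hc.l)] at this
  intro k
  induction k with
  | zero =>
    intro S _ _ h
    have : S = ∅ := (Set.ncard_eq_zero (Set.toFinite S)).1 (by omega)
    refine ⟨zpowers d, (zpowers_le).2 dM, mem_zpowers d, by simp [this], ?_⟩
    rw [Nat.card_zpowers, hD.orderOf_eq d hd]; rfl
  | succ k ih =>
    intro S h1 h2 h3
    rcases S.eq_empty_or_nonempty with rfl | ⟨a, ha⟩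
    · obtain ⟨K, k1, k2, k3, k4⟩ := ih ∅ h1 h2 (by simp)
      exact ⟨K, k1, k2, k3, k4.trans (Nat.pow_le_pow_right (by omega) (by omega))⟩
    have hne : a ≠ a * d := fun e => ne_one hD hd (mul_left_cancel (e.symm.trans (mul_one a).symm))
    obtain ⟨K, k1, k2, k3, k4⟩ := ih (S \ {a, a * d}) (fun x hx => h1 x hx.1) (by
      rintro x ⟨hx, hx'⟩
      refine ⟨h2 x hx, ?_⟩
      rintro (e | e)
      · exact hx' (.inr (by rw [← e, mul_assoc, dd, mul_one]; rfl))
      · exact hx' (.inl (mul_right_cancel e))) (by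
      have e1 : ({a, a * d} : Set G) ⊆ S := by
        rintro x (rfl | rfl)
        exacts [ha, h2 a ha]
      rw [Set.ncard_sdiff e1, Set.ncard_pair hne]
      omega)
    have aa := sq hD (h1 a ha).l
    obtain ⟨L, l1, l2, l3⟩ := card_ext K aa fun x hx => by
      rcases M_alt H hd (M_mem (h1 a ha)) (k1 hx) with e | e
      · rwa [e, mul_assoc, aa, mul_one]
      · rw [e, mul_assoc, mul_assoc, ← (h1 a ha).c, ii aa]
        exact mul_mem hx k2
    refine ⟨L ⊓ M D d, inf_le_right, ⟨l1 k2, dM⟩, fun x hx => ⟨?_, M_mem (h1 x hx)⟩, ?_⟩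
    · by_cases e : x ∈ ({a, a * d} : Set G)
      · rcases e with rfl | rfl
        exacts [l2, mul_mem l2 (l1 k2)]
      · exact l1 (k3 ⟨hx, e⟩)
    · have := card_le_of_le (inf_le_left : L ⊓ M D d ≤ L)
      rw [pow_succ]
      omega

variable (hnp : ∀ w ∈ D, ∀ d ∈ D, w * d = d * w → w ≠ d → Co D w d)
include hnp

theorem sp (ha : Co D a d) (hc : Co D c d) (h : a * c = c * a) : a = c ∨ a = c * d := by
  have hD := H.nc.rt
  by_contra hn
  rw [not_or] at hn
  have h1 := hnp a ha.l c hc.l h hn.1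
  have h2 := co_mul H ha hc h1 fun e => hn.2 (by rw [← e, h, ii (sq hD hc.l)])
  obtain ⟨u, hu⟩ := es H.nc ha fun e => ha.ne hD (H.two _ ha.l _ ha.r e)
  have n := hu.fo.not_comm hD ha.l hu.co.l
  have k : ∀ c', Co D c' d → Co D a c' → u * c' = c' * u → False := fun c' k1 k2 k3 => by
    have k4 := hnp u hu.co.l c' k1.l k3 fun e => n (e ▸ k2.c)
    exact k1.ne hD ((KA H k2 k4 n).symm.trans hu.eq)
  rcases comm_plane H ha hc hu.co with e | e | e
  · exact n e.symm
  · exact k c hc h1 e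
  · exact k _ h2 (h1.mul_l hD).symm e

omit hnp in
theorem trans (hc : Co D c d) (ha : Co D a d) (na : a * c ≠ c * a) (hb : Co D b d)
    (nb : b * c ≠ c * b) : ∃ g ∈ M D c, g * d = d * g ∧ g * a * g⁻¹ = b := by
  have hD := H.nc.rt
  have dd := sq hD hc.r
  have three : ∀ a f, Co D a d → a * c ≠ c * a → Co D f c → f * d ≠ d * f → a * f * a = f * a * f :=
    fun a f h1 h2 h3 h4 => braid (sq hD h1.l) (sq hD h3.l) (three' hD hc
      ⟨h1, fo_of hD hc.l h1.l (nod_of_comm hD hc.l h1.l |> fun _ => hc.nod hD h1.l h1.c) (Ne.symm h2),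
        KA H hc h1 (Ne.symm h2)⟩ h3.l
      (fo_of hD hc.r h3.l (hc.symm.nod hD h3.l h3.c) (Ne.symm h4)) (KA H hc.symm h3 (Ne.symm h4)))
  obtain ⟨f, hf⟩ := es H.nc hc.symm fun e => hc.symm.ne hD (H.two _ hc.r _ hc.l e)
  have nf : f * d ≠ d * f := (hf.fo.not_comm hD hc.r hf.co.l).symm
  have aa := sq hD ha.l
  have bb := sq hD hb.l
  have ff := sq hD hf.co.l
  have c1 : Co D (b * (a * f * a) * b) c := by
    have := (hf.co.conj hD a).conj hD b
    rwa [inv_eq hD ha.l, inv_eq hD hb.l, cA H hc ha (Ne.symm na), conj_mul' bb c d,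
      cA H hc hb (Ne.symm nb), conj_of_comm bb hb.c, mul_assoc c, dd, mul_one] at this
  have n1 : b * (a * f * a) * b * d ≠ d * (b * (a * f * a) * b) := fun e => nf (by
    have e1 := comm_mul (comm_mul ha.c.symm (comm_mul (comm_mul hb.c.symm e.symm) hb.c.symm)) ha.c.symm
    simp only [mul_assoc, ii aa, ii bb, aa, bb, mul_one] at e1
    exact e1.symm)
  have e1 := three a f ha na hf.co nf
  have e2 := three b _ hb nb c1 n1
  have e3 := cA H hc.symm hf.co nf.symm
  have e4 := cA H hc.symm c1 n1.symm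
  have e5 : b * (b * (a * f * a) * b) * b = f * a * f := by
    rw [← e1]; simp only [mul_assoc, ii bb, bb, mul_one]
  generalize b * (a * f * a) * b = f' at *
  have ff' := sq hD c1.l
  refine ⟨f' * f, mul_mem (M_mem c1) (M_mem hf.co), ?_, ?_⟩
  · calc f' * f * d = f' * (f * d * f) * f' * (f' * f) := by simp only [mul_assoc, ii ff', ff, mul_one]
      _ = _ := by
        rw [e3, conj_mul' ff', e4, conj_of_comm ff' c1.c, mul_assoc d, sq hD hc.l, mul_one]
  · rw [_root_.mul_inv_rev, inv_eq hD hf.co.l, inv_eq hD c1.l]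
    calc f' * f * a * (f * f') = f' * (f * a * f) * f' := by simp only [mul_assoc]
      _ = _ := by rw [← e5, e2]; simp only [mul_assoc, ii ff', ff', mul_one]

omit hnp in
theorem step (hc : Co D c d) (hn : n ∈ M D d) {U : Set G} {ε : Prop}
    (hU : ∀ a, a ∈ U ↔ (Co D a d ∧ a * c ≠ c * a) ∧ (n * a = a * n ↔ ε)) (h1 : U.Nonempty)
    (h2 : U.ncard < {a | Co D a d ∧ a * c ≠ c * a}.ncard) :
    ∃ g ∈ M D c, g * d = d * g ∧ ∃ V : Set G, V.Nonempty ∧ V.ncard ≤ 2 * U.ncard ∧
      ∀ a, a ∈ V ↔ (Co D a d ∧ a * c ≠ c * a) ∧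
        (n⁻¹ * (g * n * g⁻¹) * a = a * (n⁻¹ * (g * n * g⁻¹)) ↔ False) := by
  have hD := H.nc.rt
  have dd := sq hD hc.r
  obtain ⟨u, hu⟩ := h1
  obtain ⟨v, hv, hv'⟩ : ∃ v, (Co D v d ∧ v * c ≠ c * v) ∧ v ∉ U := by
    by_contra hn
    push Not at hn
    exact absurd (Set.ncard_le_ncard (s := {a | Co D a d ∧ a * c ≠ c * a}) (t := U)
      fun a ha => hn a ha) (by omega)
  have hu' := (hU u).1 hu
  obtain ⟨g, g1, g2, g3⟩ := trans H hc hu'.1.1 hu'.1.2 hv.1 hv.2
  have g4 := M_comm g1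
  have m1 := M_conj hD g2 hn
  have key : ∀ a, Co D a d → (n⁻¹ * (g * n * g⁻¹) * a = a * (n⁻¹ * (g * n * g⁻¹)) ↔
      (n * a = a * n ↔ n * (g⁻¹ * a * g) = g⁻¹ * a * g * n)) := fun a ha => by
    rw [alt_iff dd (M_comm m1) (M_alt H hc.r (inv_mem hn) (M_mem ha)) (M_alt H hc.r m1 (M_mem ha))]
    refine iff_congr ⟨fun e => ?_, fun e => ?_⟩ ⟨fun e => ?_, fun e => ?_⟩
    · rw [inv_mul_eq_iff_eq_mul, ← mul_assoc, eq_mul_inv_iff_mul_eq] at e
      exact e.symm
    · rw [inv_mul_eq_iff_eq_mul, ← mul_assoc, eq_mul_inv_iff_mul_eq, e]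
    · calc _ = g⁻¹ * (g * n * g⁻¹ * a) * g := by group
        _ = _ := by rw [e]; group
    · calc _ = g * (n * (g⁻¹ * a * g)) * g⁻¹ := by group
        _ = _ := by rw [e]; group
  have pre : ∀ a, Co D a d ∧ a * c ≠ c * a →
      Co D (g⁻¹ * a * g) d ∧ g⁻¹ * a * g * c ≠ c * (g⁻¹ * a * g) := fun a ha => by
    constructor
    · have := ha.1.conj hD g⁻¹
      rwa [inv_inv, mul_assoc g⁻¹ d, ← g2, inv_mul_cancel_left] at this
    · intro e
      apply ha.2
      calc a * c = g * (g⁻¹ * a * g * c) * g⁻¹ * (g * c⁻¹ * g⁻¹ * c) := by group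
        _ = g * c * g⁻¹ * a * (g * c⁻¹ * g⁻¹ * c) := by rw [e]; group
        _ = _ := by
          have : g * c⁻¹ * g⁻¹ * c = 1 := by
            rw [← conj_inv, g4, mul_inv_cancel_right, inv_mul_cancel]
          rw [this, g4, mul_inv_cancel_right, mul_one]
  refine ⟨g, g1, g2, {a | (Co D a d ∧ a * c ≠ c * a) ∧
    (n⁻¹ * (g * n * g⁻¹) * a = a * (n⁻¹ * (g * n * g⁻¹)) ↔ False)}, ⟨v, hv, ?_⟩, ?_, fun a => Iff.rfl⟩
  · rw [key v hv.1, ← g3, show g⁻¹ * (g * u * g⁻¹) * g = u by group, hu'.2, g3]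
    have := hU v
    tauto
  · have s1 : {a | (Co D a d ∧ a * c ≠ c * a) ∧
        (n⁻¹ * (g * n * g⁻¹) * a = a * (n⁻¹ * (g * n * g⁻¹)) ↔ False)} ⊆
        U ∪ (fun x => g * x * g⁻¹) '' U := by
      rintro a ⟨ha, ha'⟩
      rw [key a ha.1] at ha'
      by_cases e : a ∈ U
      · exact .inl e
      · refine .inr ⟨g⁻¹ * a * g, (hU _).2 ⟨pre a ha, ?_⟩, by group⟩
        have := hU a
        tauto
    have s2 := Set.ncard_le_ncard s1
    have s3 := Set.ncard_union_le U ((fun x => g * x * g⁻¹) '' U)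
    have s4 := Set.ncard_image_le (s := U) (f := fun x => g * x * g⁻¹)
    omega

theorem card_A (hc : Co D c d) : {a | Co D a d ∧ a * c ≠ c * a}.ncard ≤ 16 := by
  have hD := H.nc.rt
  have dd := sq hD hc.r
  have cc' := sq hD hc.l
  by_contra hn
  obtain ⟨a, ha⟩ := es H.nc hc fun e => hc.ne hD (H.two _ hc.l _ hc.r e)
  have na : a * c ≠ c * a := (ha.fo.not_comm hD hc.l ha.co.l).symm
  have m0 := M_mem ha.co
  have s0 : {x | (Co D x d ∧ x * c ≠ c * x) ∧ (a * x = x * a ↔ True)}.ncard ≤ 2 := by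
    refine le_trans (Set.ncard_le_ncard (t := {a, a * d}) fun x hx => ?_) (pair_le _ _)
    exact sp H hnp hx.1.1 ha.co (hx.2.2 trivial).symm
  obtain ⟨g1, a1, b1, U1, c1, d1, e1⟩ := step H hc m0 (ε := True)
    (U := {x | (Co D x d ∧ x * c ≠ c * x) ∧ (a * x = x * a ↔ True)}) (fun _ => Iff.rfl)
    ⟨a, ⟨ha.co, na⟩, by simp⟩ (by omega)
  have m1 := mul_mem (inv_mem m0) (M_conj hD b1 m0)
  have k1 : a⁻¹ * (g1 * a * g1⁻¹) * c = c * (a⁻¹ * (g1 * a * g1⁻¹)) := by
    rw [alt_iff dd (M_comm (M_conj hD b1 m0)) (M_alt H hc.r (inv_mem m0) (M_mem hc))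
      (M_alt H hc.r (M_conj hD b1 m0) (M_mem hc)), inv_eq hD ha.co.l]
    refine iff_of_false na fun e => na ?_
    have g4 := M_comm a1
    calc a * c = g1⁻¹ * (g1 * a * g1⁻¹ * (g1 * c * g1⁻¹)) * g1 := by group
      _ = g1⁻¹ * (g1 * c * g1⁻¹ * (g1 * a * g1⁻¹)) * g1 := by rw [g4, mul_inv_cancel_right, e]
      _ = _ := by group
  generalize a⁻¹ * (g1 * a * g1⁻¹) = n1 at *
  obtain ⟨g2, a2, b2, U2, c2, d2, e2⟩ := step H hc m1 e1 c1 (by omega)
  have m2 := mul_mem (inv_mem m1) (M_conj hD b2 m1)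
  have k2 : n1⁻¹ * (g2 * n1 * g2⁻¹) ∈ M D c := by
    have := M_conj hD (g := n1⁻¹) (d := c)
      (by rw [inv_mul_eq_iff_eq_mul, ← mul_assoc, k1, mul_inv_cancel_right]) a2
    have := mul_mem this (inv_mem a2)
    rwa [inv_inv, mul_assoc, mul_assoc, ← mul_assoc g2] at this
  generalize n1⁻¹ * (g2 * n1 * g2⁻¹) = n2 at *
  obtain ⟨g3, a3, b3, U3, c3, d3, e3⟩ := step H hc m2 e2 c2 (by omega)
  rcases M_alt H hc.l a3 k2 with e | e
  · obtain ⟨x, hx⟩ := c3
    rw [e3, e, mul_inv_cancel_right, inv_mul_cancel, one_mul, mul_one] at hx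
    exact hx.2.1 rfl
  · rw [e, mul_assoc n2, ← M_comm a3 |>.symm, mul_assoc n2, mul_inv_cancel_right,
      inv_mul_cancel_left] at e3
    have := Set.ncard_le_ncard (s := {a | Co D a d ∧ a * c ≠ c * a}) (t := U3)
      fun x hx => (e3 x).2 ⟨hx, iff_of_false (Ne.symm hx.2) id⟩
    omega

theorem card_rank_two (hd : d ∈ D) : Nat.card (closure (commutingMembers D d)) ≤ 2 ^ 10 := by
  have hD := H.nc.rt
  obtain ⟨c, -, hc, -⟩ := exists_co H.nc H.fo hd
  have h1 := card_A H hnp hc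
  have s1 : {a | Co D a d} ⊆ {a | Co D a d ∧ a * c ≠ c * a} ∪ {c, c * d} := fun a ha => by
    by_cases e : a * c = c * a
    · exact .inr (sp H hnp ha hc e)
    · exact .inl ⟨ha, e⟩
  have s2 := Set.ncard_le_ncard s1
  have s3 := Set.ncard_union_le {a | Co D a d ∧ a * c ≠ c * a} {c, c * d}
  have s4 := pair_le c (c * d)
  obtain ⟨K, -, k2, k3, k4⟩ := card_closure H hd hc 9 {a | Co D a d} (fun _ h => h)
    (fun a ha => Co.mul_r hD ha) (by omega)
  refine le_trans (card_le_of_le ((closure_le _).2 fun e he => ?_)) k4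
  by_cases h : e = d
  · exact h ▸ k2
  · exact k3 (hnp e he.1 d hd he.2 h)

omit hnp H in
/-- the exceptional case of the root involution theorem -/
theorem exc (H : NC D) (hfo : ∃ a ∈ D, ∃ b ∈ D, Fo a b) (h2 : ∀ a ∈ D, ∀ b ∈ D, Ee D a b → a = b)
    (hconn : IsConnectedSet (CommAdj D) D) (h : ∃ a ∈ D, ∃ b ∈ D, Od a b ∧ orderOf (a * b) ≠ 3) :
    ∀ d ∈ D, Nat.card (closure (commutingMembers D d)) ≤ 2 ^ 10 := by
  have H' : HX D := ⟨H, hfo, h2⟩
  refine fun d hd => card_rank_two H' (fun w hw d hd h1 h2 => by_contra fun h3 => ?_) hd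
  obtain ⟨a, ha, b, hb, ho, hn⟩ := h
  exact hn (all_three H' hconn hw hd h1 h2 h3 ha hb ho)

end Cfsg.Agent.H7.RX
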