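import Cfsg.Agent.H7.RT8
import Cfsg.Agent.H7.RX2
import Cfsg.Agent.H8.ZS4

/-! The root involution theorem: assembly modulo two hypotheses on the non-degenerate case. -/

set_option autoImplicit false
set_option linter.style.haveILetI false

namespace Cfsg.Agent.H7.RX

open Cfsg.Agent.H8 RI RS Subgroup
open scoped commutatorElement

variable {G : Type*} [Group G] {D : Set G} {a b c d e k : G}

theorem mem_sc : b ∈ sameCommutingClass D a ↔ b ∈ D ∧ Ee D a b :=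
  and_congr_right fun _ => by
    simp only [commutingMembers, Set.ext_iff, Set.mem_ofPred_eq, and_congr_right_iff, Ee]

theorem twoZ_bot (hO : pCore 2 G = ⊥) (hZ : center G = ⊥) : twoZCore G = ⊥ := by
  refine eq_bot_iff.2 fun x hx => hZ ▸ mem_center_iff.2 fun g => ?_
  have := mem_center_iff.1 (mem_comap.1 hx) (g : G ⧸ pCore 2 G)
  rw [QuotientGroup.mk'_apply, ← QuotientGroup.mk_mul, ← QuotientGroup.mk_mul, QuotientGroup.eq, hO,
    mem_bot, inv_mul_eq_one] at this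
  exact this

variable [Finite G] (H : NC D) (hE : ∀ a ∈ D, ∀ b ∈ D, Ee D a b → a ≠ b → a * b ∈ D)
include H hE

theorem mem_E (ha : a ∈ D) : k ∈ sameCommutingSubgroup D a ↔ E1 D a k := by
  refine ⟨fun h => ?_, ?_⟩
  · induction h using closure_induction'' with
    | one => exact .inl rfl
    | mem x hx => exact .inr ⟨hx.1, (mem_sc.1 hx).2.symm⟩
    | inv_mem x hx => rw [inv_eq H.rt hx.1]; exact .inr ⟨hx.1, (mem_sc.1 hx).2.symm⟩
    | mul x y _ _ h1 h2 => exact h1.mul H hE h2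
  · rintro (rfl | h)
    exacts [one_mem _, subset_closure (mem_sc.2 ⟨h.1, h.2.symm⟩)]

theorem coe_E (ha : a ∈ D) : (sameCommutingSubgroup D a : Set G) = sameCommutingClass D a ∪ {1} := by
  ext k
  rw [SetLike.mem_coe, mem_E H hE ha, Set.mem_union, Set.mem_singleton_iff, mem_sc, E1, or_comm]
  exact or_congr_left (and_congr_right fun _ => ⟨Ee.symm, Ee.symm⟩)

variable (hfo : ∃ a ∈ D, ∃ b ∈ D, Fo a b)
include hfo

theorem K_ee {a' b' : G} (ha : a ∈ D) (hb : b ∈ D) (h : Fo a b) (ha' : a' ∈ D) (hb' : b' ∈ D)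
    (h1 : Ee D a a') (h2 : Ee D b b') : Fo a' b' ∧ Ee D (K a' b') (K a b) := by
  have hD := H.rt
  have f := (h2.fo hD hb hb' ha' (h1.fo hD ha ha' hb h).symm).symm
  have n := h.not_comm hD ha hb
  have c1 := co_l hD ha hb h
  have c2 := co_r hD ha hb h
  exact ⟨f, thmA H hE hfo (col H hE c1 (fun e => n ((e b hb).1 c2.c.symm).symm) ha' h1).symm
    (col H hE c2 (fun e => n ((e a ha).1 c1.c.symm)) hb' h2).symm f⟩

theorem comm_E {a' b' : G} (ha : a ∈ D) (hb : b ∈ D) (h : Fo a b) (h1 : a' ∈ sameCommutingSubgroup D a)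
    (h2 : b' ∈ sameCommutingSubgroup D b) :
    a' * b' * a'⁻¹ * b'⁻¹ ∈ sameCommutingSubgroup D (K a b) := by
  have hD := H.rt
  rcases (mem_E H hE ha).1 h1 with rfl | h1
  · simp
  rcases (mem_E H hE hb).1 h2 with rfl | h2
  · simp
  have := K_ee H hE hfo ha hb h h1.1 h2.1 h1.2.symm h2.2.symm
  rw [inv_eq hD h1.1, inv_eq hD h2.1, mul_assoc (a' * b')]
  exact (mem_E H hE (co_l hD ha hb h).l).2 (.inr ⟨(co_l hD h1.1 h2.1 this.1).l, this.2⟩)

theorem surj_E {b' : G} (ha : a ∈ D) (hb : b ∈ D) (h : Fo a b) (h2 : b' ∈ sameCommutingSubgroup D b)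
    (hn : b' ≠ 1) (hk : k ∈ sameCommutingSubgroup D (K a b)) :
    ∃ a' ∈ sameCommutingSubgroup D a, a' * b' * a'⁻¹ * b'⁻¹ = k ∧ b' * a' * b'⁻¹ * a'⁻¹ = k := by
  have hD := H.rt
  have h2 := ((mem_E H hE hb).1 h2).resolve_left hn
  rcases (mem_E H hE (co_l hD ha hb h).l).1 hk with rfl | hk
  · exact ⟨1, one_mem _, by simp, by simp⟩
  have := K_ee H hE hfo ha hb h ha h2.1 (Ee.refl _) h2.2.symm
  obtain ⟨g, hg, e1, e2⟩ := K_surj H hE (thmA H hE hfo) ha h2.1 this.1 hk.1 (this.2.trans hk.2.symm)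
  refine ⟨g, (mem_E H hE ha).2 (.inr ⟨hg, e1.symm⟩), ?_, ?_⟩
  · rw [inv_eq hD hg, inv_eq hD h2.1, mul_assoc (g * b')]
    exact e2
  · rw [inv_eq hD hg, inv_eq hD h2.1, mul_assoc (b' * g)]
    exact (K_swap hD hg h2.1 fun o => o.not_fo (e1.fo hD ha hg h2.1 this.1)).trans e2

theorem rcc (hd : d ∈ D) (ha : a ∈ D) (hb : b ∈ D) (h : Fo a b) :
    RootCommutatorCase {A | ∃ g : G, A = conjBy (sameCommutingSubgroup D d) g}
      (sameCommutingSubgroup D a) (sameCommutingSubgroup D b) := by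
  have hD := H.rt
  have c1 := co_l hD ha hb h
  have c2 := co_r hD ha hb h
  have sw := K_swap hD ha hb fun o => o.not_fo h
  have e : ⁅sameCommutingSubgroup D a, sameCommutingSubgroup D b⁆ = sameCommutingSubgroup D (K a b) := by
    refine le_antisymm (commutator_le.2 fun x hx y hy => comm_E H hE hfo ha hb h hx hy) fun k hk => ?_
    have mb : b ∈ sameCommutingSubgroup D b := subset_closure ⟨hb, rfl⟩
    obtain ⟨a', h1, rfl, -⟩ := surj_E H hE hfo ha hb h mb (RI.ne_one hD hb) hk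
    exact commutator_mem_commutator h1 mb
  rw [RootCommutatorCase, e]
  refine ⟨?_, fun c hc x hx => ?_, fun a' h1 hn => le_antisymm ((closure_le _).2 ?_) fun k hk => ?_,
    fun b' h1 hn => le_antisymm ((closure_le _).2 ?_) fun k hk => ?_⟩
  · obtain ⟨g, e⟩ := H.cl d hd _ c1.l
    exact ⟨g, by rw [RT.E_conj hD, e]⟩
  · have : sameCommutingSubgroup D a ⊔ sameCommutingSubgroup D b ≤ centralizer {c} :=
      sup_le (fun y hy => mem_centralizer_singleton_iff.2 (RT.E_comm c1.l ha c1.c c hc y hy).symm)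
        fun y hy => mem_centralizer_singleton_iff.2 (RT.E_comm c1.l hb c2.c c hc y hy).symm
    exact (mem_centralizer_singleton_iff.1 (this hx)).symm
  · rintro _ ⟨y, hy, rfl⟩
    exact comm_E H hE hfo ha hb h h1 hy
  · obtain ⟨b', h2, -, rfl⟩ := surj_E H hE hfo hb ha h.symm h1 hn (sw ▸ hk)
    exact subset_closure ⟨b', h2, rfl⟩
  · rintro _ ⟨y, hy, rfl⟩
    exact comm_E H hE hfo ha hb h hy h1
  · obtain ⟨a', h2, rfl, -⟩ := surj_E H hE hfo ha hb h h1 hn hk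
    exact subset_closure ⟨a', h2, rfl⟩

omit H hE hfo in
theorem exists_od (hcl : IsRootInvolutionClass D) (hO : pCore 2 G = ⊥) :
    ∃ a ∈ D, ∃ b ∈ D, a ≠ b ∧ Odd (orderOf (a * b)) := by
  by_contra hn
  obtain ⟨d, hd⟩ := hcl.2.1
  have := isPGroup_closure hcl.1 (T := D) le_rfl (fun a ha b hb => conj_mem hcl.1 hb ha)
    fun a ha b hb o => hn ⟨a, ha, b, hb, o⟩
  have h1 := RT.eq_bot_of_two hO this (by rw [hcl.1.generates]; exact le_normalizer)
  exact RI.ne_one hcl.1 hd (mem_bot.1 (h1 ▸ subset_closure hd))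

omit H hE hfo in
theorem nc_of (hcl : IsRootInvolutionClass D) (hO : pCore 2 G = ⊥) : NC D :=
  ⟨hcl.1, hcl.2.2, fun _ => ZD.ni_of_nd hcl.1 hcl.2.2 (exists_od hcl hO)⟩

omit H hE hfo in
/-- The root involution theorem, modulo `H1` and `H2`. -/
theorem asm (hcl : IsRootInvolutionClass D) (hO : pCore 2 G = ⊥) (hZ : center G = ⊥)
    (hDD : (D ∩ commutingProducts D).Nonempty)
    (H1 : (∃ a ∈ D, ∃ b ∈ D, Fo a b) → ∀ a ∈ D, ∀ b ∈ D, Ee D a b → a ≠ b → a * b ∈ D)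
    (H2 : (∃ a ∈ D, ∃ b ∈ D, Fo a b) → (∃ a ∈ D, ∃ b ∈ D, Ee D a b ∧ a ≠ b) → ∀ a ∈ D, ∀ b ∈ D,
      Od a b → ∀ (k : Type) [Field k] [Fintype k],
        Fintype.card k = Nat.card (sameCommutingSubgroup D a) →
        IsPSL2PairOver k (sameCommutingSubgroup D a) (sameCommutingSubgroup D b)) :
    (¬ Cfsg.IsConnectedSet (Cfsg.CommAdj D) D ∧
      ((∃ (F : Type) (_ : Field F) (_ : Fintype F), CharP F 2 ∧ 4 ≤ Fintype.card F ∧
          Nonempty (G ≃* Matrix.ProjectiveSpecialLinearGroup (Fin 2) F)) ∨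
        Cfsg.Lie.IsoSuzuki G ∨
        (∃ (F : Type) (_ : Field F) (_ : Fintype F) (q : ℕ), CharP F 2 ∧ Fintype.card F = q ^ 2 ∧ 4 ≤ q ∧
          Nonempty (G ≃* Cfsg.PSU 3 F q)))) ∨
    (Cfsg.IsConnectedSet (Cfsg.CommAdj D) D ∧
      (∀ d ∈ D, (Cfsg.sameCommutingSubgroup D d : Set G) = Cfsg.sameCommutingClass D d ∪ {1}) ∧
      ((∀ d ∈ D, ∃ (F : Type) (_ : Field F) (_ : Fintype F),
          Fintype.card F = Nat.card ↥(Cfsg.sameCommutingSubgroup D d) ∧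
          Cfsg.IsKRootSubgroupSet F {A : Subgroup G | ∃ g : G, A = Cfsg.conjBy (Cfsg.sameCommutingSubgroup D d) g} ∧
          Cfsg.IsConjClassOfSubgroups {A : Subgroup G | ∃ g : G, A = Cfsg.conjBy (Cfsg.sameCommutingSubgroup D d) g}) ∨
       (Cfsg.IsNondegenerateRootInvolutionSet D ∧ ∀ d ∈ D, Nat.card ↥(Cfsg.sameCommutingSubgroup D d) = 2 ∧
          Nat.card ↥(Subgroup.closure (Cfsg.commutingMembers D d)) ≤ 2 ^ 10))) := by
  have hD := hcl.1
  by_cases hc : IsConnectedSet (CommAdj D) D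
  swap
  · exact .inl ⟨hc, ((ZD.s5044 ZS.coreStep hD hDD).resolve_left hc).of_equiv
      ((QuotientGroup.quotientMulEquivOfEq (twoZ_bot hO hZ)).trans QuotientGroup.quotientBot).symm⟩
  refine .inr ⟨hc, ?_⟩
  by_cases hfo : ∃ a ∈ D, ∃ b ∈ D, Fo a b
  swap
  · exact (RT.degen ⟨hD, fun a ha b hb e => hfo ⟨a, ha, b, hb, e⟩⟩ hcl hO hZ hDD hc).imp_right .inl
  have H := nc_of hcl hO
  have hE := H1 hfo
  refine ⟨fun d hd => coe_E H hE hd, ?_⟩
  have fld : ∀ d ∈ D, ∃ (F : Type) (_ : Field F) (_ : Fintype F),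
      Fintype.card F = Nat.card (sameCommutingSubgroup D d) := fun d hd => by
    haveI : Fact (Nat.Prime 2) := ⟨Nat.prime_two⟩
    obtain ⟨n, hn⟩ := IsPGroup.iff_card.1 (RT.E_two hD hd)
    have h0 : n ≠ 0 := fun e => by
      rw [e, pow_zero, card_eq_one] at hn
      exact RI.ne_one hD hd (mem_bot.1 (hn ▸ (subset_closure ⟨hd, rfl⟩ : d ∈ sameCommutingSubgroup D d)))
    haveI := Fintype.ofFinite (GaloisField 2 n)
    exact ⟨GaloisField 2 n, inferInstance, inferInstance, by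
      rw [← Nat.card_eq_fintype_card, GaloisField.card 2 n h0, hn]⟩
  by_cases h2 : ∃ a ∈ D, ∃ b ∈ D, Ee D a b ∧ a ≠ b
  · refine .inl fun d hd => ?_
    obtain ⟨F, _, _, hF⟩ := fld d hd
    exact ⟨F, _, _, hF, RT.kroot_of hcl hd (fun a ha b hb o => H2 hfo h2 a ha b hb o F
      (hF.trans (RT.card_E hcl ha hd))) fun a ha b hb f => rcc H hE hfo hd ha hb f⟩
  have h2' : ∀ a ∈ D, ∀ b ∈ D, Ee D a b → a = b := fun a ha b hb e =>
    by_contra fun n => h2 ⟨a, ha, b, hb, e, n⟩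
  have c2 : ∀ d ∈ D, Nat.card (sameCommutingSubgroup D d) = 2 := fun d hd => by
    have : sameCommutingClass D d = {d} := Set.ext fun e =>
      ⟨fun h => (h2' d hd e h.1 (mem_sc.1 h).2).symm, fun h => by rw [Set.mem_singleton_iff.1 h]; exact ⟨hd, rfl⟩⟩
    rw [sameCommutingSubgroup, this, ← zpowers_eq_closure, Nat.card_zpowers, hD.orderOf_eq d hd]
  by_cases h3 : ∃ a ∈ D, ∃ b ∈ D, Od a b ∧ orderOf (a * b) ≠ 3
  · refine .inr ⟨⟨hD, ?_, exists_od hcl hO, hfo⟩, fun d hd => ⟨c2 d hd, exc H hfo h2' hc h3 d hd⟩⟩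
    obtain ⟨a, ha, b, hb, h⟩ := hfo
    have := co_l hD ha hb h
    exact ⟨_, this.l, _, this.r, this.ne hD, this.c⟩
  · refine .inl fun d hd => ?_
    obtain ⟨F, _, _, hF⟩ := fld d hd
    exact ⟨F, _, _, hF, RT.kroot_of hcl hd (fun a ha b hb o => RT.psl2Pair_two hD ha hb
      (by_contra fun n => h3 ⟨a, ha, b, hb, o, n⟩) (hF.trans (c2 d hd)) (c2 a ha) (c2 b hb))
      fun a ha b hb f => rcc H hE hfo hd ha hb f⟩

end Cfsg.Agent.H7.RX
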