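import Cfsg.Agent.H7.RN

/-! Root involutions, non-degenerate case: basic commutator calculus and the case of rank at least three. -/

set_option autoImplicit false

namespace Cfsg.Agent.H7.RX

open Cfsg.Agent.H8 RI RS Subgroup
open scoped commutatorElement

variable {G : Type*} [Group G] {D : Set G} {a b c d e f g h k m n p q r s t u v w x y z κ ε : G}

local notation "𝐄" => sameCommutingSubgroup

structure HQ (D : Set G) : Prop where
  nc : NC D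
  hE : ∀ a ∈ D, ∀ b ∈ D, Ee D a b → a ≠ b → a * b ∈ D
  fo : ∃ a ∈ D, ∃ b ∈ D, Fo a b

theorem E_eq (h : Ee D a b) : 𝐄 D a = 𝐄 D b :=
  congrArg Subgroup.closure (Set.ext fun _ => by
    rw [mem_sc, mem_sc]; exact and_congr_right fun _ => ⟨h.symm.trans, h.trans⟩)

theorem E_cj (hD : IsRootInvolutionSet D) (hκ : κ ∈ 𝐄 D a) (g : G) : g * κ * g⁻¹ ∈ 𝐄 D (g * a * g⁻¹) :=
  RT.E_conj hD a g ▸ ⟨κ, hκ, rfl⟩

theorem M_cj (hD : IsRootInvolutionSet D) (hn : n ∈ M D d) (g : G) : g * n * g⁻¹ ∈ M D (g * d * g⁻¹) := by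
  induction hn using closure_induction with
  | mem x hx => exact M_mem (Co.conj hD hx g)
  | one => simp
  | mul x y _ _ h1 h2 => rw [← conj_mul]; exact mul_mem h1 h2
  | inv x _ h1 => rw [← conj_inv]; exact inv_mem h1

theorem EM_cm (hκ : κ ∈ 𝐄 D d) (hn : n ∈ M D d) : κ * n = n * κ := by
  have : M D d ≤ centralizer {κ} := (closure_le _).2 fun e he =>
    mem_centralizer_singleton_iff.2 (E_cm hκ he.l he.c).symm
  exact (mem_centralizer_singleton_iff.1 (this hn)).symm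

theorem EE_cm (ha : a ∈ D) (hb : b ∈ D) (h : a * b = b * a) (h1 : κ ∈ 𝐄 D a) (h2 : ε ∈ 𝐄 D b) :
    κ * ε = ε * κ := RT.E_comm ha hb h κ h1 ε h2

theorem cm_iff : ⁅a, b⁆ = 1 ↔ a * b = b * a := commutatorElement_eq_one_iff_mul_comm

theorem cj_eq (a b : G) : a * b * a⁻¹ = ⁅a, b⁆ * b := by rw [commutatorElement_def]; group

theorem cm_cj (g a b : G) : ⁅g * a * g⁻¹, g * b * g⁻¹⁆ = g * ⁅a, b⁆ * g⁻¹ := by
  simp only [commutatorElement_def]; group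

theorem K_eq (aa : a * a = 1) (bb : b * b = 1) : K a b = ⁅a, b⁆ := by
  rw [commutatorElement_def, inv_eq_of_mul_eq_one_left aa, inv_eq_of_mul_eq_one_left bb, K,
    mul_assoc (a * b)]

theorem comm_cj (h : a * b = b * a) (g : G) :
    g * a * g⁻¹ * (g * b * g⁻¹) = g * b * g⁻¹ * (g * a * g⁻¹) := by rw [conj_mul, conj_mul, h]

theorem cj_of_comm (h : g * a = a * g) : g * a * g⁻¹ = a := by rw [h, mul_inv_cancel_right]

theorem comm_inv (h : x * a = a * x) : x * a⁻¹ = a⁻¹ * x := (Commute.inv_right h : _)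

theorem not_od_one (hD : IsRootInvolutionSet D) (hf : f ∈ D) : ¬ Od 1 f := fun o => by
  have := o.2
  rw [one_mul, hD.orderOf_eq f hf] at this
  exact absurd this (by decide)

namespace HQ

variable [Finite G] (H : HQ D)
include H

omit [Finite G] in
theorem rt : IsRootInvolutionSet D := H.nc.rt

theorem mE (ha : a ∈ D) (hκ : κ ∈ 𝐄 D a) (h1 : κ ≠ 1) : κ ∈ D ∧ Ee D κ a :=
  ((mem_E H.nc H.hE ha).1 hκ).resolve_left h1

theorem E_sq (ha : a ∈ D) (hκ : κ ∈ 𝐄 D a) : κ * κ = 1 := by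
  by_cases e : κ = 1
  · rw [e, mul_one]
  · exact sq H.rt (H.mE ha hκ e).1

theorem E_inv (ha : a ∈ D) (hκ : κ ∈ 𝐄 D a) : κ⁻¹ = κ := inv_eq_of_mul_eq_one_left (H.E_sq ha hκ)

theorem E_inf (ha : a ∈ D) (hb : b ∈ D) (hn : ¬ Ee D a b) (h1 : κ ∈ 𝐄 D a) (h2 : κ ∈ 𝐄 D b) : κ = 1 :=
  by_contra fun e => hn ((H.mE ha h1 e).2.symm.trans (H.mE hb h2 e).2)

theorem E_one (ha : a ∈ D) (hb : b ∈ D) (hn : a * b ≠ b * a) (h1 : κ ∈ 𝐄 D a) (h2 : κ * b = b * κ) :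
    κ = 1 := by_contra fun e => hn (((H.mE ha h1 e).2 b hb).1 h2.symm).symm

theorem KE (ha : Co D a d) (hb : Co D b d) : ⁅a, b⁆ ∈ 𝐄 D d := by
  rw [← K_eq (sq H.rt ha.l) (sq H.rt hb.l)]
  exact (mem_E H.nc H.hE ha.r).2 (thmA' H.nc H.hE H.fo ha hb)

theorem fo_co (ha : Co D a d) (hb : Co D b d) (hn : a * b ≠ b * a) : Fo a b :=
  fo_of H.rt ha.l hb.l (ha.nod H.rt hb.l hb.c) hn

theorem K_ee' (ha : Co D a d) (hb : Co D b d) (hn : a * b ≠ b * a) : Ee D (K a b) d :=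
  thmA H.nc H.hE H.fo ha hb (H.fo_co ha hb hn)

theorem coE (hp : Co D p e) (hn : ¬ Ee D p e) (hε : ε ∈ 𝐄 D e) : Co D (p * ε) e := by
  have k : ∀ ε ∈ 𝐄 D e, p * ε ∈ D := fun ε hε => by
    by_cases e1 : ε = 1
    · rw [e1, mul_one]; exact hp.l
    · exact (col H.nc H.hE hp hn (H.mE hp.r hε e1).1 (H.mE hp.r hε e1).2.symm).m
  exact co_of H.rt (k ε hε) hp.r (by rw [mul_assoc]; exact k _ (mul_mem hε (E_self hp.r)))

theorem co_l' (hp : Co D p e) (hn : ¬ Ee D p e) (hq : q ∈ D) (h : Ee D p q) : Co D q e :=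
  (col H.nc H.hE hp.symm (fun e => hn e.symm) hq h).symm

theorem self_M (hd : d ∈ D) : d ∈ M D d := by
  obtain ⟨c, -, hc, -⟩ := exists_co H.nc H.fo hd
  have := mul_mem (M_mem hc) (M_mem (hc.mul_r H.rt))
  rwa [ii (sq H.rt hc.l)] at this

theorem E_M (hd : d ∈ D) (hκ : κ ∈ 𝐄 D d) : κ ∈ M D d := by
  have : 𝐄 D d ≤ M D d := (closure_le _).2 fun e he => by
    by_cases e1 : e = d
    · rw [e1]; exact H.self_M hd
    · exact M_mem (co_of H.rt he.1 hd (H.hE e he.1 d hd (mem_sc.1 he).2.symm e1))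
  exact this hκ

theorem M_ee (ha : a ∈ D) (hb : b ∈ D) (h : Ee D a b) (hn : n ∈ M D a) : n ∈ M D b := by
  have : M D a ≤ M D b := (closure_le _).2 fun e he =>
    (col' H.nc H.hE he hb h).elim (fun e1 => by rw [e1]; exact H.self_M hb) M_mem
  exact this hn

theorem E_M' (hp : Co D p e) (hκ : κ ∈ 𝐄 D p) : κ ∈ M D e := by
  by_cases e1 : κ = 1
  · exact e1 ▸ one_mem _
  have := H.mE hp.l hκ e1
  exact (col' H.nc H.hE hp.symm this.1 this.2.symm).elim (fun e => e ▸ H.self_M hp.r)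
    fun e => M_mem e.symm

theorem M_cE (hd : d ∈ D) (hn : n ∈ M D d) (hm : m ∈ M D d) : ⁅n, m⁆ ∈ 𝐄 D d := by
  have k : ∀ a ∈ M D d, (∀ b, Co D b d → ⁅a, b⁆ ∈ 𝐄 D d) → ∀ b ∈ M D d, ⁅a, b⁆ ∈ 𝐄 D d :=
    fun a ha h b hb => by
      induction hb using closure_induction'' with
      | one => simp
      | mem x hx => exact h x hx
      | inv_mem x hx => rw [inv_eq H.rt hx.l]; exact h x hx
      | mul x y hx _ h1 h2 =>
        have := mul_mem h1 h2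
        rwa [← cj_of_comm (EM_cm h2 hx).symm, show ⁅a, x⁆ * (x * ⁅a, y⁆ * x⁻¹) = ⁅a, x * y⁆ by
          simp only [commutatorElement_def]; group] at this
  refine k n hn (fun b hb => ?_) m hm
  rw [← commutatorElement_inv]
  exact inv_mem (k b (M_mem hb) (fun c hc => H.KE hb hc) n hn)

theorem cm_mul_l (hd : d ∈ D) (hu : u ∈ M D d) (hv : v ∈ M D d) (hw : w ∈ M D d) :
    ⁅u * v, w⁆ = ⁅u, w⁆ * ⁅v, w⁆ := by
  rw [EE_cm hd hd rfl (H.M_cE hd hu hw) (H.M_cE hd hv hw),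
    ← cj_of_comm (EM_cm (H.M_cE hd hv hw) hu).symm]
  simp only [commutatorElement_def]; group

theorem cm_mul_r (hd : d ∈ D) (hu : u ∈ M D d) (hv : v ∈ M D d) (hw : w ∈ M D d) :
    ⁅w, u * v⁆ = ⁅w, u⁆ * ⁅w, v⁆ := by
  rw [← cj_of_comm (EM_cm (H.M_cE hd hw hv) hu).symm]
  simp only [commutatorElement_def]; group

theorem cm_swap (hd : d ∈ D) (hu : u ∈ M D d) (hv : v ∈ M D d) : ⁅u, v⁆ = ⁅v, u⁆ := by
  rw [← commutatorElement_inv, H.E_inv hd (H.M_cE hd hv hu)]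

theorem M_sq (hd : d ∈ D) (hn : n ∈ M D d) : n * n ∈ 𝐄 D d := by
  induction hn using closure_induction'' with
  | one => simp
  | mem x hx => rw [sq H.rt hx.l]; exact one_mem _
  | inv_mem x hx => rw [inv_eq H.rt hx.l, sq H.rt hx.l]; exact one_mem _
  | mul x y hx hy h1 h2 =>
    have := mul_mem (mul_mem h1 (H.M_cE hd (inv_mem hx) hy)) h2
    rwa [show x * x * ⁅x⁻¹, y⁆ * (y * y) = x * y * (x * y) by
      simp only [commutatorElement_def]; group] at this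

theorem cE (ha : Co D a p) (hn : ¬ Ee D a p) (hv : v ∈ M D p) (h : v * a = a * v) (hκ : κ ∈ 𝐄 D a) :
    v * κ = κ * v := by
  have h1 := E_cj H.rt hκ v
  rw [cj_of_comm h] at h1
  exact cm_iff.1 (H.E_inf ha.l ha.r hn (mul_mem h1 (inv_mem hκ)) (H.M_cE ha.r hv (H.E_M' ha hκ)))

theorem surj (ha : Co D a d) (hb : Co D b d) (hn : a * b ≠ b * a) (hκ : κ ∈ 𝐄 D d) :
    ∃ a' ∈ 𝐄 D a, ⁅a', b⁆ = κ ∧ ⁅b, a'⁆ = κ :=
  surj_E H.nc H.hE H.fo ha.l hb.l (H.fo_co ha hb hn) (E_self hb.l) (RI.ne_one H.rt hb.l)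
    (E_eq (H.K_ee' ha hb hn) ▸ hκ)

theorem chi (ha : Co D a p) (hb : Co D b p) (hn : a * b ≠ b * a) (hu : u ∈ M D p) :
    ∃ b' ∈ 𝐄 D b, u * b' * a = a * (u * b') := by
  obtain ⟨b', h1, h2, -⟩ := H.surj hb ha hn.symm (H.M_cE ha.r hu (M_mem ha))
  refine ⟨b', h1, cm_iff.1 ?_⟩
  rw [H.cm_mul_l ha.r hu (H.E_M' hb h1) (M_mem ha), h2, H.E_sq ha.r (H.M_cE ha.r hu (M_mem ha))]

theorem co_mul' (hp : Co D p e) (hq : Co D q e) (h : Co D p q) (hn : p * q ≠ e) : Co D (p * q) e := by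
  refine (gam H.nc H.hE H.fo hp (h.mul_l H.rt).symm ?_).resolve_left hn
  rwa [ii (sq H.rt hp.l)]

/-- every point lies in a plane -/
def Pl (D : Set G) : Prop := ∀ e ∈ D, ∃ p q, Co D p e ∧ Co D q e ∧ Co D p q ∧ ¬ Ee D p e ∧ ¬ Ee D q e ∧
  ¬ Ee D p q ∧ ∀ q' ∈ D, Ee D q q' → ¬ Ee D (p * q') e

theorem polar (hw : w ∈ D) (hd : d ∈ D) (h1 : w * d = d * w) (h2 : w ≠ d) (h3 : ¬ Co D w d) : Pl D := by
  have hD := H.rt
  obtain ⟨e, he, hn⟩ : ∃ e, Co D e d ∧ e * w ≠ w * e := by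
    by_contra hn
    push Not at hn
    exact h3 (co_of hD hw hd (H.hE _ hw _ hd (tT H.nc H.fo hw hd hn) h2))
  have hf := fo_of hD he.l hw (he.nod hD hw h1) hn
  have e1 := conj_K (sq hD he.l) w
  have e2 : w * d * w = d := conj_of_comm (sq hD hw) h1
  have c1 : Co D (e * K e w) d := by
    have := he.conj hD w
    rwa [inv_eq hD hw, e1, e2] at this
  have c2 := co_l hD he.l hw hf
  have c3 := co_r hD he.l hw hf
  have n1 : ¬ Ee D (K e w) d := fun e => (col' H.nc H.hE c3.symm hd e).elim h2 h3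
  have c4 := (gam H.nc H.hE H.fo he c2.symm c1).resolve_left fun e => n1 (by rw [e]; exact Ee.refl _)
  intro x hx
  obtain ⟨g, rfl⟩ := H.nc.cl d hd x hx
  have k : ∀ {a b}, Ee D (g * a * g⁻¹) (g * b * g⁻¹) → Ee D a b := fun e => by
    simpa [mul_assoc] using e.conj hD g⁻¹
  refine ⟨_, _, he.conj hD g, c4.conj hD g, c2.symm.conj hD g, fun e => hn ((k e w hw).2 h1).symm,
    fun e => n1 (k e), fun e => hn ((k e w hw).2 c3.c.symm).symm, fun q hq e1 e2 => hn ?_⟩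
  obtain ⟨q, rfl⟩ : ∃ q', q = g * q' * g⁻¹ := ⟨g⁻¹ * q * g, by group⟩
  rw [conj_mul] at e2
  exact (comm_of_mul' ((k e1 w hw).1 c3.c.symm) ((k e2 w hw).2 h1)).symm

theorem lemB (he : e ∈ D) (hf : f ∈ D) (ho : Od e f) (hk : P D e f k) (hg : Co D g e)
    (hc : g * k = k * g) : ∃ ε ∈ 𝐄 D e, ¬ Od (g * ε) f := by
  have hD := H.rt
  by_cases n0 : Ee D g e
  · exact ⟨g, E_of hg.l n0.symm, by rw [sq hD hg.l]; exact not_od_one hD hf⟩
  have h1 := psi hD he hf ho hk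
  have c1 := co_l hD hk.1 hf hk.2.2.2
  have c2 := P_co hD he hk
  have c3 := P_co hD hf h1
  have n1 := h1.2.2.2.not_comm hD h1.1 he
  have n2 := hk.2.2.2.not_comm hD hk.1 hf
  generalize K k f = k' at *
  by_cases n3 : k' * g = g * k'
  · exact ⟨1, one_mem _, by rw [mul_one]; exact fun o => c3.symm.nod hD hg.l n3.symm o.symm⟩
  have f1 := fo_of hD c1.l hg.l (c1.nod hD hg.l hc) n3
  have m1 := co_l hD c1.l hg.l f1
  have e3 := conj_K (sq hD c1.l) g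
  generalize K k' g = m at *
  obtain ⟨κ, k1, k2, -⟩ := H.surj c1.symm c3.symm n2 (H.KE m1 c3.symm)
  obtain ⟨ε, k3, k4, -⟩ := H.surj c2.symm c1 n1.symm k1
  have hge := H.coE hg n0 k3
  refine ⟨ε, k3, ?_⟩
  have e4 : g * ε * k' * (g * ε) = k' * (m * κ) := by
    have e5 := cj_eq ε k'
    rw [k4, H.E_inv he k3] at e5
    calc g * ε * k' * (g * ε) = g * (ε * k' * ε) * g := by
          rw [← E_cm k3 hg.l hg.c]; simp only [mul_assoc, cc (E_cm k3 hg.l hg.c)]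
      _ = g * k' * g * κ := by
          rw [e5, E_cm k1 c1.l c1.c]; simp only [mul_assoc, E_cm k1 hg.l hc]
      _ = _ := by rw [e3, mul_assoc]
  have e5 : m * κ * f = f * (m * κ) := cm_iff.1 (by
    rw [H.cm_mul_l c1.l (M_mem m1) (H.E_M' c1.symm k1) (M_mem c3.symm), k2,
      H.E_sq c1.l (H.KE m1 c3.symm)])
  by_cases n4 : k' * (g * ε) = g * ε * k'
  · exact fun o => c3.symm.nod hD hge.l n4.symm o.symm
  have m4 := co_r hD c1.l hge.l (fo_of hD c1.l hge.l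
    (c1.nod hD hge.l (comm_mul hc.symm (E_cm k3 hk.1 c2.c).symm).symm) n4)
  rw [K_of_conj (sq hD c1.l) e4] at m4
  exact m4.symm.nod hD hf e5.symm

theorem lemB' (hf : f ∈ D) (ho : Od e f) (hg : Co D g e) (n0 : ¬ Ee D g e) (hh : Co D h e)
    (hc : h * g = g * h) (gd : ∃ ε ∈ 𝐄 D e, ¬ Od (g * ε) f) : ∃ ε ∈ 𝐄 D e, ¬ Od (h * ε) f :=
  let ⟨_, h1, h2⟩ := gd
  H.lemB hg.r hf ho (P_of H.rt (H.coE hg n0 h1) hf ho h2) hh
    (comm_mul hc (E_cm h1 hh.l hh.c).symm)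

theorem lemC (hpl : Pl D) (hf : f ∈ D) (ho : Od e f) (hk : P D e f k) (hg : Co D g e) :
    ∃ ε ∈ 𝐄 D e, ¬ Od (g * ε) f := by
  have hD := H.rt
  obtain ⟨p, q, hp, hq, hpq, n1, n2, n3, n4⟩ := hpl e hg.r
  have key : ∀ h, Co D h e → ∃ r, Co D r e ∧ ¬ Ee D r e ∧ h * r = r * h ∧ r * p = p * r := fun h hh => by
    by_cases e1 : h * p = p * h
    · exact ⟨p, hp, n1, e1, rfl⟩
    by_cases e2 : h * q = q * h
    · exact ⟨q, hq, n2, e2, hpq.c.symm⟩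
    obtain ⟨q', k1, k2⟩ := H.chi hh hq e2 (M_mem hp)
    have k3 := H.mE hq.l k1 fun e => e1 (by rw [e, mul_one] at k2; exact k2.symm)
    have k4 := col H.nc H.hE hpq n3 k3.1 k3.2.symm
    have k5 := n4 q' k3.1 k3.2.symm
    exact ⟨_, H.co_mul' hp (H.co_l' hq n2 k3.1 k3.2.symm) k4 fun e => k5 (by rw [e]; exact Ee.refl _),
      k5, k2.symm, (k4.mul_l hD).c⟩
  obtain ⟨r, r1, r2, r3, r4⟩ := key k (P_co hD hg.r hk)
  obtain ⟨s, s1, s2, s3, s4⟩ := key g hg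
  exact H.lemB' hf ho s1 s2 hg s3 (H.lemB' hf ho hp n1 s1 s4 (H.lemB' hf ho r1 r2 hp r4.symm
    (H.lemB hg.r hf ho hk r1 r3.symm)))

theorem near_all (h : ∀ e f g k, f ∈ D → Od e f → P D e f k → Co D g e → ¬ Ee D g e → Od g f →
    ∃ p, P D g f p) (ha : a ∈ D) (hx : x ∈ D) (ho : Od a x) : ∃ k, P D a x k := by
  have hD := H.rt
  have key : ∀ b, ZD.Rp D x b → Near D x b := by
    intro b hb
    induction hb with
    | refl => exact fun o => absurd rfl o.1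
    | @tail b c _ hbc ih =>
      have hc : Co D c b := (co_of hD hbc.1 hbc.2.1 hbc.2.2.2.2).symm
      intro o
      by_cases o' : Od b x
      · obtain ⟨k, hk⟩ := ih o'
        by_cases e : Ee D c b
        · exact ⟨k, P_of hD (col H.nc H.hE (P_co hD hc.r hk) (fun e => (e.symm.od hD hc.r hk.1 hx o').not_fo
            hk.2.2.2) hc.l e.symm) hx o fun o => o.not_fo hk.2.2.2⟩
        · exact h b x c k hx o' hk hc e o
      · exact ⟨b, P_of hD hc.symm hx o o'⟩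
  exact key a (ZD.rp_conn hD H.nc.cl H.fo hx ha) ho

theorem near_pl (hpl : Pl D) (ha : a ∈ D) (hx : x ∈ D) (ho : Od a x) : ∃ k, P D a x k := by
  refine H.near_all (fun e f g k hf o hk hg n o' => ?_) ha hx ho
  obtain ⟨ε, h1, h2⟩ := H.lemC hpl hf o hk hg
  have h3 := H.mE hg.r h1 fun e => h2 (by rwa [e, mul_one])
  exact ⟨_, P_of H.rt ((col H.nc H.hE hg n h3.1 h3.2.symm).mul_l H.rt) hf o' h2⟩

end HQ

end Cfsg.Agent.H7.RX
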