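import Cfsg.Agent.H7.RB1

/-! Root involutions, non-degenerate case: geodesics and tori. -/

set_option autoImplicit false

namespace Cfsg.Agent.H7.RX

open Cfsg.Agent.H8 RI RS Subgroup
open scoped commutatorElement

variable {G : Type*} [Group G] {D : Set G}
  {a b c d e f g h k k' m n n₁ n₂ n₃ p q r s t u v w x y z κ ε : G}

local notation "𝐄" => sameCommutingSubgroup

/-- `g` fixes the point `a` -/
def Fx (D : Set G) (g a : G) : Prop := Ee D (g * a * g⁻¹) a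

/-- members of `D` interchanging the points `a` and `x` -/
def Sw (D : Set G) (a x n : G) : Prop := n ∈ D ∧ Ee D (n * a * n) x

/-- torus elements -/
def To (D : Set G) (a x h : G) : Prop := ∃ n₁ n₂, Sw D a x n₁ ∧ Sw D a x n₂ ∧ h = n₂ * n₁

structure Geo (D : Set G) (e k k' f : G) : Prop where
  c1 : Co D e k
  c2 : Co D k k'
  c3 : Co D k' f
  n1 : e * k' ≠ k' * e
  n2 : k * f ≠ f * k

theorem Geo.symm (γ : Geo D e k k' f) : Geo D f k' k e :=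
  ⟨γ.c3.symm, γ.c2.symm, γ.c1.symm, γ.n2.symm, γ.n1.symm⟩

theorem Geo.e1 (γ : Geo D e k k' f) : ¬ Ee D e k := fun h => γ.n1 ((h k' γ.c2.r).2 γ.c2.c.symm).symm
theorem Geo.e2 (γ : Geo D e k k' f) : ¬ Ee D k' k := fun h => γ.n1 ((h e γ.c1.l).2 γ.c1.c)

section

variable (hD : IsRootInvolutionSet D)
include hD

def St (a : G) : Subgroup G where
  carrier := {g | Fx D g a}
  one_mem' := by simpa [Fx] using Ee.refl a
  mul_mem' {x y} hx hy := by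
    have := (Ee.conj hD hy x).trans hx
    rwa [show x * (y * a * y⁻¹) * x⁻¹ = x * y * a * (x * y)⁻¹ by group] at this
  inv_mem' {x} hx := by
    have := (Ee.conj hD hx x⁻¹).symm
    rwa [show x⁻¹ * (x * a * x⁻¹) * x⁻¹⁻¹ = a by group] at this

theorem Fx.mul (h1 : Fx D g a) (h2 : Fx D h a) : Fx D (g * h) a := (St hD a).mul_mem h1 h2
theorem Fx.inv (h1 : Fx D g a) : Fx D g⁻¹ a := (St hD a).inv_mem h1
omit hD in
theorem Fx.of (h1 : g * a = a * g) : Fx D g a := by rw [Fx, cj_of_comm h1]; exact Ee.refl a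
theorem Fx.ee (h1 : Fx D g a) (h : Ee D a b) : Fx D g b := ((h.conj hD g).symm.trans h1).trans h
theorem Fx.E (h1 : Fx D g a) (hκ : κ ∈ 𝐄 D a) : g * κ * g⁻¹ ∈ 𝐄 D a := E_eq h1 ▸ E_cj hD hκ g
theorem Fx.cj (h1 : Fx D g a) (x : G) : Fx D (x * g * x⁻¹) (x * a * x⁻¹) := by
  have := Ee.conj hD h1 x
  rwa [show x * (g * a * g⁻¹) * x⁻¹ = x * g * x⁻¹ * (x * a * x⁻¹) * (x * g * x⁻¹)⁻¹ by group] at this

theorem od_of_cj (ha : a ∈ D) (hn : n ∈ D) (h : Od a (n * a * n)) : Od n a := by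
  rcases tri hD hn ha with e | e | e
  · rw [conj_of_comm (sq hD hn) e] at h
    exact absurd rfl h.1
  · exact e
  · refine absurd ?_ (h.not_comm hD ha (conj_mem hD ha hn))
    rw [conj_K (sq hD ha)]
    exact comm_mul rfl (co_l hD ha hn e.symm).c.symm

theorem mid_uniq (ha : a ∈ D) (h1 : n₁ ∈ D) (h2 : n₂ ∈ D) (ho : Od n₁ a)
    (h : n₁ * a * n₁ = n₂ * a * n₂) : n₁ = n₂ := by
  have s1 := sq hD h1
  have s2 := sq hD h2
  have e : n₂ * n₁ * a = a * (n₂ * n₁) := by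
    calc _ = n₂ * (n₁ * a * n₁) * n₁ := by simp only [mul_assoc, s1, mul_one]
      _ = _ := by rw [h]; simp only [mul_assoc, ii s2]
  have k : n₂ * n₁ = 1 → n₁ = n₂ := fun e => by rw [eq_inv_of_mul_eq_one_right e, inv_eq hD h2]
  rcases tri hD h2 h1 with c | c | c
  · refine k (L0 hD h1 ha ho (K_eq_one s2 s1 c |> fun _ => ?_) ?_ e ?_)
    · rw [mul_assoc, cc c.symm, ii s2, s1]
    · rw [mul_assoc, s1, mul_one, cc c.symm, s1, mul_one]
    · rwa [mul_assoc, s1, mul_one]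
  · exact k (RT.inv_cent' ho s1 c.2 (by
      rw [_root_.mul_inv_rev, inv_eq hD h1, inv_eq hD h2]; simp only [mul_assoc, s1, mul_one]) e.symm)
  · exact absurd ho ((co_r hD h2 h1 c).symm.nod hD ha (comm_mul e.symm e.symm))

theorem Sw.symm (h : Sw D a x n) : Sw D x a n := by
  have := h.2.conj hD n
  rw [inv_eq hD h.1, show n * (n * a * n) * n = n * n * a * (n * n) by simp only [mul_assoc],
    sq hD h.1, one_mul, mul_one] at this
  exact ⟨h.1, this.symm⟩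

theorem Sw.ee (h : Sw D a x n) (h1 : Ee D a b) (h2 : Ee D x y) : Sw D b y n :=
  ⟨h.1, by have := h1.conj hD n; rw [inv_eq hD h.1] at this; exact (this.symm.trans h.2).trans h2⟩

theorem Sw.E (h : Sw D a x n) (hκ : κ ∈ 𝐄 D a) : n * κ * n ∈ 𝐄 D x := by
  have := E_cj hD hκ n
  rwa [inv_eq hD h.1, E_eq h.2] at this

theorem Sw.od (h : Sw D a x n) (ha : a ∈ D) (hx : x ∈ D) (ho : Od a x) : Od n a :=
  od_of_cj hD ha h.1 (h.2.symm.od hD hx (conj_mem hD ha h.1) ha ho.symm).symm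

theorem Sw.cj (h : Sw D a x n) (g : G) : Sw D (g * a * g⁻¹) (g * x * g⁻¹) (g * n * g⁻¹) :=
  ⟨hD.conj_mem n h.1 g, by rw [conj_mul, conj_mul]; exact h.2.conj hD g⟩

theorem Sw.fx (h1 : Sw D a x n₁) (h2 : Sw D a x n₂) : Fx D (n₂ * n₁) a := by
  have := (h1.2.conj hD n₂).trans (by rw [inv_eq hD h2.1]; exact (h2.symm hD).2)
  rwa [show n₂ * (n₁ * a * n₁) * n₂⁻¹ = n₂ * n₁ * a * (n₂ * n₁⁻¹)⁻¹ by group, inv_eq hD h1.1] at this

theorem not_fx (ha : a ∈ D) (hd : d ∈ D) (ho : Od a d) : ¬ Fx D d a := fun h => by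
  rw [Fx, inv_eq hD hd] at h
  exact (ho.sq_od hD ha hd).not_comm hD ha (conj_mem hD ha hd) (h.symm.comm ha)

theorem sw_of3 (hε : ε ∈ D) (hy : y ∈ D) (h1 : Ee D a ε) (h2 : Ee D x y) (h : orderOf (ε * y) = 3) :
    Sw D a x (ε * y * ε) ∧ orderOf (ε * (ε * y * ε)) = 3 := by
  have s := sq hD hε
  refine ⟨Sw.ee hD ⟨conj_mem hD hy hε, ?_⟩ h1.symm h2.symm, ?_⟩
  · rw [show ε * y * ε * ε * (ε * y * ε) = ε * (y * ε * y) * ε by simp only [mul_assoc, ii s],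
      ← braid s (sq hD hy) h]
    simp only [mul_assoc, ii s, s, mul_one]
    exact Ee.refl y
  · rw [mul_assoc, ii s, orderOf_mul_comm', h]

theorem To.symm (h1 : To D a x h) : To D x a h :=
  let ⟨_, _, h1, h2, e⟩ := h1; ⟨_, _, h1.symm hD, h2.symm hD, e⟩

theorem To.fx (h1 : To D a x h) : Fx D h a := let ⟨_, _, h1, h2, e⟩ := h1; e ▸ h1.fx hD h2

theorem To.inv (h1 : To D a x h) : To D a x h⁻¹ :=
  let ⟨_, _, h1, h2, e⟩ := h1
  ⟨_, _, h2, h1, by rw [e, _root_.mul_inv_rev, inv_eq hD h1.1, inv_eq hD h2.1]⟩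

theorem To.cj (h1 : To D a x h) (g : G) : To D (g * a * g⁻¹) (g * x * g⁻¹) (g * h * g⁻¹) :=
  let ⟨_, _, h1, h2, e⟩ := h1; ⟨_, _, h1.cj hD g, h2.cj hD g, by rw [e, conj_mul]⟩

theorem To.ee (h1 : To D a x h) (e1 : Ee D a b) (e2 : Ee D x y) : To D b y h :=
  let ⟨_, _, h1, h2, e⟩ := h1; ⟨_, _, h1.ee hD e1 e2, h2.ee hD e1 e2, e⟩

theorem To.fpf (h1 : To D a x h) (ha : a ∈ D) (hx : x ∈ D) (ho : Od a x) (hε : ε ∈ D) (e1 : Ee D a ε)
    (e : h * ε = ε * h) : h = 1 := by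
  obtain ⟨n₁, n₂, h1, h2, rfl⟩ := h1
  have := mid_uniq hD hε h1.1 h2.1 ((h1.ee hD e1 (Ee.refl x)).od hD hε hx (e1.od hD ha hε hx ho)) (by
    calc _ = n₂ * (n₂ * n₁ * ε) * n₁ := by simp only [mul_assoc, ii (sq hD h2.1)]
      _ = _ := by rw [e]; simp only [mul_assoc, sq hD h1.1, mul_one])
  rw [this, sq hD h2.1]

theorem part_uniq (hE : ∀ a ∈ D, ∀ b ∈ D, Ee D a b → a ≠ b → a * b ∈ D) [Finite G] (H : NC D)
    (ha : a ∈ D) (hx : x ∈ D) (ho : Od a x) (h1 : Sw D a x n₁) (h2 : Sw D a x n₂)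
    (e1 : orderOf (a * n₁) = 3) (e2 : orderOf (a * n₂) = 3) : n₁ = n₂ := by
  have s := sq hD ha
  by_contra hn
  have k1 := h1.2
  have k2 := h2.2
  rw [← braid s (sq hD h1.1) e1] at k1
  rw [← braid s (sq hD h2.1) e2] at k2
  have m1 := conj_mem hD h1.1 ha
  have m2 := conj_mem hD h2.1 ha
  have k3 := k1.trans k2.symm
  have m := hE _ m1 _ m2 k3 fun e => hn (mul_left_cancel (mul_right_cancel e))
  have k4 := (ee_mul H k3 (co_of hD m1 m2 m)).trans k1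
  have o := (k4.symm.od hD hx m ha ho.symm).sq_od hD m ha
  have m' := conj_mem hD m ha
  rw [show a * (a * n₁ * a * (a * n₂ * a)) * a = n₁ * n₂ by simp only [mul_assoc, ii s, s, mul_one]] at o m'
  exact not_fx hD hx m' (k4.od hD m hx m' o) ((h2.symm hD).fx hD (h1.symm hD))

end

/-- the rank two case with root groups of order greater than two -/
structure HR (D : Set G) : Prop extends HQ D where
  hq : ∃ a ∈ D, ∃ b ∈ D, Ee D a b ∧ a ≠ b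
  np : ∀ w ∈ D, ∀ d ∈ D, w * d = d * w → w ≠ d → Co D w d

namespace HQ

variable [Finite G] (H : HQ D)
include H

theorem geo_od (γ : Geo D e k k' f) : Od e f := by
  have hD := H.rt
  have f1 := H.fo_co γ.c1 γ.c2.symm γ.n1
  have e1 := H.K_ee' γ.c1 γ.c2.symm γ.n1
  have c1 := co_l hD γ.c1.l γ.c2.r f1
  have c2 := co_r hD γ.c1.l γ.c2.r f1
  have n : K e k' * f ≠ f * K e k' := fun e => γ.n2 ((e1 f γ.c3.r).1 e.symm).symm
  obtain ⟨y, h1, -, h2⟩ := H.surj γ.c3.symm c2 n.symm (E_self γ.c2.r)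
  have h3 := H.mE γ.c3.r h1 fun e => RI.ne_one hD γ.c2.r (by rw [← h2, e]; simp)
  have f2 := (h3.2.symm.fo hD γ.c3.r h3.1 c1.l (H.fo_co γ.c3.symm c2 n.symm)).symm
  have f3 := (K_swap hD γ.c1.l γ.c2.r fun o => o.not_fo f1)
  have := three' hD c2.symm ⟨c1.symm, f1.symm, f3⟩ h3.1 f2
    ((K_eq (sq hD c1.l) (sq hD h3.1)).trans h2)
  exact (h3.2.od hD h3.1 γ.c3.r γ.c1.l (od_of_three hD γ.c1.l this).symm).symm

theorem geo_P (γ : Geo D e k k' f) : P D e f k :=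
  mkP H.rt γ.c1 (H.fo_co γ.c2 γ.c3.symm γ.n2)

theorem geo_of (he : e ∈ D) (hf : f ∈ D) (ho : Od e f) (hk : P D e f k) : Geo D e k (K k f) f :=
  have h1 := psi H.rt he hf ho hk
  ⟨(P_co H.rt he hk).symm, (co_l H.rt hk.1 hf hk.2.2.2).symm, P_co H.rt hf h1,
    (h1.2.2.2.not_comm H.rt h1.1 he).symm, hk.2.2.2.not_comm H.rt hk.1 hf⟩

theorem sw_ex (γ : Geo D e k k' f) (hε : ε ∈ D) (h : Ee D e ε) :
    ∃ n, Sw D e f n ∧ orderOf (ε * n) = 3 :=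
  let ⟨_, h1, h2, h3⟩ := exists_three H.nc H.hE H.fo γ.c1.l γ.c3.r (H.geo_od γ) (H.geo_P γ) ε hε h
  ⟨_, sw_of3 H.rt hε h1 h h2 h3⟩

end HQ

namespace HR

variable [Finite G] (H : HR D)
include H

theorem tor (γ : Geo D e k k' f) : ∃ (n₀ : G) (K : Subgroup G), (∀ x ∈ K, ∀ y ∈ K, x * y = y * x) ∧
    (∀ x ∈ K, n₀ * x * n₀ = x⁻¹) ∧ n₀ * n₀ = 1 ∧ Odd (Nat.card K) ∧
    ∀ n, (Sw D e f n ↔ ∃ x ∈ K, n = n₀ * x) ∧
      (Sw D e f n → ∃ ε ∈ D, Ee D e ε ∧ orderOf (ε * n) = 3) := by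
  have hD := H.rt
  have hE := H.hE
  have ha := γ.c1.l
  have hx := γ.c3.r
  have ho := H.geo_od γ
  have R1 := exists_three H.nc H.hE H.fo ha hx ho (H.geo_P γ)
  have R2 : ∀ y ∈ D, Ee D f y → ∃ a' ∈ D, Ee D e a' ∧ orderOf (a' * y) = 3 := fun y hy h => by
    simpa only [orderOf_mul_comm' y] using
      exists_three H.nc H.hE H.fo hx ha ho.symm (H.geo_P γ.symm) y hy h
  generalize e = a, f = x at *
  have aT : a ∈ TT D a x := ⟨ha, .inl (Ee.refl _)⟩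
  have xT : x ∈ TT D a x := ⟨hx, .inr ⟨1, one_mem _, by simpa using Ee.refl x⟩⟩
  have ee : ∀ s ∈ TT D a x, ∀ t ∈ D, Ee D s t → t ∈ TT D a x := fun s hs t ht h =>
    ⟨ht, hs.2.imp (·.trans h) fun ⟨n, hn, e⟩ => ⟨n, hn, e.trans h⟩⟩
  have cm : ∀ s ∈ TT D a x, ∀ t ∈ TT D a x, Commute s t ↔ Ee D s t := fun s hs t ht =>
    ⟨fun h => (TT_pair H.nc hE ha hx ho hs ht).resolve_right fun o => o.not_comm hD hs.1 ht.1 h,
      fun h => h.comm hs.1⟩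
  have hm : ∀ s ∈ TT D a x, ∀ t ∈ TT D a x, Commute s t → s ≠ t → s * t ∈ TT D a x :=
    fun s hs t ht h hn => by
      have e := (cm s hs t ht).1 h
      have m := hE s hs.1 t ht.1 e hn
      exact ee s hs _ m (ee_mul H.nc e (co_of hD hs.1 ht.1 m)).symm
  have ot : RT.OT (TT D a x) :=
    ⟨fun d hd => hD.orderOf_eq d hd.1, fun s hs t ht => by
      have := (mem_set_normalizer_iff.1 (TT_nrm H.nc hE ha hx R1 R2 (TT_le H.nc hs)) t).1 ht
      rwa [inv_eq hD hs.1] at this,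
      fun s hs t ht => (TT_pair H.nc hE ha hx ho hs ht).imp_left (cm s hs t ht).2⟩
  have nc : ¬ Commute x a := fun e => ho.not_comm hD ha hx e.symm
  have r : RT.R1 (TT D a x) :=
    { ot with
      cl := fun s hs t ht => by
        have k : ∀ s ∈ TT D a x, a ∈ RT.Cl (closure (TT D a x)) s := fun s hs => by
          by_cases e : Commute s a
          · exact RT.Cl.trans (ot.of_od xT aT nc (subset_closure xT) (subset_closure aT))
              (ot.of_od hs xT (fun e' => nc ((cm x xT a aT).2 (((cm s hs x xT).1 e').symm.trans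
                ((cm s hs a aT).1 e)))) (subset_closure hs) (subset_closure xT))
          · exact ot.of_od hs aT e (subset_closure hs) (subset_closure aT)
        exact RT.Cl.trans (RT.Cl.symm (k t ht)) (k s hs)
      pure := by
        obtain ⟨u, hu, v, hv, e, hn⟩ := H.hq
        obtain ⟨g, rfl⟩ := H.nc.cl u hu a ha
        have m := ee _ aT _ (hD.conj_mem v hv g) (e.conj hD g)
        have c := (cm _ aT _ m).2 (e.conj hD g)
        exact ⟨_, aT, _, m, c, hm _ aT _ m c fun e => hn (mul_left_cancel (mul_right_cancel e))⟩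
      tr := fun s hs t ht u hu h1 h2 =>
        (cm s hs u hu).2 (((cm s hs t ht).1 h1).trans ((cm t ht u hu).1 h2))
      na := ⟨x, xT, a, aT, nc⟩ }
  obtain ⟨y, hy, y1, y2⟩ := R1 a ha (Ee.refl a)
  have s0 := (sw_of3 hD ha hy (Ee.refl a) y1 y2).1
  have nT := r.cnj a aT y (ee x xT y hy y1)
  generalize a * y * a = n₀ at s0 nT
  obtain ⟨R, K, l⟩ := r.loc ZS.coreStep hm aT nT ((s0.od hD ha hx ho).not_comm hD s0.1 ha)
  have hB : ∀ y ∈ D, Ee D a y → y ∈ l.B := fun y hy e => l.mem_B.2 (.inr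
      ⟨ee a aT y hy e, (r.δ_iff (ee a aT y hy e) aT).2 ((cm _ (ee a aT y hy e) _ aT).2 e.symm)⟩)
  have k1 : ∀ z ∈ K, Sw D a x (n₀ * z) ∧ n₀ * z ∈ TT D a x := fun z hz => by
    obtain ⟨h1, h2⟩ := l.swap_iff.2 ⟨z, hz, rfl⟩
    rw [RT.smul_δ (r.nrm (subset_closure h1)), inv_eq hD h1.1] at h2
    have m1 := r.cnj _ h1 a aT
    have m2 := r.cnj _ nT a aT
    exact ⟨⟨h1.1, ((cm _ m1 _ m2).1 ((r.δ_iff m1 m2).1 h2)).trans s0.2⟩, h1⟩
  have k2 : ∀ n, Sw D a x n → ∃ z ∈ K, n = n₀ * z := fun n hn => by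
    have m := conj_mem hD (conj_mem hD ha hn.1) s0.1
    have := hn.2.conj hD n₀
    rw [inv_eq hD s0.1] at this
    obtain ⟨z, hz, e⟩ := l.K_trans (hB a ha (Ee.refl a)) (hB _ m (this.trans (s0.symm hD).2).symm)
      (RI.ne_one hD ha) (RI.ne_one hD m)
    refine ⟨z, hz, mid_uniq hD ha hn.1 (k1 z hz).1.1 (hn.od hD ha hx ho) ?_⟩
    nth_rw 2 [← inv_eq hD (k1 z hz).1.1]
    rw [show n₀ * z * a * (n₀ * z)⁻¹ = n₀ * (z * a * z⁻¹) * n₀⁻¹ by group, e, inv_eq hD s0.1]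
    simp only [mul_assoc, ii l.ee, l.ee, mul_one]
  refine ⟨n₀, K, fun x hx y hy => l.K_comm hx hy, fun x hx => l.K_inv hx, l.ee, l.odd_K, fun n =>
    ⟨⟨k2 n, fun ⟨z, hz, e⟩ => e ▸ (k1 z hz).1⟩, fun hn => ?_⟩⟩
  obtain ⟨z, hz, e⟩ := k2 n hn
  have o := hn.od hD ha hx ho
  obtain ⟨m, m1, m2⟩ := (e ▸ (k1 z hz).2 : n ∈ TT D a x).2.resolve_left fun e =>
    o.not_comm hD hn.1 ha (e.comm ha).symm
  have m3 := H.mE ha m1 fun e => ((hn.symm hD).od hD hx ha ho.symm).not_comm hD hn.1 hx (by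
    rw [e, one_mul, inv_one, mul_one] at m2; exact (m2.comm hx).symm)
  obtain ⟨y, hy, y1, y2⟩ := R1 m m3.1 m3.2.symm
  have s1 := sw_of3 hD m3.1 hy m3.2.symm y1 y2
  refine ⟨m, m3.1, m3.2.symm, ?_⟩
  have e1 : Ee D n (m * y * m) := by
    have := y1.conj hD m
    rw [inv_eq hD m3.1] at this m2
    exact m2.symm.trans this
  by_cases e2 : n = m * y * m
  · exact e2 ▸ s1.2
  have m4 := hE _ hn.1 _ s1.1.1 e1 e2
  exact absurd (s1.1.fx hD hn) (not_fx hD ha m4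
    ((ee_mul H.nc e1 (co_of hD hn.1 s1.1.1 m4)).symm.od hD hn.1 m4 ha o).symm)

variable (γ : Geo D e k k' f)
include γ

theorem sw3 (h1 : Sw D e f n) : ∃ ε ∈ D, Ee D e ε ∧ orderOf (ε * n) = 3 :=
  let ⟨_, _, _, _, _, _, h⟩ := H.tor γ; (h n).2 h1

theorem sw_mul (h1 : Sw D e f n₁) (h2 : Sw D e f n₂) (h3 : Sw D e f n₃) :
    Sw D e f (n₁ * n₂ * n₃) ∧ n₁ * n₂ * n₃ = n₃ * n₂ * n₁ ∧ Odd (orderOf (n₁ * n₂)) := by
  obtain ⟨n₀, K, k1, k2, k3, k4, k5⟩ := H.tor γ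
  obtain ⟨x, hx, rfl⟩ := (k5 _).1.1 h1
  obtain ⟨y, hy, rfl⟩ := (k5 _).1.1 h2
  obtain ⟨z, hz, rfl⟩ := (k5 _).1.1 h3
  have e1 : ∀ x ∈ K, ∀ y ∈ K, n₀ * x * (n₀ * y) = x⁻¹ * y := fun x hx y _ => by
    rw [← mul_assoc, k2 x hx]
  have e2 : ∀ x ∈ K, ∀ y ∈ K, ∀ z ∈ K, n₀ * x * (n₀ * y) * (n₀ * z) = n₀ * (x * (y⁻¹ * z)) :=
    fun x _ y hy z hz => by rw [mul_assoc (n₀ * x), e1 y hy z hz, mul_assoc]
  refine ⟨(k5 _).1.2 ⟨_, mul_mem hx (mul_mem (inv_mem hy) hz), e2 x hx y hy z hz⟩, ?_, ?_⟩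
  · rw [e2 x hx y hy z hz, e2 z hz y hy x hx, k1 x hx _ (mul_mem (inv_mem hy) hz),
      k1 z hz _ (mul_mem (inv_mem hy) hx), mul_assoc, mul_assoc, k1 x hx z hz]
  · rw [e1 x hx y hy]
    exact k4.of_dvd_nat (K.orderOf_dvd_natCard (mul_mem (inv_mem hx) hy))

theorem to_odd (h1 : To D e f h) : Odd (orderOf h) :=
  let ⟨_, _, h1, h2, e⟩ := h1; e ▸ (H.sw_mul γ h2 h1 h1).2.2

theorem to_sw (h1 : To D e f h) (h2 : Sw D e f n) : Sw D e f (h * n) :=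
  let ⟨_, _, h1, h3, e⟩ := h1; e ▸ (H.sw_mul γ h3 h1 h2).1

theorem to_mul (h1 : To D e f h) (h2 : To D e f t) : To D e f (h * t) :=
  let ⟨_, _, h3, h4, e⟩ := h2; ⟨_, _, h3, H.to_sw γ h1 h4, by rw [e, mul_assoc]⟩

theorem to_inv (h1 : To D e f h) (h2 : Sw D e f n) : n * h * n = h⁻¹ := by
  obtain ⟨n₁, n₂, h3, h4, rfl⟩ := h1
  rw [← mul_assoc, (H.sw_mul γ h2 h4 h3).2.1, mul_assoc, sq H.rt h2.1, mul_one, _root_.mul_inv_rev,
    inv_eq H.rt h3.1, inv_eq H.rt h4.1]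

theorem to_comm (h1 : To D e f h) (h2 : To D e f t) : h * t = t * h := by
  obtain ⟨n₁, n₂, h3, h4, rfl⟩ := h2
  have e1 := H.to_inv γ h1 h3
  have e2 := H.to_inv γ (h1.inv H.rt) h4
  rw [inv_inv, ← e1] at e2
  calc _ = n₂ * (n₁ * h * n₁) * n₂ * (n₂ * n₁) := by rw [e2]
    _ = _ := by simp only [mul_assoc, ii (sq H.rt h4.1), sq H.rt h3.1, mul_one]

end HR

end Cfsg.Agent.H7.RX
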