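import Cfsg.Agent.H7.RB2

/-! Root involutions, rank two: the action of a torus on `M_k`. -/

set_option autoImplicit false

namespace Cfsg.Agent.H7.RX

open Cfsg.Agent.H8 RI RS Subgroup
open scoped commutatorElement

variable {G : Type*} [Group G] {D : Set G}
  {a b c d e f g h k k' m n n₁ n₂ n₃ p q r s t u v w x y z κ ε ε₁ ε₂ : G}

local notation "𝐄" => sameCommutingSubgroup

structure Pt (D : Set G) (e f ε n : G) : Prop where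
  sw : Sw D e f n
  m : ε ∈ D
  ee : Ee D e ε
  o : orderOf (ε * n) = 3

theorem Pt.E (π : Pt D e f ε n) : ε ∈ 𝐄 D e := E_of π.m π.ee

theorem cf [Finite G] {I : Subgroup G} (hI : IsPGroup 2 I) (hk : ∀ x ∈ I, k * x * k⁻¹ ∈ I)
    (ho : Odd (orderOf k)) (hu : u⁻¹ * (k * u * k⁻¹) ∈ I) : ∃ s ∈ I, u * s * k = k * (u * s) := by
  have hk' : k ∈ normalizer I := mem_normalizer_fintype hk
  have h1 : u⁻¹ * k * u ∈ normalizer I := by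
    have := mul_mem (le_normalizer hu) hk'
    rwa [show u⁻¹ * (k * u * k⁻¹) * k = u⁻¹ * k * u by group] at this
  have o1 : ∀ g : G, Odd (orderOf (g * k * g⁻¹)) := fun g => by rwa [H3.orderOf_conj]
  have o2 : Odd (orderOf (u⁻¹ * k * u)) := by simpa using o1 u⁻¹
  obtain ⟨s, hs, e⟩ := RT.fix_orbit (Ω := RT.CS G) (ω := RT.sg k) hI h1 o2
    ⟨_, hu, by rw [RT.smul_sg, RT.smul_sg]; congr 1; group⟩
  rw [RT.smul_sg, RT.smul_sg] at e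
  have c : Commute (u⁻¹ * k * u) (s * k * s⁻¹)⁻¹ :=
    Commute.inv_right (by have := RT.sg_inj e; rwa [mul_inv_eq_iff_eq_mul] at this)
  have m : u⁻¹ * k * u * (s * k * s⁻¹)⁻¹ ∈ I := by
    have := mul_mem (mul_mem hu (hk s hs)) (inv_mem hs)
    rwa [show u⁻¹ * (k * u * k⁻¹) * (k * s * k⁻¹) * s⁻¹ = u⁻¹ * k * u * (s * k * s⁻¹)⁻¹ by group] at this
  have := H9.Sh.eq_one_of_two_odd hI m (Odd.of_dvd_nat (o2.mul (by rw [orderOf_inv]; exact o1 s))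
    c.orderOf_mul_dvd_mul_orderOf)
  refine ⟨s, hs, ?_⟩
  calc u * s * k = u * (s * k * s⁻¹) * s := by group
    _ = _ := by rw [← mul_inv_eq_one.1 this]; group

namespace HQ

variable [Finite G] (H : HQ D)
include H

theorem swM (ha : a ∈ D) (hx : x ∈ D) (h : Sw D a x n) (hu : u ∈ M D a) : n * u * n ∈ M D x := by
  have := M_cj H.rt hu n
  rw [inv_eq H.rt h.1] at this
  exact H.M_ee (conj_mem H.rt ha h.1) hx h.2 this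

theorem fxM (ha : a ∈ D) (h : Fx D g a) (hu : u ∈ M D a) : g * u * g⁻¹ ∈ M D a :=
  H.M_ee (H.rt.conj_mem a ha g) ha h (M_cj H.rt hu g)

theorem chi_fix (ha : Co D a p) (hb : Co D b p) (hn : a * b ≠ b * a) (hc : c ∈ M D p)
    (h1 : h * c = c * h) (h2 : Fx D h a) (h3 : Fx D h b)
    (h4 : ∀ ε ∈ D, Ee D b ε → h * ε ≠ ε * h) : c * a = a * c := by
  obtain ⟨b', k1, k2⟩ := H.chi ha hb hn hc
  have n : ¬ Ee D a p := fun e => hn ((e b hb.l).2 hb.c).symm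
  have k3 := comm_cj (H.cE ha n (mul_mem hc (H.E_M' hb k1)) k2 (h2.inv H.rt |>.E H.rt (E_self ha.l))) h
  rw [show h * (h⁻¹ * a * h⁻¹⁻¹) * h⁻¹ = a by group, ← conj_mul, cj_of_comm h1] at k3
  have k4 := H.E_one hb.l ha.l hn.symm (mul_mem (inv_mem k1) (h3.E H.rt k1)) (by
    have := comm_mul (comm_inv k2.symm) k3.symm
    rw [show (c * b')⁻¹ * (c * (h * b' * h⁻¹)) = b'⁻¹ * (h * b' * h⁻¹) by group] at this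
    exact this.symm)
  by_cases e : b' = 1
  · rwa [e, mul_one] at k2
  · exact absurd (by rw [inv_mul_eq_one, eq_mul_inv_iff_mul_eq] at k4; exact k4.symm)
      (h4 b' (H.mE hb.l k1 e).1 (H.mE hb.l k1 e).2.symm)

variable (γ : Geo D e k k' f)
include γ

theorem pt_co (π : Pt D e f ε n) : Co D ε k := H.co_l' γ.c1 γ.e1 π.m π.ee

theorem pt_phi (π : Pt D e f ε n) : ∃ φ, Co D φ k' ∧ Ee D f φ ∧ n = φ * ε * φ ∧ orderOf (φ * ε) = 3 := by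
  have s := sq H.rt π.m
  have b := braid s (sq H.rt π.sw.1) π.o
  have e1 := (π.sw.ee H.rt π.ee (Ee.refl f)).2
  rw [← b] at e1
  refine ⟨ε * n * ε, H.co_l' γ.c3.symm γ.symm.e1 (conj_mem H.rt π.sw.1 π.m) e1.symm, e1.symm, ?_, ?_⟩
  · rw [show ε * n * ε * ε * (ε * n * ε) = ε * (n * ε * n) * ε by simp only [mul_assoc, ii s], ← b]
    simp only [mul_assoc, ii s, s, mul_one]
  · rw [mul_assoc, s, mul_one, π.o]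

theorem Q0 (π : Pt D e f ε n) (hκ : κ ∈ 𝐄 D k') : n * κ * n = ⁅ε, κ⁆ := by
  have hD := H.rt
  by_cases e1 : κ = 1
  · simp [e1, sq hD π.sw.1]
  obtain ⟨φ, h1, h2, rfl, h3⟩ := H.pt_phi γ π
  have k1 := H.mE γ.c2.r hκ e1
  have c1 := col H.nc H.hE h1 (fun e => γ.symm.e1 (h2.trans e)) k1.1 k1.2.symm
  have f1 : Fo κ ε := (k1.2.symm.fo hD γ.c2.r k1.1 π.m
    (π.ee.fo hD γ.c1.l π.m γ.c2.r (H.fo_co γ.c1 γ.c2.symm γ.n1)).symm)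
  have e2 := s3 hD h1.l π.m h3 (mkP hD c1 f1)
  have c2 := co_l hD k1.1 π.m f1
  have e3 := conj_K (sq hD c2.l) φ
  have e4 := conj_K (sq hD k1.1) ε
  rw [← K_eq (sq hD π.m) (sq hD k1.1), K_swap hD k1.1 π.m fun o => o.not_fo f1]
  rw [e2] at e3
  generalize K κ ε = c at *
  calc _ = φ * (ε * (φ * κ * φ) * ε) * φ := by simp only [mul_assoc]
    _ = κ * (φ * c * φ) := by
      rw [conj_of_comm (sq hD h1.l) c1.c, e4]; simp only [mul_assoc, cc c1.c]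
    _ = c := by rw [e3, c2.c, ii (sq hD k1.1)]

theorem kM (hκ : κ ∈ 𝐄 D k') : κ ∈ M D k := H.E_M' γ.c2.symm hκ
theorem kM' (hκ : κ ∈ 𝐄 D k) : κ ∈ M D k' := H.E_M' γ.c2 hκ
theorem eM (hε : ε ∈ 𝐄 D e) : ε ∈ M D k := H.E_M' γ.c1 hε
theorem e_one (hε : ε ∈ 𝐄 D e) (h : ε * k' = k' * ε) : ε = 1 := H.E_one γ.c1.l γ.c2.r γ.n1 hε h
theorem k_one (hκ : κ ∈ 𝐄 D k') (h : κ * e = e * κ) : κ = 1 := H.E_one γ.c2.r γ.c1.l γ.n1.symm hκ h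

theorem pt_mid (π : Pt D e f ε n) : Sw D k' k n := by
  have h1 := H.M_cE γ.c1.r (H.eM γ π.E) (M_mem γ.c2.symm)
  rw [← H.Q0 γ π (E_self γ.c2.r)] at h1
  exact ⟨π.sw.1, (H.mE γ.c1.r h1 (RI.ne_one H.rt (conj_mem H.rt γ.c2.r π.sw.1))).2⟩

theorem yE (hy : y ∈ M D k') (h : y * k = k * y) (hκ : κ ∈ 𝐄 D k) : y * κ = κ * y :=
  H.cE γ.c2 (fun e => γ.e2 e.symm) hy h hκ

theorem s_comm (hε : ε ∈ 𝐄 D e) (hy : y ∈ M D k') (h : y * k = k * y) :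
    ε * (y * ε * y⁻¹) * k' = k' * (ε * (y * ε * y⁻¹)) := by
  have m1 := H.eM γ hε
  have m2 := H.M_cE γ.c1.r m1 (M_mem γ.c2.symm)
  refine cm_iff.1 ?_
  rw [H.cm_mul_l γ.c1.r m1 (M_conj H.rt h m1) (M_mem γ.c2.symm)]
  nth_rw 2 [← cj_of_comm (M_comm hy)]
  rw [cm_cj, cj_of_comm (H.yE γ hy h m2), H.E_sq γ.c1.r m2]

theorem Q1 (π : Pt D e f ε n) (hy : y ∈ M D k') (h : y * k = k * y) :
    (ε * (y * ε * y⁻¹))⁻¹ * (n * y * n) ∈ M D k' := by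
  obtain ⟨φ, h1, -, rfl, -⟩ := H.pt_phi γ π
  have m1 := M_mem h1
  have m2 := H.M_cE γ.c2.r m1 hy
  have m3 := H.M_cE γ.c1.r (H.eM γ π.E) (H.kM γ m2)
  have m4 := M_conj H.rt (comm_inv (H.s_comm γ π.E hy h).symm).symm
    (mul_mem (mul_mem m1 (H.kM' γ m3)) (H.E_M γ.c2.r m2))
  have := mul_mem (mul_mem m4 hy) m1
  have i1 := inv_eq H.rt h1.l
  have i2 := inv_eq H.rt π.m
  convert this using 1
  simp only [commutatorElement_def, _root_.mul_inv_rev, inv_inv, i1, i2, mul_assoc, ii (sq H.rt π.m),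
    ii (sq H.rt h1.l), inv_mul_cancel_left, mul_inv_cancel_left]

theorem P2a (hu : u ∈ M D k) : ∃ κ ∈ 𝐄 D k', ∀ ε ∈ 𝐄 D e, ⁅ε, u⁆ = ⁅ε, κ⁆ := by
  obtain ⟨κ, h1, h2⟩ := H.chi γ.c1 γ.c2.symm γ.n1 hu
  refine ⟨κ, h1, fun ε hε => ?_⟩
  have h3 := cm_iff.2 (H.cE γ.c1 γ.e1 (mul_mem hu (H.kM γ h1)) h2 hε).symm
  rw [H.cm_mul_r γ.c1.r hu (H.kM γ h1) (H.eM γ hε)] at h3
  rw [eq_inv_of_mul_eq_one_left h3, H.E_inv γ.c1.r (H.M_cE γ.c1.r (H.eM γ hε) (H.kM γ h1))]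

theorem P2 (π₁ : Pt D e f ε₁ n₁) (π₂ : Pt D e f ε₂ n₂) (hy : y ∈ M D k') (h : y * k = k * y)
    (hu : u ∈ M D k) :
    ⁅y * ε₂ * y⁻¹, u⁆ = n₂ * n₁ * ⁅y * ε₁ * y⁻¹, u⁆ * (n₂ * n₁)⁻¹ := by
  have m := M_conj H.rt (comm_inv h.symm).symm hu
  obtain ⟨κ, h1, h2⟩ := H.P2a γ m
  have k : ∀ {ε n}, Pt D e f ε n → ⁅y * ε * y⁻¹, u⁆ = n * κ * n := fun π => by
    rw [H.Q0 γ π h1, ← h2 _ π.E, ← cj_of_comm (H.yE γ hy h (H.M_cE γ.c1.r (H.eM γ π.E) m)), ← cm_cj]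
    congr 1; group
  rw [k π₁, k π₂, _root_.mul_inv_rev, inv_eq H.rt π₁.sw.1, inv_eq H.rt π₂.sw.1]
  simp only [mul_assoc, ii (sq H.rt π₁.sw.1)]

theorem Z_cj (ha : a ∈ M D k) (h1 : z ∈ M D k) (h2 : z ∈ M D k') : a * z * a⁻¹ ∈ M D k' := by
  rw [cj_eq]
  exact mul_mem (H.kM' γ (H.M_cE γ.c1.r ha h1)) h2

end HQ

namespace HR

variable [Finite G] (H : HR D) (γ : Geo D e k k' f)
include H γ

theorem pt (h : Sw D e f n) : ∃ ε, Pt D e f ε n := let ⟨ε, h1, h2, h3⟩ := H.sw3 γ h; ⟨ε, h, h1, h2, h3⟩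

theorem pt_ex (hε : ε ∈ 𝐄 D e) (h1 : ε ≠ 1) : ∃ n, Pt D e f ε n :=
  have := H.mE γ.c1.l hε h1
  let ⟨n, h1, h2⟩ := H.sw_ex γ this.1 this.2.symm; ⟨n, h1, this.1, this.2.symm, h2⟩

theorem mid (h : Sw D e f n) : Sw D k' k n := let ⟨_, π⟩ := H.pt γ h; H.pt_mid γ π

theorem pt_uniq (π₁ : Pt D e f ε n₁) (π₂ : Pt D e f ε n₂) : n₁ = n₂ :=
  part_uniq H.rt H.hE H.nc π₁.m γ.c3.r (π₁.ee.od H.rt γ.c1.l π₁.m γ.c3.r (H.geo_od γ))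
    (π₁.sw.ee H.rt π₁.ee (Ee.refl f)) (π₂.sw.ee H.rt π₁.ee (Ee.refl f)) π₁.o π₂.o

theorem to_pt (h1 : To D e f h) : ∃ ε₁ ε₂ n₁ n₂, Pt D e f ε₁ n₁ ∧ Pt D e f ε₂ n₂ ∧ h = n₂ * n₁ ∧
    (h ≠ 1 → ε₁ * ε₂ ≠ 1) := by
  obtain ⟨n₁, n₂, h1, h2, rfl⟩ := h1
  obtain ⟨ε₁, π₁⟩ := H.pt γ h1
  obtain ⟨ε₂, π₂⟩ := H.pt γ h2
  refine ⟨_, _, _, _, π₁, π₂, rfl, fun h e => h ?_⟩
  rw [eq_inv_of_mul_eq_one_left e, inv_eq H.rt π₂.m] at π₁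
  rw [H.pt_uniq γ π₁ π₂, sq H.rt π₂.sw.1]

theorem to_ex : ∃ h, To D e f h ∧ h ≠ 1 := by
  obtain ⟨u, hu, v, hv, e1, hn⟩ := H.hq
  obtain ⟨g, rfl⟩ := H.nc.cl u hu e γ.c1.l
  have m := H.rt.conj_mem v hv g
  obtain ⟨n₁, π₁⟩ := H.pt_ex γ (E_self γ.c1.l) (RI.ne_one H.rt γ.c1.l)
  obtain ⟨n₂, π₂⟩ := H.pt_ex γ (E_of m (e1.conj H.rt g)) (RI.ne_one H.rt m)
  refine ⟨_, ⟨_, _, π₁.sw, π₂.sw, rfl⟩, fun e => hn ?_⟩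
  rw [eq_inv_of_mul_eq_one_left e, inv_eq H.rt π₁.sw.1] at π₂
  have := H.e_one γ (mul_mem π₁.E π₂.E) (cm_iff.1 (by
    rw [H.cm_mul_l γ.c1.r (H.eM γ π₁.E) (H.eM γ π₂.E) (M_mem γ.c2.symm), ← H.Q0 γ π₁ (E_self γ.c2.r),
      ← H.Q0 γ π₂ (E_self γ.c2.r), sq H.rt (conj_mem H.rt γ.c2.r π₁.sw.1)]))
  rw [mul_eq_one_iff_eq_inv, inv_eq H.rt m] at this
  exact mul_left_cancel (mul_right_cancel this)

theorem fx_k (h1 : To D e f h) : Fx D h k :=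
  let ⟨_, _, h1, h2, e⟩ := h1; e ▸ ((H.mid γ h1).symm H.rt).fx H.rt ((H.mid γ h2).symm H.rt)

theorem fx_k' (h1 : To D e f h) : Fx D h k' := H.fx_k γ.symm (h1.symm H.rt)

theorem fpf_e (h1 : To D e f h) (h2 : h ≠ 1) : ∀ ε ∈ D, Ee D e ε → h * ε ≠ ε * h :=
  fun _ hε e1 e2 => h2 (h1.fpf H.rt γ.c1.l γ.c3.r (H.geo_od γ) hε e1 e2)

theorem fpf_k (h1 : To D e f h) (h2 : h ≠ 1) (hκ : κ ∈ 𝐄 D k) (e1 : h * κ = κ * h) : κ = 1 := by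
  obtain ⟨ε₁, ε₂, n₁, n₂, π₁, π₂, rfl, h3⟩ := H.to_pt γ h1
  have m := ((H.pt_mid γ π₁).symm H.rt).E H.rt hκ
  have s1 := sq H.rt π₁.sw.1
  by_contra h4
  have m' := H.mE γ.c2.r m fun e => h4 (by
    rw [← conj_of_comm s1 (show n₁ * 1 = 1 * n₁ by simp)] at e
    exact mul_left_cancel (mul_right_cancel e))
  refine h3 h2 (H.e_one γ (mul_mem π₁.E π₂.E) ((m'.2 _ ?_).1 (cm_iff.1 ?_)))
  · exact (H.mE γ.c1.l (mul_mem π₁.E π₂.E) (h3 h2)).1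
  · rw [H.cm_mul_l γ.c1.r (H.eM γ π₁.E) (H.eM γ π₂.E) (H.kM γ m), ← H.Q0 γ π₁ m, ← H.Q0 γ π₂ m]
    calc _ = κ * (n₂ * n₁ * κ) * (n₁ * n₂) := by simp only [mul_assoc, ii s1]
      _ = 1 := by
        rw [e1]; simp only [mul_assoc, ii s1, sq H.rt π₂.sw.1, mul_one, H.E_sq γ.c1.r hκ]

theorem fpf_k' (h1 : To D e f h) (h2 : h ≠ 1) : ∀ κ ∈ D, Ee D k κ → h * κ ≠ κ * h :=
  fun _ hκ e1 e2 => RI.ne_one H.rt hκ (H.fpf_k γ h1 h2 (E_of hκ e1) e2)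

theorem P1 (π₁ : Pt D e f ε₁ n₁) (hv : v ∈ M D k) (h : v * k' = k' * v) :
    n₁ * v * n₁ ∈ M D k' ∧ n₁ * v * n₁ * k = k * (n₁ * v * n₁) := by
  have s := H.pt_mid γ π₁
  refine ⟨H.swM γ.c1.r γ.c2.r (s.symm H.rt) hv, ?_⟩
  have := comm_cj (H.cE γ.c2.symm γ.e2 hv h ((s.symm H.rt).E H.rt (E_self γ.c1.r))) n₁
  rw [inv_eq H.rt s.1] at this
  simpa only [mul_assoc, ii (sq H.rt s.1), sq H.rt s.1, mul_one] using this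

theorem P3 (h1 : To D e f h) (h2 : h ≠ 1) (hv : v ∈ M D k) (h3 : v * k' = k' * v)
    (h4 : v⁻¹ * (h * v * h⁻¹) ∈ M D k') : v ∈ M D k' := by
  have hD := H.rt
  obtain ⟨ε₁, ε₂, n₁, n₂, π₁, π₂, rfl, h5⟩ := H.to_pt γ h1
  obtain ⟨y1, y2⟩ := H.P1 γ π₁ hv h3
  have s1 := sq hD π₁.sw.1
  have e1 : v = n₁ * (n₁ * v * n₁) * n₁ := by simp only [mul_assoc, ii s1, s1, mul_one]
  have e2 : n₂ * n₁ * v * (n₂ * n₁)⁻¹ = n₂ * (n₁ * v * n₁) * n₂ := by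
    rw [_root_.mul_inv_rev, inv_eq hD π₁.sw.1, inv_eq hD π₂.sw.1]; simp only [mul_assoc]
  rw [e2] at h4
  generalize n₁ * v * n₁ = y at *
  subst e1
  obtain ⟨n₃, π₃⟩ := H.pt_ex γ (mul_mem π₁.E π₂.E) (h5 h2)
  have q1 := H.Q1 γ π₁ y1 y2
  have q2 := H.Q1 γ π₂ y1 y2
  have q3 := H.Q1 γ π₃ y1 y2
  have m1 := M_conj hD y2 (H.eM γ π₁.E)
  have m2 := mul_mem (inv_mem (mul_mem (H.eM γ π₁.E) m1))
    (mul_mem (H.eM γ π₂.E) (M_conj hD y2 (H.eM γ π₂.E)))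
  have m3 := mul_mem (mul_mem q1 h4) (inv_mem q2)
  rw [show ∀ a b c d : G, a⁻¹ * b * (b⁻¹ * c) * (d⁻¹ * c)⁻¹ = a⁻¹ * d from fun _ _ _ _ => by group] at m3
  have m4 := H.Z_cj γ m1 m2 m3
  have c := EE_cm γ.c1.l γ.c1.l rfl π₁.E π₂.E
  rw [show y * ε₁ * y⁻¹ * ((ε₁ * (y * ε₁ * y⁻¹))⁻¹ * (ε₂ * (y * ε₂ * y⁻¹))) * (y * ε₁ * y⁻¹)⁻¹ =
    ε₁⁻¹ * ε₂ * (y * (ε₂ * ε₁⁻¹) * y⁻¹) by group, inv_eq hD π₁.m, ← c] at m4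
  have m5 := H.swM γ.c2.r γ.c1.r (H.pt_mid γ π₃) (by have := mul_mem m4 q3; rwa [mul_inv_cancel_left] at this)
  refine H.swM γ.c1.r γ.c2.r ((H.pt_mid γ π₁).symm hD) ?_
  simpa only [mul_assoc, ii (sq hD π₃.sw.1), sq hD π₃.sw.1, mul_one] using m5

theorem P4 (h1 : To D e f h) (z1 : z ∈ M D k) (z2 : z ∈ M D k') (hu : u ∈ M D k) (h2 : u * k' = k' * u) :
    ⁅h * z * h⁻¹, u⁆ = ⁅z, u⁆ := by
  have hD := H.rt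
  let U := 𝐄 D k ⊔ 𝐄 D k'
  have U1 : U ≤ M D k ⊓ M D k' := sup_le (fun x hx => ⟨H.E_M γ.c1.r hx, H.kM' γ hx⟩)
    fun x hx => ⟨H.kM γ hx, H.E_M γ.c2.r hx⟩
  have k1 : ∀ g, g ∈ M D k ∨ g ∈ M D k' → ∀ x ∈ M D k ⊓ M D k', ⁅g, x⁆ ∈ U := fun g hg x hx =>
    hg.elim (fun hg => mem_sup_left (H.M_cE γ.c1.r hg hx.1)) fun hg => mem_sup_right (H.M_cE γ.c2.r hg hx.2)
  have k2 : ∀ g, g ∈ M D k ∨ g ∈ M D k' → ∀ x, x * z⁻¹ ∈ U → g * x * g⁻¹ * z⁻¹ ∈ U := fun g hg x hx => by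
    rw [cj_eq, mul_assoc]
    exact mul_mem (k1 g hg x (by simpa using mul_mem (U1 hx) (⟨z1, z2⟩ : z ∈ M D k ⊓ M D k'))) hx
  have k3 : ∀ n, Sw D e f n → ∀ x, x * z⁻¹ ∈ U → n * x * n⁻¹ * z⁻¹ ∈ U := fun n hn x hx => by
    obtain ⟨ε, π⟩ := H.pt γ hn
    obtain ⟨φ, a1, -, rfl, -⟩ := H.pt_phi γ π
    have := k2 φ (.inr (M_mem a1)) _ (k2 ε (.inl (H.eM γ π.E)) _ (k2 φ (.inr (M_mem a1)) x hx))
    rwa [show φ * (ε * (φ * x * φ⁻¹) * ε⁻¹) * φ⁻¹ = φ * ε * φ * x * (φ * ε * φ)⁻¹ by group] at this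
  obtain ⟨n₁, n₂, a1, a2, rfl⟩ := h1
  have k4 := k3 n₂ a2 _ (k3 n₁ a1 z (by simp))
  rw [show n₂ * (n₁ * z * n₁⁻¹) * n₂⁻¹ = n₂ * n₁ * z * (n₂ * n₁)⁻¹ by group] at k4
  have k5 : U ≤ centralizer {u} := sup_le (fun x hx => mem_centralizer_singleton_iff.2 (EM_cm hx hu))
    fun x hx => mem_centralizer_singleton_iff.2 (H.cE γ.c2.symm γ.e2 hu h2 hx).symm
  rw [← inv_mul_cancel_right (n₂ * n₁ * z * (n₂ * n₁)⁻¹) z, H.cm_mul_l γ.c1.r (U1 k4).1 z1 hu,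
    cm_iff.2 (mem_centralizer_singleton_iff.1 (k5 k4)), one_mul]

/-- decomposition of `v` and of its image under a torus element -/
theorem dec (h1 : To D e f h) (hv : v ∈ M D k) (h3 : v * k' = k' * v) :
    ∃ ε₁ ∈ 𝐄 D e, ∃ ε₂ ∈ 𝐄 D e, ∃ a₁ a₂ z₁ z₂, Co D a₁ k ∧ a₂ ∈ M D k ∧ z₁ ∈ M D k ⊓ M D k' ∧
      z₂ ∈ M D k ⊓ M D k' ∧ v = ε₁ * a₁ * z₁ ∧ h * v * h⁻¹ = ε₂ * a₂ * z₂ ∧ ε₁ ≠ 1 ∧
      a₂ * a₂ = 1 ∧ ε₁ * a₁ * k' = k' * (ε₁ * a₁) ∧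
      ∀ u ∈ M D k, ⁅a₂, u⁆ = h * ⁅a₁, u⁆ * h⁻¹ ∧ ⁅ε₂, u⁆ = h * ⁅ε₁, u⁆ * h⁻¹ := by
  have hD := H.rt
  have hv' := H.fxM γ.c1.r (H.fx_k γ h1) hv
  obtain ⟨ε₁, ε₂, n₁, n₂, π₁, π₂, rfl, -⟩ := H.to_pt γ h1
  obtain ⟨y1, y2⟩ := H.P1 γ π₁ hv h3
  have s1 := sq hD π₁.sw.1
  have e1 : v = n₁ * (n₁ * v * n₁) * n₁ := by simp only [mul_assoc, ii s1, s1, mul_one]
  have e2 : n₂ * n₁ * v * (n₂ * n₁)⁻¹ = n₂ * (n₁ * v * n₁) * n₂ := by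
    rw [_root_.mul_inv_rev, inv_eq hD π₁.sw.1, inv_eq hD π₂.sw.1]; simp only [mul_assoc]
  rw [e2] at hv' ⊢
  generalize n₁ * v * n₁ = y at *
  subst e1
  have m1 := M_conj hD y2 (H.eM γ π₁.E)
  have m2 := M_conj hD y2 (H.eM γ π₂.E)
  refine ⟨ε₁, π₁.E, ε₂, π₂.E, _, _, _, _, ?_, m2,
    ⟨(M D k).mul_mem ((M D k).inv_mem (mul_mem (H.eM γ π₁.E) m1)) hv, H.Q1 γ π₁ y1 y2⟩,
    ⟨(M D k).mul_mem ((M D k).inv_mem (mul_mem (H.eM γ π₂.E) m2)) hv', H.Q1 γ π₂ y1 y2⟩, by group, by group,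
    RI.ne_one hD π₁.m, sq hD (hD.conj_mem _ π₂.m y), H.s_comm γ π₁.E y1 y2,
    fun u hu => ⟨H.P2 γ π₁ π₂ y1 y2 hu, by simpa using H.P2 γ π₁ π₂ (one_mem _) (by simp) hu⟩⟩
  have := (H.pt_co γ π₁).conj hD y
  rwa [cj_of_comm y2] at this

theorem iso (h1 : To D e f h) (hv : v ∈ M D k) (v2 : v * k' = k' * v) (hu : u ∈ M D k)
    (u1 : u * e = e * u) (u2 : u * k' = k' * u) :
    ⁅v * (h * v * h⁻¹), u * (h * u * h⁻¹)⁆ = 1 := by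
  have hk := γ.c1.r
  have f1 := H.fx_k γ h1
  have hv' := H.fxM hk f1 hv
  have hu' := H.fxM hk f1 hu
  have u1' : h * u * h⁻¹ * e = e * (h * u * h⁻¹) := by
    have := comm_cj (H.cE γ.c1 γ.e1 hu u1 (((h1.fx H.rt).inv H.rt).E H.rt (E_self γ.c1.l))) h
    rwa [show h * (h⁻¹ * e * h⁻¹⁻¹) * h⁻¹ = e by group] at this
  obtain ⟨ε₁, b1, ε₂, b2, a₁, a₂, z₁, z₂, c1, c2, c3, c4, c5, c6, -, -, -, c7⟩ := H.dec γ h1 hv v2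
  have c1' := M_mem c1
  have k1 : ∀ {ε a z w}, ε ∈ 𝐄 D e → a ∈ M D k → z ∈ M D k → w ∈ M D k → w * e = e * w →
      ⁅ε * a * z, w⁆ = ⁅a, w⁆ * ⁅z, w⁆ := fun hε ha hz hw h => by
    rw [H.cm_mul_l hk (mul_mem (H.eM γ hε) ha) hz hw, H.cm_mul_l hk (H.eM γ hε) ha hw,
      cm_iff.2 (H.cE γ.c1 γ.e1 hw h hε).symm, one_mul]
  have k2 : ∀ {z}, z ∈ M D k ⊓ M D k' → ⁅z, h * u * h⁻¹⁆ = h * ⁅z, u⁆ * h⁻¹ := fun hz => by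
    rw [← cm_cj, H.P4 γ h1 hz.1 hz.2 hu' ?_]
    have := comm_cj (H.cE γ.c2.symm γ.e2 hu u2 (((H.fx_k' γ h1).inv H.rt).E H.rt (E_self γ.c2.r))) h
    rwa [show h * (h⁻¹ * k' * h⁻¹⁻¹) * h⁻¹ = k' by group] at this
  have A1 := k1 b1 c1' c3.1 hu u1
  have A2 := k1 b1 c1' c3.1 hu' u1'
  have B1 := k1 b2 c2 c4.1 hu u1
  have B2 := k1 b2 c2 c4.1 hu' u1'
  rw [← c5] at A1 A2
  rw [← c6] at B1 B2
  have R := B2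
  rw [cm_cj, A1, (c7 _ hu').1, k2 c4, conj_mul] at R
  replace R := mul_left_cancel (mul_right_cancel R)
  rw [H.cm_mul_l hk hv hv' (mul_mem hu hu'), H.cm_mul_r hk hu hu' hv, H.cm_mul_r hk hu hu' hv', cm_cj,
    B1, A2, A1, (c7 _ hu).1, k2 c3, ← conj_mul]
  have x1 := H.M_cE hk c1' hu
  have x2 := H.M_cE hk c1' hu'
  have p1 := H.M_cE hk c3.1 hu
  have p2 := H.M_cE hk c4.1 hu
  have x3 := f1.E H.rt x1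
  have p3 := f1.E H.rt p1
  generalize h * ⁅a₁, u⁆ * h⁻¹ = X3, h * ⁅z₁, u⁆ * h⁻¹ = P3 at *
  generalize ⁅a₁, h * u * h⁻¹⁆ = X2, ⁅z₂, u⁆ = P2 at *
  rw [R]
  have C : ∀ {a b}, a ∈ 𝐄 D k → b ∈ 𝐄 D k → a * b = b * a := EE_cm hk hk rfl
  simp only [mul_assoc, cc (C p2 x2), cc (C p3 x2), cc (C x3 x2), cc (C p3 p2), cc (C x3 p2), cc (C x3 p3),
    C x3 p3, ii (H.E_sq hk x2), ii (H.E_sq hk p2), ii (H.E_sq hk p3), ii (H.E_sq hk x3), H.E_sq hk x3,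
    H.E_sq hk p3, H.E_sq hk p2, mul_one]

end HR

end Cfsg.Agent.H7.RX
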