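import Cfsg.Agent.H7.RB3

/-! Root involutions, rank two: a torus fixes all lines through an end point. -/

set_option autoImplicit false

namespace Cfsg.Agent.H7.RX

open Cfsg.Agent.H8 RI RS Subgroup
open scoped commutatorElement

variable {G : Type*} [Group G] {D : Set G}
  {a b c d e f g h k k' m n n₁ n₂ n₃ p q r s t u v w x y z κ ε ε₁ ε₂ : G}

local notation "𝐄" => sameCommutingSubgroup

theorem fx_comm (hD : IsRootInvolutionSet D) (h1 : Fx D h a) (ha : a ∈ D)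
    (h2 : ∀ κ ∈ 𝐄 D a, u * κ = κ * u) : h * u * h⁻¹ * a = a * (h * u * h⁻¹) := by
  have := comm_cj (h2 _ ((h1.inv hD).E hD (E_self ha))) h
  rwa [show h * (h⁻¹ * a * h⁻¹⁻¹) * h⁻¹ = a by group] at this

namespace HR

variable [Finite G] (H : HR D)
include H

theorem sp (ha : Co D a d) (hc : Co D c d) (hn : ¬ Ee D c d) (h : a * c = c * a) :
    ∃ ε ∈ 𝐄 D d, a * ε ∈ 𝐄 D c := by
  have hD := H.rt
  by_cases n1 : Ee D a d
  · exact ⟨a, E_of ha.l n1.symm, by rw [sq hD ha.l]; exact one_mem _⟩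
  by_cases n2 : a = c
  · exact ⟨1, one_mem _, by rw [mul_one, n2]; exact E_self hc.l⟩
  obtain ⟨u, hu⟩ := es H.nc hc hn
  have n := hu.fo.not_comm hD hc.l hu.co.l
  have k : ∀ r ∈ D, r * c = c * r → r * u = u * r → Ee D d r := fun r hr k1 k2 =>
    hu.eq ▸ H.K_ee' (H.np c hc.l r hr k1.symm fun e => n (e ▸ k2))
      (H.np u hu.co.l r hr k2.symm fun e => n (e ▸ k1.symm)) n
  obtain ⟨c', h1, h2⟩ := H.chi hu.co hc n.symm (M_mem ha)
  by_cases e1 : c' = 1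
  · rw [e1, mul_one] at h2
    exact absurd (k a ha.l h h2).symm n1
  have h3 := H.mE hc.l h1 e1
  by_cases e2 : a = c'
  · exact ⟨1, one_mem _, by rwa [mul_one, e2]⟩
  have h4 := H.np a ha.l c' h3.1 (E_cm h1 ha.l h).symm e2
  refine ⟨a * c', E_of h4.m (k _ h4.m (comm_mul h.symm (E_cm h1 hc.l rfl).symm).symm h2), ?_⟩
  rwa [ii (sq hD ha.l)]

theorem ext_geo (hc : Co D e k) (hn : ¬ Ee D e k) : ∃ g, Co D g e ∧ g * k ≠ k * g :=
  let ⟨g, hg⟩ := es H.nc hc.symm fun e => hn e.symm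
  ⟨g, hg.co, (hg.fo.not_comm H.rt hc.r hg.co.l).symm⟩

theorem trans (c1 : Co D e k) (c2 : Co D k' k) (n1 : e * k' ≠ k' * e) (ha : Co D a k)
    (na : a * e ≠ e * a) : ∃ y ∈ M D e, y * k = k * y ∧ ∃ κ ∈ 𝐄 D k', y * κ * y⁻¹ = a := by
  have hD := H.rt
  have ne : ¬ Ee D e k := fun h => n1 ((h k' c2.l).2 c2.c).symm
  obtain ⟨g, hg, ng⟩ := H.ext_geo c1 ne
  obtain ⟨κ, k1, k2⟩ := H.chi c1 c2 n1 (M_mem ha)
  have k3 := H.mE c2.l k1 fun e => na (by rwa [e, mul_one] at k2)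
  have γ : Geo D k' k e g := ⟨c2, c1.symm, hg.symm, n1.symm, ng.symm⟩
  have γ' : Geo D κ k e g := ⟨H.co_l' c2 γ.e1 k3.1 k3.2.symm, c1.symm, hg.symm,
    fun e => n1 ((k3.2 _ c1.l).1 e.symm), ng.symm⟩
  obtain ⟨x, π⟩ := H.pt_ex γ' (E_self k3.1) (RI.ne_one hD k3.1)
  obtain ⟨g₁, a1, -, a3, a4⟩ := H.pt_phi γ' π
  have q0 := H.Q0 γ' π (E_self c1.l)
  have aa := sq hD ha.l
  have ee := sq hD c1.l
  have kk := sq hD k3.1
  have xx := sq hD π.sw.1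
  have m1 := H.M_cE c1.r (M_mem γ'.c1) (M_mem c1)
  have e1 : ⁅a, e⁆ = ⁅κ, e⁆ := by
    have := cm_iff.2 k2
    rw [H.cm_mul_l c1.r (M_mem ha) (M_mem γ'.c1) (M_mem c1)] at this
    rw [eq_inv_of_mul_eq_one_left this, H.E_inv c1.r m1]
  have m2 := H.mE c1.r m1 fun e => γ'.n1 (cm_iff.1 e)
  have e2 := cj_eq a e
  have e3 := cj_eq κ e
  rw [inv_eq hD ha.l, e1] at e2
  rw [inv_eq hD k3.1] at e3
  have e4 := E_cm m1 ha.l ha.c
  have e5 := E_cm m1 k3.1 γ'.c1.c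
  have e6 := E_cm m1 c1.l c1.c
  generalize ⁅κ, e⁆ = k₁ at *
  have e7 : x * k₁ * x = e := by rw [← q0]; simp only [mul_assoc, ii xx, xx, mul_one]
  have b1 : x = κ * g₁ * κ := by rw [a3, braid (sq hD a1.l) kk a4]
  have cx : Co D x (k₁ * e) := by
    have := a1.conj hD κ
    rwa [inv_eq hD k3.1, ← b1, e3] at this
  have c3 : Co D (a * x * a) e := by
    have := cx.conj hD a
    rwa [inv_eq hD ha.l, conj_mul' aa k₁, e2, conj_of_comm aa e4.symm, ii (sq hD m2.1)] at this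
  have e8 : a * x * a * k₁ * (a * x * a) = k₁ * e := by
    calc _ = a * (x * (a * k₁ * a) * x) * a := by simp only [mul_assoc]
      _ = _ := by rw [conj_of_comm aa e4.symm, e7, e2]
  have n2 : k₁ * (a * x * a) ≠ a * x * a * k₁ := fun h => by
    rw [← h, mul_assoc, sq hD c3.l] at e8
    exact RI.ne_one hD c1.l (mul_left_cancel e8).symm
  have c4 : Co D e k₁ := col H.nc H.hE c1 ne m2.1 m2.2.symm
  have o3 := three' hD c4 ⟨col H.nc H.hE ha (fun h => na ((h e c1.l).2 c1.c).symm) m2.1 m2.2.symm,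
    H.fo_co c1 ha na.symm, K_of_conj ee (e2.trans e6)⟩ c3.l (H.fo_co c4.symm c3 n2)
    (K_of_conj (sq hD m2.1) e8)
  have b2 := braid aa (sq hD c3.l) o3
  have e9 : a * (a * x * a) * a = x := by simp only [mul_assoc, ii aa, aa, mul_one]
  rw [e9] at b2
  generalize a * x * a = g₂ at *
  have s1 := sq hD a1.l
  have s2 := sq hD c3.l
  have my := mul_mem (M_mem c3) (M_mem a1)
  refine ⟨g₂ * g₁, my, H.cE c4.symm (fun h => ne (h.symm.trans m2.2)) my ?_ (E_of c1.r m2.2), κ, k1, ?_⟩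
  · have e10 : g₁ * k₁ * g₁ = k₁ * e := by
      calc _ = κ * (x * (κ * k₁ * κ) * x) * κ := by rw [b1]; simp only [mul_assoc, ii kk, kk, mul_one]
        _ = _ := by rw [conj_of_comm kk e5.symm, e7, e3]
    calc g₂ * g₁ * k₁ = g₂ * (g₁ * k₁ * g₁) * g₁ := by simp only [mul_assoc, s1, mul_one]
      _ = _ := by rw [e10, ← e8]; simp only [mul_assoc, ii s2]
  · rw [_root_.mul_inv_rev, inv_eq hD a1.l, inv_eq hD c3.l]
    calc _ = g₂ * (g₁ * κ * g₁) * g₂ := by simp only [mul_assoc]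
      _ = _ := by rw [← a3, b2]; simp only [mul_assoc, ii s2, s2, mul_one]

theorem F2a (γ : Geo D e k k' f) (h1 : To D e f h) (h2 : h ≠ 1) (hc : c ∈ M D k) (h3 : h * c = c * h) :
    c * e = e * c ∧ c * k' = k' * c ∧ c ∈ M D k' ∧ c * f = f * c := by
  have a1 := H.chi_fix γ.c2.symm γ.c1 γ.n1.symm hc h3 (H.fx_k' γ h1) (h1.fx H.rt) (H.fpf_e γ h1 h2)
  have a2 := H.chi_fix γ.c1 γ.c2.symm γ.n1 hc h3 (h1.fx H.rt) (H.fx_k' γ h1)
    (H.fpf_k' γ.symm (h1.symm H.rt) h2)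
  have a3 := H.P3 γ h1 h2 hc a1 (by rw [cj_of_comm h3, inv_mul_cancel]; exact one_mem _)
  exact ⟨a2, a1, a3, H.chi_fix γ.c3.symm γ.c2 γ.n2.symm a3 h3 ((h1.symm H.rt).fx H.rt) (H.fx_k γ h1)
    (H.fpf_k' γ h1 h2)⟩

/-- uniqueness of the fixed point -/
theorem F3 (γ : Geo D e k k' f) (h1 : To D e f h) (h2 : h ≠ 1) (ha : Co D a k) (na : a * k' ≠ k' * a)
    (h3 : Fx D h a) : Ee D a e := by
  have hD := H.rt
  obtain ⟨y, y1, y2, ε, y3, rfl⟩ := H.trans γ.c2.symm γ.c1 γ.n1.symm ha na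
  have y4 := H.mE γ.c1.l y3 fun e => RI.ne_one hD ha.l (by rw [e]; simp)
  have f1 := H.fx_k' γ h1
  have f2 := h1.fx hD
  have e1 := y4.2.conj hD y
  obtain ⟨s, hs, h4⟩ := cf (I := M D k' ⊓ St hD e) (k := h) (u := y) ((pM H.nc k').to_inf_left)
    (fun x hx => ⟨H.fxM γ.c2.r f1 hx.1, (f2.mul hD hx.2).mul hD (f2.inv hD)⟩) (H.to_odd γ h1)
    ⟨Subgroup.mul_mem _ (Subgroup.inv_mem _ y1) (H.fxM γ.c2.r f1 y1), by
      have := ((h3.ee hD e1).cj hD y⁻¹).mul hD ((f2.inv hD).ee hD (by simpa [mul_assoc] using Ee.refl e))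
      rw [show y⁻¹ * h * y⁻¹⁻¹ * h⁻¹ = y⁻¹ * (h * y * h⁻¹) by group,
        show y⁻¹ * (y * e * y⁻¹) * y⁻¹⁻¹ = e by group] at this
      exact this⟩
  have h5 := (H.F2a γ.symm (h1.symm hD) h2 (mul_mem y1 hs.1) h4.symm).2.2.2
  have h6 := Ee.conj hD hs.2 y
  rw [show y * (s * e * s⁻¹) * y⁻¹ = y * s * e * (y * s)⁻¹ by group, cj_of_comm h5] at h6
  exact e1.trans h6.symm

theorem exists_fix (γ : Geo D g e k k') (h1 : To D g k' t) :
    ∃ f, Geo D e k k' f ∧ Fx D t f := by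
  have hD := H.rt
  obtain ⟨f, c1, n1⟩ := H.ext_geo γ.c3.symm γ.symm.e1
  have f1 := H.fx_k' γ h1
  have f2 := (h1.symm hD).fx hD
  have N : ∀ g, g ∈ normalizer D := fun g => mem_set_normalizer_iff.2 fun x =>
    ⟨fun e => hD.conj_mem x e g, fun e => by simpa [mul_assoc] using hD.conj_mem _ e g⁻¹⟩
  have k1 : ∀ y, Fx D y k → Fx D y k' → Co D (y * f * y⁻¹) k' ∧ y * f * y⁻¹ * k ≠ k * (y * f * y⁻¹) :=
    fun y a1 a2 => by
      have n : y * f * y⁻¹ * k ≠ k * (y * f * y⁻¹) := fun e => n1 (by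
        have := comm_cj ((a1 _ (hD.conj_mem f c1.l y)).2 e) y⁻¹
        simpa [mul_assoc] using this)
      exact ⟨col H.nc H.hE (c1.conj hD y) (fun e => n (((e.trans a2) k γ.c3.l).2 γ.c3.c).symm) γ.c3.r a2, n⟩
  obtain ⟨y, y1, y2, φ, y3, y4⟩ := H.trans γ.c3 c1 n1.symm (k1 t f1 f2).1 (k1 t f1 f2).2
  have y5 := H.mE c1.l y3 fun e => RI.ne_one hD (k1 t f1 f2).1.l (by rw [← y4, e]; simp)
  obtain ⟨n, hn, e⟩ := RT.fix_orbit (Ω := RT.CS G) (Q := M D k ⊓ St hD k') (k := t) (ω := RT.δ D f)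
    (pM H.nc k).to_inf_left (mem_normalizer_fintype fun x hx =>
      ⟨H.fxM γ.c3.l f1 hx.1, (f2.mul hD hx.2).mul hD (f2.inv hD)⟩) (H.to_odd γ h1)
    ⟨y, ⟨y1, Fx.of y2⟩, by
      rw [RT.smul_δ (N _), RT.smul_δ (N _), ← y4]; exact RT.δ_eq.2 (y5.2.conj hD y)⟩
  rw [RT.smul_δ (N _), RT.smul_δ (N _)] at e
  have := k1 n (Fx.of (M_comm hn.1)) hn.2
  exact ⟨_, ⟨γ.c2, γ.c3, this.1.symm, γ.n2, this.2.symm⟩, RT.δ_eq.1 e⟩

section

variable (γ : Geo D e k k' f) (γ' : Geo D k' k e g) (h1 : To D e f h) (h2 : h ≠ 1) (t1 : To D k' g t)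
  (t2 : t ≠ 1)
include γ γ' h1 h2 t1 t2

theorem C0 (hc : c ∈ M D k) (h3 : h * c = c * h) (t3 : t * c = c * t) (hu : u ∈ M D k) : c * u = u * c := by
  have hD := H.rt
  obtain ⟨a1, a2, a3, -⟩ := H.F2a γ h1 h2 hc h3
  obtain ⟨-, -, a4, -⟩ := H.F2a γ' t1 t2 hc t3
  have k0 : ∀ {a e}, Co D a k → Co D e k → ¬ Ee D e k → a * e = e * a → c * e = e * c → c * a = a * c :=
    fun ha he n e1 e2 => by
      obtain ⟨ε, b1, b2⟩ := H.sp ha he n e1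
      exact comm_of_mul' (EM_cm b1 hc).symm (H.cE he n hc e2 b2)
  have : M D k ≤ centralizer {c} := (closure_le _).2 fun a ha => mem_centralizer_singleton_iff.2 (by
    by_cases n1 : a * e = e * a
    · exact (k0 ha γ.c1 γ.e1 n1 a1).symm
    by_cases n2 : a * k' = k' * a
    · exact (k0 ha γ.c2.symm γ.e2 n2 a2).symm
    have k1 : ∀ {e k'}, Co D e k → Co D k' k → e * k' ≠ k' * e → a * e ≠ e * a → c ∈ M D e → c ∈ M D k' →
        ∃ η ∈ 𝐄 D e, η * c ∈ M D a := fun c1 c2 n1 n2 m1 m2 => by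
      obtain ⟨y, y1, -, κ, y3, y4⟩ := H.trans c1 c2 n1 ha n2
      have y5 := H.mE c2.l y3 fun e => RI.ne_one hD ha.l (by rw [← y4, e]; simp)
      exact ⟨_, H.M_cE c1.l y1 m1, cj_eq y c ▸ H.M_ee (hD.conj_mem _ c2.l y) ha.l
        (y4 ▸ (y5.2.conj hD y).symm) (M_cj hD m2 y)⟩
    obtain ⟨η, b1, b2⟩ := k1 γ.c1 γ.c2.symm γ.n1 n1 a4 a3
    obtain ⟨η', b3, b4⟩ := k1 γ.c2.symm γ.c1 γ.n1.symm n2 a3 a4
    have b5 := H.M_sq ha.l (mul_mem b2 (inv_mem b4))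
    rw [show η * c * (η' * c)⁻¹ = η * η'⁻¹ by group, H.E_inv γ.c2.r b3] at b5
    have b6 := H.M_sq γ.c1.r (mul_mem (H.eM γ b1) (H.kM γ b3))
    have b7 := comm_of_sq (H.E_sq γ.c1.l b1) (H.E_sq γ.c2.r b3)
      (H.E_inf ha.l ha.r (fun h => n1 ((h e γ.c1.l).2 γ.c1.c).symm) b5 b6)
    by_cases e1 : η' = 1
    · rw [e1, one_mul] at b4
      exact (M_comm b4).symm
    · have b8 := H.mE γ.c2.r b3 e1
      rw [H.E_one γ.c1.l b8.1 (fun e => γ.n1 ((b8.2 _ γ.c1.l).1 e)) b1 b7, one_mul] at b2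
      exact (M_comm b2).symm)
  exact (mem_centralizer_singleton_iff.1 (this hu)).symm

omit γ' t1 t2 in
theorem cen_M (hv : v ∈ M D k) (h3 : ∀ u ∈ M D k, v * u = u * v) : v ∈ M D k' := by
  have hD := H.rt
  have hk := γ.c1.r
  have f1 := H.fx_k γ h1
  obtain ⟨ε₁, b1, ε₂, b2, a₁, a₂, z₁, z₂, c1, c2, c3, c4, c5, c6, c7, c8, c9, c10⟩ :=
    H.dec γ h1 hv (h3 _ (M_mem γ.c2.symm))
  have k1 : ∀ {v ε a z}, (∀ u ∈ M D k, v * u = u * v) → ε ∈ 𝐄 D e → a * a = 1 → z ∈ M D k ⊓ M D k' →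
      v = ε * a * z → v * v = ⁅ε, a⁆ := fun {v ε a z} h hε ha hz e => by
    have z2 := H.E_inf hk γ.c2.r (fun e => γ.e2 e.symm) (H.M_sq hk hz.1) (H.M_sq γ.c2.r hz.2)
    rw [← K_eq (H.E_sq γ.c1.l hε) ha, K, show ε * a = v * z by rw [e, mul_assoc, z2, mul_one],
      mul_assoc, cc (h z hz.1).symm, z2, mul_one]
  have e1 := k1 h3 b1 (sq hD c1.l) c3 c5
  have e2 := k1 (fun u hu => by
    have := comm_cj (h3 _ (H.fxM hk (f1.inv hD) hu)) h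
    rwa [show h * (h⁻¹ * u * h⁻¹⁻¹) * h⁻¹ = u by group] at this) b2 c8 c4 c6
  rw [conj_mul, (c10 _ c2).2, H.cm_swap hk (H.eM γ b1) c2, (c10 _ (H.eM γ b1)).1,
    H.cm_swap hk (M_mem c1) (H.eM γ b1), ← e1] at e2
  have e3 := H.fpf_k γ h1 h2 (H.M_sq hk hv)
    (by rw [← mul_inv_eq_iff_eq_mul]; exact (mul_left_cancel (mul_right_cancel e2)).symm)
  have b3 := H.mE γ.c1.l b1 c7
  obtain ⟨κ, d1, d2⟩ := H.sp c1 γ.c1 γ.e1 ((b3.2 _ c1.l).1 (cm_iff.1 (e1.symm.trans e3)).symm)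
  have d3 := H.e_one γ (mul_mem b1 d2) (by
    rw [← mul_assoc]; exact (comm_mul c9.symm (E_cm d1 γ.c2.r γ.c2.c.symm).symm).symm)
  rw [c5, eq_inv_of_mul_eq_one_left ((mul_assoc _ _ _).trans d3)]
  exact mul_mem (inv_mem (H.kM' γ d1)) c3.2

theorem I0 (ht : h * t = t * h) (hy : y ∈ M D k) (y1 : y * e = e * y) (y2 : y * k' = k' * y) :
    y * (t * y * t⁻¹) ∈ M D k' := by
  have hD := H.rt
  have hk := γ.c1.r
  let N := M D k ⊓ (centralizer {e} ⊓ centralizer {k'})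
  have mN : ∀ {u}, u ∈ N ↔ u ∈ M D k ∧ u * e = e * u ∧ u * k' = k' * u := by
    simp only [N, mem_inf, mem_centralizer_singleton_iff, implies_true]
  have nN : ∀ {h}, Fx D h k → Fx D h e → Fx D h k' → ∀ u ∈ N, h * u * h⁻¹ ∈ N := fun a1 a2 a3 u hu =>
    have := mN.1 hu
    mN.2 ⟨H.fxM hk a1 this.1, fx_comm hD a2 γ.c1.l fun _ => H.cE γ.c1 γ.e1 this.1 this.2.1,
      fx_comm hD a3 γ.c2.r fun _ => H.cE γ.c2.symm γ.e2 this.1 this.2.2⟩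
  have hN := nN (H.fx_k γ h1) (h1.fx hD) (H.fx_k' γ h1)
  have tN := nN (H.fx_k γ' t1) (H.fx_k' γ' t1) (t1.fx hD)
  have yN := mN.2 ⟨hy, y1, y2⟩
  have wN := mul_mem yN (tN y yN)
  have vN := mul_mem wN (hN _ wN)
  have i1 : ∀ u ∈ N, ⁅y * (t * y * t⁻¹) * (h * (y * (t * y * t⁻¹)) * h⁻¹), u * (h * u * h⁻¹)⁆ = 1 :=
    fun u hu => H.iso γ h1 wN.1 (mN.1 wN).2.2 hu.1 (mN.1 hu).2.1 (mN.1 hu).2.2
  have i2 : ∀ u ∈ N, ⁅y * (t * y * t⁻¹) * (h * (y * (t * y * t⁻¹)) * h⁻¹), u * (t * u * t⁻¹)⁆ = 1 :=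
    fun u hu => by
      have m := mul_mem yN (hN y yN)
      have m' := (mul_mem hu (tN u hu)).1
      have := H.iso γ' t1 m.1 (mN.1 m).2.1 hu.1 (mN.1 hu).2.2 (mN.1 hu).2.1
      have e : h * (t * y * t⁻¹) * h⁻¹ = t * (h * y * h⁻¹) * t⁻¹ := by
        rw [show h * (t * y * t⁻¹) * h⁻¹ = h * t * y * (h * t)⁻¹ by group, ht]; group
      rw [← conj_mul, H.cm_mul_l hk m.1 (mul_mem (tN y yN) (tN _ (hN y yN))).1 m',
        H.cm_mul_l hk hy (hN y yN).1 m', H.cm_mul_l hk (tN y yN).1 (tN _ (hN y yN)).1 m'] at this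
      rw [← conj_mul, e, H.cm_mul_l hk wN.1 (mul_mem (hN y yN) (tN _ (hN y yN))).1 m',
        H.cm_mul_l hk hy (tN y yN).1 m', H.cm_mul_l hk (hN y yN).1 (tN _ (hN y yN)).1 m', ← this]
      generalize u * (t * u * t⁻¹) = u' at m'
      rw [mul_assoc ⁅y, u'⁆, mul_assoc ⁅y, u'⁆,
        cc (EE_cm hk hk rfl (H.M_cE hk (hN y yN).1 m') (H.M_cE hk (tN y yN).1 m'))]
  generalize y * (t * y * t⁻¹) = w at *
  have k0 : w * (h * w * h⁻¹) ∈ M D k' := by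
    generalize w * (h * w * h⁻¹) = v at *
    let I := N ⊓ centralizer {v}
    have mI : ∀ {u}, u ∈ N → ⁅v, u⁆ = 1 → u ∈ I := fun hu e =>
      ⟨hu, mem_centralizer_singleton_iff.2 (cm_iff.1 e).symm⟩
    have pI : IsPGroup 2 I := (pM H.nc k).to_inf_left.to_inf_left
    have k1 : ∀ {h}, (∀ u ∈ N, h * u * h⁻¹ ∈ N) → (∀ u ∈ N, ⁅v, u * (h * u * h⁻¹)⁆ = 1) →
        (∀ x ∈ I, h * x * h⁻¹ ∈ I) ∧ ∀ u ∈ N, u⁻¹ * (h * u * h⁻¹) ∈ I := fun hN i1 =>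
      ⟨fun x hx => by simpa using mul_mem (inv_mem hx) (mI (mul_mem hx.1 (hN x hx.1)) (i1 x hx.1)),
        fun u hu => by
          have := mul_mem (inv_mem (mI (mul_mem hu hu) (cm_iff.2 (EM_cm (H.M_sq hk hu.1) vN.1).symm)))
            (mI (mul_mem hu (hN u hu)) (i1 u hu))
          rwa [_root_.mul_inv_rev, mul_assoc, inv_mul_cancel_left] at this⟩
    have k2 : ∀ u ∈ N, v * u = u * v := fun u hu => by
      obtain ⟨s, s1, s2⟩ := cf pI (k1 hN i1).1 (H.to_odd γ h1) ((k1 hN i1).2 u hu)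
      have m := mul_mem hu s1.1
      have ct : ∀ {x}, x ∈ centralizer {h} → t * x * t⁻¹ ∈ centralizer {h} := fun hx =>
        mul_mem (mul_mem (mem_centralizer_singleton_iff.2 ht.symm) hx)
          (inv_mem (mem_centralizer_singleton_iff.2 ht.symm))
      have m' := mem_centralizer_singleton_iff.2 s2
      obtain ⟨s', s3, s4⟩ := cf (I := I ⊓ centralizer {h}) pI.to_inf_left
        (fun x hx => ⟨(k1 tN i2).1 x hx.1, ct hx.2⟩) (H.to_odd γ' t1)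
        ⟨(k1 tN i2).2 _ m, Subgroup.mul_mem _ (Subgroup.inv_mem _ m') (ct m')⟩
      have := H.C0 γ γ' h1 h2 t1 t2 (mul_mem m s3.1.1).1
        (mem_centralizer_singleton_iff.1 (mul_mem m' s3.2)).symm s4.symm vN.1
      exact comm_of_mul' (mem_centralizer_singleton_iff.1 s1.2).symm
        (comm_of_mul' (mem_centralizer_singleton_iff.1 s3.1.2).symm this.symm)
    refine H.cen_M γ h1 h2 vN.1 fun u hu => ?_
    obtain ⟨κ, a1, a2⟩ := H.chi γ.c1 γ.c2.symm γ.n1 hu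
    have m := mul_mem hu (H.kM γ a1)
    obtain ⟨ε, a3, a4⟩ := H.chi γ.c2.symm γ.c1 γ.n1.symm m
    have := k2 _ (mN.2 ⟨mul_mem m (H.eM γ a3),
      (comm_mul a2.symm (E_cm a3 γ.c1.l rfl).symm).symm, a4⟩)
    exact comm_of_mul' (H.cE γ.c2.symm γ.e2 vN.1 (mN.1 vN).2.2 a1)
      (comm_of_mul' (H.cE γ.c1 γ.e1 vN.1 (mN.1 vN).2.1 a3) this)
  refine H.P3 γ h1 h2 wN.1 (mN.1 wN).2.2 ?_
  have := mul_mem (inv_mem (H.kM' γ (H.M_sq hk wN.1))) k0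
  rwa [_root_.mul_inv_rev, mul_assoc, inv_mul_cancel_left] at this

end

end HR

end Cfsg.Agent.H7.RX
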