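import Cfsg.Agent.H7.RB4

/-! Root involutions, rank two: apartments. -/

set_option autoImplicit false

namespace Cfsg.Agent.H7.RX

open Cfsg.Agent.H8 RI RS Subgroup
open scoped commutatorElement

variable {G : Type*} [Group G] {D S : Set G}
  {a b c d e f g h k k' m n n₁ n₂ n₃ p q r s t t₁ u v w x y z κ ε φ : G}

local notation "𝐄" => sameCommutingSubgroup

theorem mid_ex [Finite G] (hD : IsRootInvolutionSet D) (ha : a ∈ D) (hb : b ∈ D) (ho : Od a b) :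
    ∃ z ∈ D, z * a * z = b := by
  obtain ⟨n, e⟩ := exists_conj_of_od hD ha hb ho
  have aa := sq hD ha
  have i1 : ∀ n : ℤ, a * ((a * b) ^ n)⁻¹ = (a * b) ^ n * a := fun n => by
    have : a * (a * b)⁻¹ * a⁻¹ = a * b := by
      rw [_root_.mul_inv_rev, inv_eq hD ha, inv_eq hD hb]; simp only [mul_assoc, aa, mul_one]
    rw [← inv_zpow, ← mul_inv_eq_iff_eq_mul, ← conj_zpow, this]
  obtain ⟨j, hj⟩ := ho.2
  have e1 : (a * b) ^ (n * (j + 1)) * (a * b) ^ (n * (j + 1)) = (a * b) ^ n := by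
    rw [← zpow_add, show n * (j + 1) + n * (j + 1) = n + (2 * j + 1 : ℕ) * n by push_cast; ring, zpow_add,
      zpow_mul, zpow_natCast, ← hj, pow_orderOf_eq_one, one_zpow, mul_one]
  refine ⟨(a * b) ^ n * a, ?_, ?_⟩
  · have := hD.conj_mem a ha ((a * b) ^ (n * (j + 1)))
    rwa [mul_assoc, i1, ← mul_assoc, e1] at this
  · rw [mul_assoc _ a a, aa, mul_one, ← i1, ← mul_assoc, e]

theorem s4_rel (aa : a * a = 1) (bb : b * b = 1) (nn : n * n = 1) (h : a * b = b * a)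
    (h1 : a * n * a = n * a * n) (h2 : b * n * b = n * b * n) : (a * b * n) ^ 2 ^ 2 = 1 := by
  have e1 : a * b * n * (a * b * n) = n * (a * (b * (n * (b * a)))) := by
    calc _ = a * (b * n * b) * a * n := by simp only [mul_assoc, cc h]
      _ = a * n * b * (n * a * n) := by rw [h2]; simp only [mul_assoc]
      _ = a * n * a * b * n * a := by rw [← h1]; simp only [mul_assoc, cc h]
      _ = n * a * (n * b * n) * a := by rw [h1]; simp only [mul_assoc]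
      _ = _ := by rw [← h2]; simp only [mul_assoc]
  calc _ = a * b * n * (a * b * n) * (a * b * n * (a * b * n)) := by
        rw [show 2 ^ 2 = 4 from rfl]; simp only [pow_succ, pow_zero, one_mul, mul_assoc]
    _ = 1 := by
      nth_rw 2 [e1]
      simp only [mul_assoc, ii nn, cc h, ii aa, ii bb, h, aa, bb, mul_one]

structure Ap (D : Set G) (g e k k' f t t₁ : G) : Prop where
  γ : Geo D e k k' f
  γ' : Geo D k' k e g
  h1 : To D e f t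
  h2 : t ≠ 1
  t1 : To D k' g t₁
  t2 : t₁ ≠ 1
  mt : ∀ κ ∈ 𝐄 D k, t₁ * κ * t₁⁻¹ = t * κ * t⁻¹
  f1 : Fx D t₁ f
  f2 : Fx D t g
  cm : t * t₁ = t₁ * t

theorem Ap.symm (A : Ap D g e k k' f t t₁) : Ap D f k' k e g t₁ t :=
  ⟨A.γ', A.γ, A.t1, A.t2, A.h1, A.h2, fun κ hκ => (A.mt κ hκ).symm, A.f2, A.f1, A.cm.symm⟩

namespace HR

variable [Finite G] (H : HR D)
include H

theorem fx_D (ha : a ∈ D) (hd : d ∈ D) (h : Fx D d a) : d * a = a * d := by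
  rcases tri H.rt ha hd with e | e | e
  · exact e.symm
  · exact absurd h (not_fx H.rt ha hd e)
  · have c := co_l H.rt ha hd e
    have h1 := mul_mem (E_self ha) (h.E H.rt (E_self ha))
    rw [inv_eq H.rt hd, conj_K (sq H.rt ha), ii (sq H.rt ha)] at h1
    exact ((H.mE ha h1 (RI.ne_one H.rt c.l)).2 d hd).1 (co_r H.rt ha hd e).c.symm

theorem r1_of (hS : S ⊆ D) (h1 : ∀ s ∈ S, ∀ t ∈ S, s * t ∈ D → s * t ∈ S)
    (h1' : ∀ s ∈ S, ∀ t ∈ S, s * t * s ∈ S) (h2 : ∀ s ∈ S, ∀ t ∈ S, Ee D s t ∨ Od s t) (ha : a ∈ S)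
    (hx : x ∈ S) (ho : Od a x) (h3 : ∀ b ∈ D, Ee D a b → b ∈ S) :
    RT.R1 S ∧ (∀ s ∈ S, ∀ t ∈ S, Commute s t ↔ Ee D s t) ∧
      ∀ s ∈ S, ∀ t ∈ S, Commute s t → s ≠ t → s * t ∈ S := by
  have hD := H.rt
  have cm : ∀ s ∈ S, ∀ t ∈ S, Commute s t ↔ Ee D s t := fun s hs t ht =>
    ⟨fun h => (h2 s hs t ht).resolve_right fun o => o.not_comm hD (hS hs) (hS ht) h, fun h => h.comm (hS hs)⟩
  have hm : ∀ s ∈ S, ∀ t ∈ S, Commute s t → s ≠ t → s * t ∈ S :=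
    fun s hs t ht h hn => h1 s hs t ht (H.hE s (hS hs) t (hS ht) ((cm s hs t ht).1 h) hn)
  have ot : RT.OT S := ⟨fun d hd => hD.orderOf_eq d (hS hd), h1',
    fun s hs t ht => (h2 s hs t ht).imp_left (cm s hs t ht).2⟩
  have nc : ¬ Commute x a := fun e => ho.not_comm hD (hS ha) (hS hx) e.symm
  exact ⟨{ ot with
      cl := fun s hs t ht => by
        have k : ∀ s ∈ S, a ∈ RT.Cl (closure S) s := fun s hs => by
          by_cases e : Commute s a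
          · exact RT.Cl.trans (ot.of_od hx ha nc (subset_closure hx) (subset_closure ha))
              (ot.of_od hs hx (fun e' => nc ((cm x hx a ha).2 (((cm s hs x hx).1 e').symm.trans
                ((cm s hs a ha).1 e)))) (subset_closure hs) (subset_closure hx))
          · exact ot.of_od hs ha e (subset_closure hs) (subset_closure ha)
        exact RT.Cl.trans (RT.Cl.symm (k t ht)) (k s hs)
      pure := by
        obtain ⟨u, hu, v, hv, e, hn⟩ := H.hq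
        obtain ⟨g, rfl⟩ := H.nc.cl u hu a (hS ha)
        have m := h3 _ (hD.conj_mem v hv g) (e.conj hD g)
        have c := (cm _ ha _ m).2 (e.conj hD g)
        exact ⟨_, ha, _, m, c, hm _ ha _ m c fun e => hn (mul_left_cancel (mul_right_cancel e))⟩
      tr := fun s hs t ht u hu h1 h2 =>
        (cm s hs u hu).2 (((cm s hs t ht).1 h1).trans ((cm t ht u hu).1 h2))
      na := ⟨x, hx, a, ha, nc⟩ }, cm, hm⟩

theorem mtch (γ : Geo D e k k' f) (γ' : Geo D k' k e g) (t1 : To D k' g t₁) :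
    ∃ t, To D e f t ∧ ∀ κ ∈ 𝐄 D k, t₁ * κ * t₁⁻¹ = t * κ * t⁻¹ := by
  have hD := H.rt
  have hk := γ.c1.r
  obtain ⟨κ₁, κ₂, m₁, m₂, π₁, π₂, rfl, -⟩ := H.to_pt γ' t1
  obtain ⟨n₀, π₀⟩ := H.pt_ex γ (E_self γ.c1.l) (RI.ne_one hD γ.c1.l)
  obtain ⟨ε, a1, a2, -⟩ := H.surj γ.c1 (H.pt_co γ' π₁) (fun e => γ.n1 ((π₁.ee _ γ.c1.l).2 e))
    (H.M_cE hk (M_mem γ.c1) (H.kM γ π₂.E))
  obtain ⟨n, π⟩ := H.pt_ex γ a1 fun e => γ.n1 ((π₂.ee _ γ.c1.l).2 (cm_iff.1 (by rw [← a2, e]; simp)))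
  rw [← H.Q0 γ π π₁.E, ← H.Q0 γ π₀ π₂.E] at a2
  refine ⟨_, ⟨_, _, π₀.sw, π.sw, rfl⟩, fun κ hκ => ?_⟩
  by_cases e1 : κ = 1
  · simp [e1]
  have s1 := sq hD π₁.sw.1
  have m := ((H.pt_mid γ' π₁).symm hD).E hD hκ
  obtain ⟨ν, π'⟩ := H.pt_ex γ m fun e => e1 (by
    rw [← conj_of_comm s1 (show m₁ * 1 = 1 * m₁ by simp)] at e
    exact mul_left_cancel (mul_right_cancel e))
  have b1 := (H.Q0 γ' π₁ m).trans ((H.cm_swap hk (H.kM γ π₁.E) (H.eM γ m)).trans (H.Q0 γ π' π₁.E).symm)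
  have b2 := (H.Q0 γ' π₂ m).trans ((H.cm_swap hk (H.kM γ π₂.E) (H.eM γ m)).trans (H.Q0 γ π' π₂.E).symm)
  have b3 := (H.sw_mul γ π'.sw π₀.sw π.sw).2.1
  simp only [_root_.mul_inv_rev, inv_eq hD π₁.sw.1, inv_eq hD π₂.sw.1, inv_eq hD π₀.sw.1, inv_eq hD π.sw.1]
  calc _ = m₂ * (m₁ * κ * m₁) * m₂ := by simp only [mul_assoc]
    _ = ν * n₀ * (n₀ * κ₂ * n₀) * n₀ * ν := by
      rw [b2]; simp only [mul_assoc, ii (sq hD π₀.sw.1)]
    _ = ν * n₀ * n * κ₁ * (n * n₀ * ν) := by rw [← a2]; simp only [mul_assoc]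
    _ = n * n₀ * (ν * κ₁ * ν) * (n₀ * n) := by
      calc _ = n * n₀ * ν * κ₁ * (ν * n₀ * n) := by rw [b3]
        _ = _ := by simp only [mul_assoc]
    _ = _ := by rw [← b1]; simp only [mul_assoc, ii s1]

theorem to_cm (γ : Geo D e k k' f) (h1 : To D e f t) (f1 : Fx D u e) (f2 : Fx D u f) (f3 : Fx D u k)
    (h2 : ∀ κ ∈ 𝐄 D k, u * κ * u⁻¹ = t * κ * t⁻¹) (hs : To D e f s) : s * u = u * s := by
  have hD := H.rt
  have h3 := H.to_mul γ (hs.inv hD) ((hs.cj hD u).ee hD f1 f2)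
  have m := (f3.inv hD).E hD (E_self γ.c1.r)
  have e1 := h2 _ m
  have e2 := h2 _ ((H.fx_k γ hs).E hD m)
  have : s⁻¹ * (u * s * u⁻¹) = 1 := by_contra fun n => RI.ne_one hD γ.c1.r (H.fpf_k γ h3 n (E_self γ.c1.r) (by
    rw [← mul_inv_eq_iff_eq_mul]
    calc _ = s⁻¹ * (u * (s * (u⁻¹ * k * u⁻¹⁻¹) * s⁻¹) * u⁻¹) * s := by group
      _ = s⁻¹ * (t * s) * (u⁻¹ * k * u⁻¹⁻¹) * (s⁻¹ * (t * s))⁻¹ := by rw [e2]; group
      _ = _ := by rw [H.to_comm γ h1 hs, inv_mul_cancel_left, ← e1]; group))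
  rw [inv_mul_eq_one, eq_mul_inv_iff_mul_eq] at this
  exact this

theorem ap_ex (γ' : Geo D k' k e g) (t1 : To D k' g t₁) (t2 : t₁ ≠ 1) : ∃ f t, Ap D g e k k' f t t₁ := by
  have hD := H.rt
  obtain ⟨f, γ, f1⟩ := H.exists_fix γ'.symm (t1.symm hD)
  obtain ⟨t, h1, h2⟩ := H.mtch γ γ' t1
  have c := H.to_cm γ h1 (H.fx_k' γ' t1) f1 (H.fx_k γ' t1) h2 h1
  have a1 := h1.fx hD
  have a2 := H.fx_k γ h1
  have n : t * g * t⁻¹ * k ≠ k * (t * g * t⁻¹) := fun e => γ'.n2 (by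
    have := comm_cj ((a2 _ (hD.conj_mem g γ'.c3.r t)).2 e) t⁻¹
    simpa [mul_assoc] using this.symm)
  refine ⟨f, t, γ, γ', h1, fun e => RI.ne_one hD γ.c1.r (H.fpf_k γ' t1 t2 (E_self γ.c1.r) ?_), t1, t2, h2, f1,
    H.F3 γ'.symm (t1.symm hD) t2 (col H.nc H.hE (γ'.c3.symm.conj hD t)
      (fun e => n (((e.trans a1) k γ.c1.r).2 γ.c1.c.symm).symm) γ.c1.l a1) n ?_, c⟩
  · rw [← mul_inv_eq_iff_eq_mul, h2 _ (E_self γ.c1.r), e]; simp
  · have := ((t1.symm hD).fx hD).cj hD t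
    rwa [cj_of_comm c] at this

theorem act1 (γ : Geo D e k k' f) (h1 : To D e f t) (hε : ε ∈ 𝐄 D e) (hκ : κ ∈ 𝐄 D k') :
    ⁅ε, t * κ * t⁻¹⁆ = t⁻¹ * ⁅ε, κ⁆ * t := by
  by_cases e1 : ε = 1
  · simp [e1]
  obtain ⟨n, π⟩ := H.pt_ex γ hε e1
  have e2 := H.to_inv γ (h1.inv H.rt) π.sw
  rw [inv_inv] at e2
  rw [← H.Q0 γ π hκ, ← H.Q0 γ π ((H.fx_k' γ h1).E H.rt hκ)]
  calc _ = n * t * n * (n * κ * n) * (n * t⁻¹ * n) := by simp only [mul_assoc, ii (sq H.rt π.sw.1)]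
    _ = _ := by rw [e2, H.to_inv γ h1 π.sw]

theorem cen_all (γ : Geo D e k k' f) (h1 : ∀ ε ∈ 𝐄 D e, w * ε = ε * w) (h2 : Fx D w f) :
    (∀ n, Sw D e f n → w * n = n * w) ∧ ∀ φ ∈ 𝐄 D f, w * φ = φ * w := by
  have hD := H.rt
  have k : ∀ n, Sw D e f n → w * n = n * w := fun n hn => by
    obtain ⟨ε, π⟩ := H.pt γ hn
    have := H.pt_uniq γ π ⟨(hn.cj hD w).ee hD (Fx.of (h1 _ (E_self γ.c1.l))) h2, π.m, π.ee, by
      rw [← cj_of_comm (h1 _ π.E), conj_mul, H3.orderOf_conj, π.o]⟩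
    rw [← mul_inv_eq_iff_eq_mul, ← this]
  refine ⟨k, fun φ hφ => ?_⟩
  obtain ⟨n, π⟩ := H.pt_ex γ (E_self γ.c1.l) (RI.ne_one hD γ.c1.l)
  exact comm_of_mul (k n π.sw) (comm_of_mul' (k n π.sw) (h1 _ ((π.sw.symm hD).E hD hφ)))

variable (A : Ap D g e k k' f t t₁)
include A

theorem w_k' (hκ : κ ∈ 𝐄 D k') : t₁ * (t * t) * κ = κ * (t₁ * (t * t)) := by
  have hD := H.rt
  have hk := A.γ.c1.r
  have he := E_self A.γ.c1.l
  have f1 := H.fx_k' A.γ A.h1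
  have m1 := f1.E hD (f1.E hD hκ)
  have m2 := (A.t1.fx hD).E hD m1
  have m3 := H.M_cE hk (H.kM A.γ m1) (H.eM A.γ he)
  have e1 := H.act1 A.γ' (A.t1.inv hD) m1 he
  have e2 : ⁅t₁ * (t * (t * κ * t⁻¹) * t⁻¹) * t₁⁻¹, e⁆ = ⁅κ, e⁆ := by
    rw [show e = t₁ * (t₁⁻¹ * e * t₁⁻¹⁻¹) * t₁⁻¹ by group, cm_cj, e1, inv_inv, A.mt _ m3,
      A.mt _ ((H.fx_k A.γ A.h1).E hD m3), H.cm_swap hk (H.kM A.γ m1) (H.eM A.γ he),
      H.act1 A.γ A.h1 he (f1.E hD hκ), H.act1 A.γ A.h1 he hκ, H.cm_swap hk (H.eM A.γ he) (H.kM A.γ hκ)]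
    simp only [mul_assoc, mul_inv_cancel_left, mul_inv_cancel, mul_one, inv_mul_cancel]
  have := H.k_one A.γ (mul_mem m2 hκ) (cm_iff.1 (by
    rw [H.cm_mul_l hk (H.kM A.γ m2) (H.kM A.γ hκ) (H.eM A.γ he), e2,
      H.E_sq hk (H.M_cE hk (H.kM A.γ hκ) (H.eM A.γ he))]))
  rw [mul_eq_one_iff_eq_inv, H.E_inv A.γ.c2.r hκ] at this
  nth_rw 2 [← this]
  group

theorem w_all : (∀ m, Sw D k' g m → t₁ * (t * t) * m = m * (t₁ * (t * t))) ∧
    ∀ φ ∈ 𝐄 D g, t₁ * (t * t) * φ = φ * (t₁ * (t * t)) :=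
  H.cen_all A.γ' (fun _ => H.w_k' A) (((A.t1.symm H.rt).fx H.rt).mul H.rt (A.f2.mul H.rt A.f2))

theorem m_t (hm : Sw D k' g m) : m * t * m = t₁ * t := by
  have mm := sq H.rt hm.1
  have o1 := H.to_odd A.γ A.h1
  refine ZD.eq_of_sq_eq (by nth_rw 2 [← inv_eq H.rt hm.1]; rwa [H3.orderOf_conj])
    (((H.to_odd A.γ' A.t1).mul o1).of_dvd_nat (Commute.orderOf_mul_dvd_mul_orderOf A.cm.symm)) ?_
  have e1 := conj_of_comm mm ((H.w_all A).1 m hm).symm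
  rw [conj_mul' mm, H.to_inv A.γ' A.t1 hm, inv_mul_eq_iff_eq_mul] at e1
  rw [← conj_mul' mm, e1]
  simp only [mul_assoc, cc A.cm]

/-- the fixed neighbours of `g` -/
theorem nb0 (hm : Sw D k' g m) (ha : Co D a g) (h1 : ¬ Ee D a g) (h2 : Fx D t a) (h3 : Fx D t₁ a) :
    Ee D a e ∨ Ee D (m * a * m) f := by
  have hD := H.rt
  by_cases e1 : a * e = e * a
  · refine .inl (by_contra fun n => h1 ?_)
    have c := H.np a ha.l e A.γ.c1.l e1 fun e => n (by rw [e]; exact Ee.refl _)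
    refine H.F3 A.γ'.symm (A.t1.symm hD) A.t2 c (fun e2 => n ?_) h3
    obtain ⟨η, b1, b2⟩ := H.sp c A.γ.c1.symm (fun e => A.γ.e1 e.symm) e2
    have := H.E_one A.γ.c1.r ha.r A.γ'.n2 b2
      (comm_mul ha.c.symm (E_cm b1 ha.r A.γ'.c3.c.symm).symm).symm
    rw [mul_eq_one_iff_eq_inv, H.E_inv A.γ.c1.l b1] at this
    exact (H.mE A.γ.c1.l (this ▸ b1) (RI.ne_one hD ha.l)).2
  · have i := inv_eq hD hm.1
    have s := (H.mid A.γ' hm).2
    have n : m * a * m * k ≠ k * (m * a * m) := fun e => e1 (by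
      have := comm_cj ((s _ (conj_mem hD ha.l hm.1)).2 e) m
      simpa only [i, mul_assoc, ii (sq hD hm.1), sq hD hm.1, mul_one] using this)
    have c := ha.conj hD m
    have := (h3.mul hD h2).cj hD m
    rw [← H.m_t A hm, i, show m * (m * t * m) * m = m * m * t * (m * m) by simp only [mul_assoc],
      sq hD hm.1, one_mul, mul_one] at this
    rw [i] at c
    exact .inr (H.F3 A.γ.symm (A.h1.symm hD) A.h2 (col H.nc H.hE c
      (fun e => n (((e.trans (hm.symm hD).2) k A.γ.c1.r).2 A.γ.c2.c).symm) A.γ.c2.r (hm.symm hD).2) n this)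

end HR

end Cfsg.Agent.H7.RX
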