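import Cfsg.Agent.H7.RB5

/-! Root involutions, rank two: apartments close up; odd pairs generate `L₂(q)`. -/

set_option autoImplicit false

namespace Cfsg.Agent.H7.RX

open Cfsg.Agent.H8 RI RS Subgroup
open scoped commutatorElement

variable {G : Type*} [Group G] {D S : Set G}
  {a b c d e f f' g h k k' m n n₁ n₂ n₃ p q r s t t₁ u v w x y z κ ε φ : G}

local notation "𝐄" => sameCommutingSubgroup

theorem Geo.cj (hD : IsRootInvolutionSet D) (γ : Geo D e k k' f) (g : G) :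
    Geo D (g * e * g⁻¹) (g * k * g⁻¹) (g * k' * g⁻¹) (g * f * g⁻¹) :=
  ⟨γ.c1.conj hD g, γ.c2.conj hD g, γ.c3.conj hD g, fun h => γ.n1 (RT.cj_comm_iff.1 h),
    fun h => γ.n2 (RT.cj_comm_iff.1 h)⟩

theorem od_cj (h : Od (g * a * g⁻¹) (g * b * g⁻¹)) : Od a b := by simpa [mul_assoc] using h.conj g⁻¹

theorem ee_cj (hD : IsRootInvolutionSet D) (hn : n ∈ D) (h : Ee D (n * a * n) b) : Ee D a (n * b * n) := by
  have := h.conj hD n
  rwa [inv_eq hD hn, show n * (n * a * n) * n = n * n * a * (n * n) by simp only [mul_assoc], sq hD hn,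
    one_mul, mul_one] at this

namespace HR

variable [Finite G] (H : HR D)
include H

theorem nrm3 (γ : Geo D e k k' f) (hs : To D e f s) (h1 : s ≠ 1) (h3 : s * (s * s) = 1) (hφ : φ ∈ 𝐄 D f) :
    φ * (s * φ * s⁻¹) * (s⁻¹ * φ * s) = 1 := by
  have hD := H.rt
  have hf := γ.c3.r
  have f1 := (hs.symm hD).fx hD
  have m1 := f1.E hD hφ
  have m2 := (f1.inv hD).E hD hφ
  rw [inv_inv] at m2
  have m := mul_mem (mul_mem hφ m1) m2
  by_contra n
  have k := H.mE hf m n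
  refine H.fpf_e γ.symm (hs.symm hD) h1 _ k.1 k.2.symm ?_
  have e1 : s * s = s⁻¹ := eq_inv_of_mul_eq_one_right h3
  rw [← mul_inv_eq_iff_eq_mul, ← conj_mul, ← conj_mul,
    show s * (s * φ * s⁻¹) * s⁻¹ = s * s * φ * (s * s)⁻¹ by group, e1, inv_inv,
    show s * (s⁻¹ * φ * s) * s⁻¹ = φ by group, EE_cm hf hf rfl (mul_mem m1 m2) hφ, mul_assoc φ]

theorem three (γ : Geo D e k k' f) (h3 : ∀ s, To D e f s → s * (s * s) = 1) (ht : To D e f t) (h1 : t ≠ 1)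
    (hs : To D e f s) : s = 1 ∨ s = t ∨ s = t⁻¹ := by
  have hD := H.rt
  have hf := γ.c3.r
  by_contra hn
  simp only [not_or] at hn
  have f1 := (hs.symm hD).fx hD
  have f2 := (ht.symm hD).fx hD
  have a := E_self hf
  have c := H.to_comm γ hs ht
  have k1 := H.to_mul γ hs ht
  have k2 := H.to_mul γ hs (ht.inv hD)
  have e0 := H.nrm3 γ ht h1 (h3 t ht) a
  have e1 := H.nrm3 γ k1 (fun e => hn.2.2 (eq_inv_of_mul_eq_one_left e)) (h3 _ k1) a
  have e2 := H.nrm3 γ k2 (fun e => hn.2.1 (mul_inv_eq_one.1 e)) (h3 _ k2) a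
  have e3 := H.nrm3 γ hs hn.1 (h3 s hs) a
  rw [show s * t * f * (s * t)⁻¹ = s * (t * f * t⁻¹) * s⁻¹ by group, c,
    show (t * s)⁻¹ * f * (t * s) = s⁻¹ * (t⁻¹ * f * t) * s by group] at e1
  rw [show s * t⁻¹ * f * (s * t⁻¹)⁻¹ = s * (t⁻¹ * f * t) * s⁻¹ by group, comm_inv c,
    show (t⁻¹ * s)⁻¹ * f * (t⁻¹ * s) = s⁻¹ * (t * f * t⁻¹) * s by group] at e2
  have m1 := f2.E hD a
  have m2 := (f2.inv hD).E hD a
  rw [inv_inv] at m2
  rw [mul_assoc, mul_eq_one_iff_inv_eq, inv_eq hD hf] at e0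
  generalize t * f * t⁻¹ = x, t⁻¹ * f * t = y at *
  rw [e0, ← conj_mul, show s⁻¹ * (x * y) * s = s⁻¹ * x * s * (s⁻¹ * y * s) by group, ← e0] at e3
  have m3 := f1.E hD m1
  have m4 := f1.E hD m2
  have m5 := (f1.inv hD).E hD m1
  have m6 := (f1.inv hD).E hD m2
  rw [inv_inv] at m5 m6
  generalize s * x * s⁻¹ = x1, s * y * s⁻¹ = y1, s⁻¹ * x * s = x2, s⁻¹ * y * s = y2 at *
  have C : ∀ {a b}, a ∈ 𝐄 D f → b ∈ 𝐄 D f → a * b = b * a := EE_cm hf hf rfl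
  refine RI.ne_one hD hf ?_
  calc f = f * x1 * y2 * (f * y1 * x2) * (f * (x1 * y1) * (x2 * y2)) := by
        simp only [mul_assoc, cc (C m3 a), cc (C m4 a), cc (C m5 a), cc (C m6 a), cc (C m4 m3), cc (C m5 m3),
          cc (C m6 m3), cc (C m5 m4), cc (C m6 m4), cc (C m6 m5), ii (H.E_sq hf a), ii (H.E_sq hf m3),
          ii (H.E_sq hf m4), ii (H.E_sq hf m5), ii (H.E_sq hf m6), H.E_sq hf m3, H.E_sq hf m4,
          H.E_sq hf m5, H.E_sq hf m6, mul_one]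
    _ = 1 := by rw [e1, e2, e3, mul_one, mul_one]

theorem three' (γ : Geo D e k k' f) (h3 : ∀ s, To D e f s → s * (s * s) = 1) (ht : To D e f t) (h1 : t ≠ 1)
    (hφ : φ ∈ D) (e1 : Ee D f φ) (hy : y ∈ D) (e2 : Ee D f y) :
    y = φ ∨ y = t * φ * t⁻¹ ∨ y = t⁻¹ * φ * t := by
  have hD := H.rt
  have o := (H.geo_od γ).symm
  obtain ⟨n₁, a1, a2⟩ := mid_ex hD hφ γ.c1.l (e1.od hD γ.c3.r hφ γ.c1.l o)
  obtain ⟨n₂, a3, a4⟩ := mid_ex hD γ.c1.l hy (e2.od hD γ.c3.r hy γ.c1.l o).symm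
  have e3 : y = n₂ * n₁ * φ * (n₂ * n₁)⁻¹ := by
    rw [← a4, ← a2, _root_.mul_inv_rev, inv_eq hD a1, inv_eq hD a3]; simp only [mul_assoc]
  rcases H.three γ h3 ht h1 ⟨n₁, n₂, (Sw.ee hD ⟨a1, a2 ▸ Ee.refl _⟩ e1.symm (Ee.refl e)).symm hD,
    ⟨a3, a4 ▸ e2.symm⟩, rfl⟩ with e | e | e <;> rw [e] at e3
  · exact .inl (by simpa using e3)
  · exact .inr (.inl e3)
  · exact .inr (.inr (by simpa using e3))

variable (A : Ap D g e k k' f t t₁)
include A

theorem transf (hp : p ∈ D) (p1 : p * k' = k' * p) (p2 : p * f = f * p) (p3 : ¬ Od p g) (c1 : Co D f' k')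
    (n1 : f' * k ≠ k * f') (o : Od f' g) : ∃ p, P D f' g p := by
  have hD := H.rt
  have γ := A.γ
  have hk := γ.c1.r
  obtain ⟨y, y1, y2, φ, y3, rfl⟩ := H.trans γ.c2 γ.c3.symm γ.n2 c1 n1
  obtain ⟨κ, k1, k2⟩ := H.chi γ.c1 γ.c2.symm γ.n1 y1
  have m := mul_mem y1 (H.kM γ k1)
  have i := H.I0 γ A.γ' A.h1 A.h2 A.t1 A.t2 A.cm m k2
    (comm_mul y2.symm (E_cm k1 γ.c2.r rfl).symm).symm
  have f1 := H.fx_k A.γ' A.t1
  obtain ⟨s, s1, s2⟩ := cf (I := M D k ⊓ M D k') (k := t₁) (u := y * κ) (pM H.nc k).to_inf_left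
    (fun x hx => ⟨H.fxM hk f1 hx.1, H.fxM γ.c2.r (A.t1.fx hD) hx.2⟩) (H.to_odd A.γ' A.t1)
    ⟨Subgroup.mul_mem _ (Subgroup.inv_mem _ m) (H.fxM hk f1 m), by
      have := mul_mem (inv_mem (H.kM' γ (H.M_sq hk m))) i
      rwa [_root_.mul_inv_rev, mul_assoc, inv_mul_cancel_left] at this⟩
  have c2 := (H.F2a A.γ' A.t1 A.t2 (mul_mem m s1.1) s2.symm).2.2.2
  have e1 : y * φ * y⁻¹ = y * κ * s * (⁅s⁻¹, φ⁆ * φ) * (y * κ * s)⁻¹ := by
    rw [← cj_eq, ← cj_of_comm (EE_cm γ.c2.r γ.c3.r γ.c3.c k1 y3)]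
    nth_rw 2 [cj_of_comm (EE_cm γ.c2.r γ.c3.r γ.c3.c k1 y3)]
    group
  have mp := hD.conj_mem p hp (y * κ * s)
  have o' : ¬ Od (y * κ * s * p * (y * κ * s)⁻¹) g := fun o => p3 (od_cj (by rwa [cj_of_comm c2]))
  refine ⟨_, P_of hD (H.np _ mp _ c1.l ?_ fun e => o' (e ▸ o)) A.γ'.c3.r o o'⟩
  rw [e1]
  exact comm_cj (comm_mul (E_cm (H.M_cE γ.c2.r (inv_mem s1.2) (H.E_M' γ.c3.symm y3)) hp p1).symm
    (E_cm y3 hp p2).symm) _

theorem caseA (h3 : t₁ * (t₁ * t₁) ≠ 1) : ¬ Od f g := by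
  have hD := H.rt
  have γ := A.γ
  have γ' := A.γ'
  have hk := γ.c1.r
  have hk' := γ.c2.r
  have hg := γ'.c3.r
  have f1 := H.fx_k γ A.h1
  have f2 := H.fx_k γ' A.t1
  have w1 := fun κ => H.w_k' A (κ := κ)
  obtain ⟨w2, w3⟩ := H.w_all A
  have w4 : Fx D (t₁ * (t * t)) k := f2.mul hD (f1.mul hD f1)
  have w5 : ∀ κ ∈ 𝐄 D k, t₁ * (t * t) * κ = κ * (t₁ * (t * t)) → κ = 1 := fun κ hκ e =>
    H.fpf_k γ' (H.to_mul γ' A.t1 (H.to_mul γ' A.t1 A.t1)) h3 hκ (by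
      rw [← mul_inv_eq_iff_eq_mul] at e ⊢
      rw [show t₁ * (t₁ * t₁) * κ * (t₁ * (t₁ * t₁))⁻¹ = t₁ * (t₁ * (t₁ * κ * t₁⁻¹) * t₁⁻¹) * t₁⁻¹ by group,
        A.mt κ hκ, A.mt _ (f1.E hD hκ)]
      exact Eq.trans (by group) e)
  obtain ⟨n, πn⟩ := H.pt_ex γ (E_self γ.c1.l) (RI.ne_one hD γ.c1.l)
  obtain ⟨m₁, m₂, a1, a2, a3⟩ := A.t1
  have nn := sq hD πn.sw.1
  have mm := sq hD a1.1
  have e1 := H.m_t A.symm πn.sw
  have e2 := H.m_t A a1
  have e3 := H.to_inv γ' A.t1 a1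
  have x0 := conj_mem hD (conj_mem hD γ.c3.r a1.1) πn.sw.1
  have cj : ∀ x, n * m₁ * (m₁ * (n * x * n) * m₁) * (n * m₁)⁻¹ = x := fun x => by
    rw [_root_.mul_inv_rev, inv_eq hD a1.1, inv_eq hD πn.sw.1]; simp only [mul_assoc, ii nn, ii mm, nn, mul_one]
  have x1 : n * (m₁ * f * m₁) * n = n * m₁ * f * (n * m₁)⁻¹ := by
    rw [_root_.mul_inv_rev, inv_eq hD a1.1, inv_eq hD πn.sw.1]; simp only [mul_assoc]
  have x2 : Fx D t₁ (n * (m₁ * f * m₁) * n) := by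
    have := ((A.h1.symm hD).fx hD).cj hD (n * m₁)
    rwa [← x1, show t = m₁ * (n * t₁ * n) * m₁ by rw [e1, conj_mul' mm, e2, e3, ← A.cm, mul_inv_cancel_right],
      cj] at this
  have x3 : n * (m₁ * f * m₁) * n * (t₁ * (t * t)) = t₁ * (t * t) * (n * (m₁ * f * m₁) * n) := by
    have := comm_cj (comm_inv ((H.w_all A.symm).2 f (E_self γ.c3.r)).symm) (n * m₁)
    rwa [← x1, show (t * (t₁ * t₁))⁻¹ = m₁ * (n * (t₁ * (t * t)) * n) * m₁ by
      rw [conj_mul' nn, conj_mul' nn, e1, H.to_inv γ A.h1 πn.sw, A.cm,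
        show t₁ * t * (t⁻¹ * t⁻¹) = t₁ * t⁻¹ by group, conj_mul' mm, e3, eq_inv_iff_mul_eq_one.2
          (show m₁ * t⁻¹ * m₁ * (t₁ * t) = 1 by rw [← e2, ← conj_mul' mm, inv_mul_cancel, mul_one, mm]),
        ← _root_.mul_inv_rev, ← A.cm, mul_assoc], cj] at this
  generalize t₁ * (t * t) = w at *
  let S := {d | d ∈ D ∧ d * w = w * d}
  have s1 : ∀ {a b}, a ∈ S → b ∈ S → a * b * w = w * (a * b) := fun ha hb =>
    (comm_mul ha.2.symm hb.2.symm).symm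
  have k1 : ∀ d ∈ S, Co D d k' → Ee D d k' := fun d hd c => by
    by_cases e : d * k = k * d
    · obtain ⟨η, b1, b2⟩ := H.sp c γ.c2 (fun e => γ.e2 e.symm) e
      have := w5 _ b2 (comm_mul hd.2.symm (w1 _ b1))
      rw [mul_eq_one_iff_eq_inv, H.E_inv hk' b1] at this
      exact (H.mE hk' (this ▸ b1) (RI.ne_one hD hd.1)).2
    · have m := w4.E hD (E_self hk)
      have b1 := H.KE c γ.c2
      have := H.E_one hk hd.1 (Ne.symm e) (mul_mem (E_self hk) m) (cm_iff.1 (by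
        rw [H.cm_mul_r hk' (M_mem γ.c2) (H.kM' γ m) (M_mem c)]
        nth_rw 2 [← cj_of_comm hd.2.symm]
        rw [cm_cj, cj_of_comm (w1 _ b1), H.E_sq hk' b1])).symm
      rw [mul_eq_one_iff_inv_eq, inv_eq hD hk, eq_mul_inv_iff_mul_eq] at this
      exact absurd (w5 k (E_self hk) this.symm) (RI.ne_one hD hk)
  have kS : k' ∈ S := ⟨hk', (w1 _ (E_self hk')).symm⟩
  have k2 : ∀ d ∈ S, Ee D d k' ∨ Od d k' := fun d hd => by
    rcases tri hD hd.1 hk' with e | e | e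
    · exact .inl ((em (d = k')).elim (fun e => e ▸ Ee.refl d) fun n => k1 d hd (H.np d hd.1 k' hk' e n))
    · exact .inr e
    · have c := co_r hD hd.1 hk' e
      exact absurd ((k1 _ ⟨c.l, (comm_mul (s1 hd kS).symm (s1 hd kS).symm).symm⟩ c d hd.1).1
        (co_l hD hd.1 hk' e).c.symm) (e.not_comm hD hd.1 hk')
  have k3 : ∀ s ∈ S, ∀ s' ∈ S, Ee D s s' ∨ Od s s' := fun s hs s' hs' => by
    rcases k2 s hs with e | e
    · exact (k2 s' hs').imp (fun e' => e.trans e'.symm) fun o => e.symm.od hD hk' hs.1 hs'.1 o.symm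
    obtain ⟨i, e1⟩ := exists_conj_of_od hD hs.1 hk' e
    have c : Commute ((s * k') ^ i) w := Commute.zpow_left (s1 hs kS) i
    generalize (s * k') ^ i = u at *
    have := k2 _ ⟨hD.conj_mem s' hs'.1 u, by
      have := comm_cj hs'.2 u
      rwa [cj_of_comm c] at this⟩
    rw [← e1] at this
    exact this.imp (fun e => by simpa [mul_assoc] using (e.conj hD u⁻¹).symm) fun o => (od_cj o).symm
  have og := H.geo_od γ'
  have gS : g ∈ S := ⟨hg, (w3 _ (E_self hg)).symm⟩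
  obtain ⟨r, cm, hm⟩ := H.r1_of (S := S) (fun _ h => h.1) (fun s hs t ht h => ⟨h, s1 hs ht⟩)
    (fun s hs t ht => ⟨conj_mem hD ht.1 hs.1, (comm_mul (s1 hs ht).symm hs.2.symm).symm⟩) k3 kS gS og
    fun b hb e => ⟨hb, (w1 _ (E_of hb e)).symm⟩
  have mS : ∀ {m}, Sw D k' g m → m ∈ S := fun h => ⟨h.1, (w2 _ h).symm⟩
  obtain ⟨R, K, l⟩ := r.loc ZS.coreStep hm kS (mS a1) ((a1.od hD hk' hg og).not_comm hD a1.1 hk')
  have dS : ∀ {a b}, a ∈ S → b ∈ S → (RT.δ S a = RT.δ S b ↔ Ee D a b) := fun ha hb =>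
    (r.δ_iff ha hb).trans (cm _ ha _ hb)
  obtain ⟨z, hz, e4⟩ := l.swap_iff.1 ⟨mS a2, by
    rw [RT.smul_δ (r.nrm (subset_closure (mS a2))), inv_eq hD a2.1]
    exact (dS (r.cnj _ (mS a2) _ kS) (r.cnj _ (mS a1) _ kS)).2 (a2.2.trans a1.2.symm)⟩
  have tK : t₁ ∈ K := by rw [a3, e4, l.K_inv hz]; exact inv_mem hz
  have tS : t₁ ∈ closure S := a3 ▸ mul_mem (subset_closure (mS a2)) (subset_closure (mS a1))
  have xS : _ ∈ S := ⟨x0, x3⟩
  rcases l.K_fix tK A.t2 ⟨_, xS, rfl⟩ (by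
    rw [RT.smul_δ (r.nrm tS)]; exact (dS (r.conj tS xS) xS).2 x2) with e | e
  · have := ee_cj hD a1.1 ((ee_cj hD πn.sw.1 ((dS xS kS).1 e)).trans (H.mid γ πn.sw).2)
    exact absurd ((this.trans ((H.mid γ' a1).symm hD).2).comm γ.c3.r).symm
      ((H.geo_od γ).not_comm hD γ.c1.l γ.c3.r)
  · have b1 := ee_cj hD πn.sw.1 (((dS xS (r.cnj _ (mS a1) _ kS)).1 e).trans a1.2)
    have c := γ'.c3.conj hD n
    have b2 := comm_cj γ.c3.c m₁
    rw [inv_eq hD πn.sw.1] at c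
    rw [inv_eq hD a1.1] at b2
    exact fun o => c.nod hD hg ((b1 g hg).1 ((a1.2 _ (conj_mem hD γ.c3.r a1.1)).1 b2.symm).symm)
      (πn.sw.2.symm.od hD γ.c3.r c.l hg o)

theorem caseB (h3 : ∀ s, To D e f s → s * (s * s) = 1) : ∃ p ∈ D, p * e = e * p ∧ p * g = g * p ∧ ¬ Od p f := by
  have hD := H.rt
  have γ := A.γ
  have γ' := A.γ'
  have he := γ.c1.l
  have hk := γ.c1.r
  have hf := γ.c3.r
  have hg := γ'.c3.r
  by_cases o : Od g f
  swap
  · exact ⟨g, hg, γ'.c3.c.symm, rfl, o⟩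
  have f1 := H.fx_k γ A.h1
  have f2 := H.fx_k γ' A.t1
  have t3 := h3 t A.h1
  have s3 : t₁ * (t₁ * t₁) = 1 := by_contra fun n => RI.ne_one hD hk
    (H.fpf_k γ' (H.to_mul γ' A.t1 (H.to_mul γ' A.t1 A.t1)) n (E_self hk) (by
      have a := E_self hk
      rw [← mul_inv_eq_iff_eq_mul,
        show t₁ * (t₁ * t₁) * k * (t₁ * (t₁ * t₁))⁻¹ = t₁ * (t₁ * (t₁ * k * t₁⁻¹) * t₁⁻¹) * t₁⁻¹ by group,
        A.mt k a, A.mt _ (f1.E hD a), A.mt _ (f1.E hD (f1.E hD a)),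
        show t * (t * (t * k * t⁻¹) * t⁻¹) * t⁻¹ = t * (t * t) * k * (t * (t * t))⁻¹ by group, t3]
      simp))
  have w1 := (H.w_all A).2
  have w2 := (H.w_all A.symm).2
  have w3 := fun κ => H.w_k' A.symm (κ := κ)
  rw [eq_inv_of_mul_eq_one_right t3] at w1
  rw [eq_inv_of_mul_eq_one_right s3, show t * t₁⁻¹ = (t₁ * t⁻¹)⁻¹ by group] at w2 w3
  replace w2 := fun φ h => by simpa using (comm_inv (w2 φ h).symm).symm
  replace w3 := fun φ h => by simpa using (comm_inv (w3 φ h).symm).symm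
  obtain ⟨z, hz, e1⟩ := mid_ex hD hg hf o
  have zz := sq hD hz
  have zi := inv_eq hD hz
  have s1 : Sw D f g z := Sw.symm hD ⟨hz, e1 ▸ Ee.refl _⟩
  have e2 : z * f * z = g := by rw [← e1]; simp only [mul_assoc, ii zz, zz, mul_one]
  have u1 : ∀ {v φ}, φ ∈ D → Ee D f φ → v * φ = φ * v → v * (z * φ * z) = z * φ * z * v → v * z = z * v :=
    fun {v φ} hφ b1 b2 b3 => by
      rw [← mul_inv_eq_iff_eq_mul]
      refine (mid_uniq hD hφ hz (hD.conj_mem z hz v)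
        ((s1.ee hD b1 (Ee.refl g)).od hD hφ hg (b1.od hD hf hφ hg o.symm)) ?_).symm
      nth_rw 2 [← cj_of_comm b2]
      rw [conj_mul, conj_mul, cj_of_comm b3]
  have wz : t₁ * t⁻¹ * z = z * (t₁ * t⁻¹) :=
    u1 hf (Ee.refl f) (w2 f (E_self hf)) (by rw [e2]; exact w1 g (E_self hg))
  have ft := (A.h1.symm hD).fx hD
  have g1 : Fx D (z * t * z) f := by
    have := A.f2.cj hD z
    rwa [zi, e1] at this
  have g2 : Fx D (z * t * z) g := by
    have := ft.cj hD z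
    rwa [zi, e2] at this
  have c0 : t * (z * t * z) = z * t * z * t := by
    by_cases c : t * z = z * t
    · rw [conj_of_comm zz c.symm]
    have k : ∀ φ ∈ D, Ee D f φ → z * t * z * φ * (z * t * z)⁻¹ = t⁻¹ * φ * t := fun φ hφ b1 => by
      have m := hD.conj_mem φ hφ (z * t * z)
      rcases H.three' γ h3 A.h1 A.h2 hφ b1 m (g1.symm.trans (b1.conj hD _)) with b | b | b
      · have m' := s1.E hD (E_of hφ b1)
        have m2 := H.mE hg m' (RI.ne_one hD (conj_mem hD hφ hz))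
        refine absurd ?_ (H.fpf_e γ'.symm (A.t1.symm hD) A.t2 _ m2.1 m2.2.symm)
        rw [← inv_mul_cancel_right t₁ t]
        refine (comm_mul (w1 _ m').symm ?_).symm
        calc _ = z * (z * t * z * φ * (z * t * z)⁻¹) * z * t := by rw [b]
          _ = _ := by
            simp only [_root_.mul_inv_rev, zi, mul_assoc, ii zz, inv_mul_cancel, mul_one]
      · refine absurd ?_ c
        have := mid_uniq hD hφ hz (hD.conj_mem z hz t⁻¹)
          ((s1.ee hD b1 (Ee.refl g)).od hD hφ hg (b1.od hD hf hφ hg o.symm)) (by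
            calc _ = t⁻¹ * z * (z * t * z * φ * (z * t * z)⁻¹) * z * t := by
                  simp only [_root_.mul_inv_rev, zi, mul_assoc, ii zz, inv_mul_cancel, mul_one,
                    inv_mul_cancel_left]
              _ = _ := by rw [b]; group)
        nth_rw 1 [this]
        group
      · exact b
    have b1 := k f hf (Ee.refl f)
    have b2 := k _ (hD.conj_mem f hf t) ft.symm
    have := u1 (v := t * (z * t * z)) hf (Ee.refl f) (by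
      rw [← mul_inv_eq_iff_eq_mul, show t * (z * t * z) * f * (t * (z * t * z))⁻¹ =
        t * (z * t * z * f * (z * t * z)⁻¹) * t⁻¹ by group, b1]; group) (by
      calc _ = z * (z * t * z * (t * f * t⁻¹) * (z * t * z)⁻¹) * z * (t * (z * t * z)) := by
            simp only [_root_.mul_inv_rev, zi, mul_assoc, ii zz, inv_mul_cancel_left, zz, mul_one,
              inv_mul_cancel]
        _ = _ := by rw [b2]; group)
    calc _ = t * (z * t * z) * z * z := by rw [mul_assoc _ z z, zz, mul_one]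
      _ = _ := by rw [this]; simp only [mul_assoc, zz, mul_one]
  have wt : t₁ * t⁻¹ * t = t * (t₁ * t⁻¹) := by rw [← mul_assoc, A.cm]; group
  have c1 : t₁ * (z * t * z) = z * t * z * t₁ := by
    rw [← inv_mul_cancel_right t₁ t]
    exact (comm_mul (comm_mul (comm_mul wz wt) wz).symm c0.symm).symm
  obtain ⟨m, -, hm, -⟩ := A.t1
  have kk : ∀ j, Fx D j g → t * j = j * t → t₁ * j = j * t₁ → Fx D j e ∨ Ee D (j * e * j⁻¹) (m * f * m) :=
    fun j b1 b2 b3 => by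
      have n : ¬ Ee D (j * e * j⁻¹) (j * g * j⁻¹) := fun e => γ'.symm.e1 (by
        simpa [mul_assoc] using (e.conj hD j⁻¹).symm)
      refine (H.nb0 A hm (col H.nc H.hE (γ'.c3.conj hD j) n hg b1) (fun e => n (e.trans b1.symm)) ?_ ?_).imp_right
        (ee_cj hD hm.1)
      · have := (A.h1.fx hD).cj hD j
        rwa [cj_of_comm b2.symm] at this
      · have := (H.fx_k' γ' A.t1).cj hD j
        rwa [cj_of_comm b3.symm] at this
  have g3 : Fx D (z * t * z) e := by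
    have t3' : z * t * z * (z * t * z) = (z * t * z)⁻¹ := eq_inv_of_mul_eq_one_right (by
      rw [← conj_mul' zz, ← conj_mul' zz, t3, mul_one, zz])
    generalize z * t * z = j at *
    refine (kk j g2 c0 c1).elim id fun b1 => (kk j⁻¹ (g2.inv hD) (comm_inv c0) (comm_inv c1)).elim
      (fun b => by simpa using b.inv hD) fun b2 => ?_
    have := (b1.trans b2.symm).conj hD j
    rw [show j * (j⁻¹ * e * j⁻¹⁻¹) * j⁻¹ = e by group,
      show j * (j * e * j⁻¹) * j⁻¹ = j * j * e * (j * j)⁻¹ by group, t3'] at this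
    simpa using Fx.inv hD this
  have cz : ∀ x, z * (z * x * z) * z = x := fun x => by simp only [mul_assoc, ii zz, zz, mul_one]
  have g4 := g3.cj hD z
  have g5 := ((Fx.of (w3 e (E_self he))).mul hD g3).cj hD z
  rw [zi, conj_mul' zz, cz, conj_of_comm zz wz.symm, inv_mul_cancel_right] at g5
  rw [zi, cz] at g4
  have γz := γ.cj hD z
  have cy := γ'.c3.conj hD z
  rw [zi] at γz cy
  rw [e1] at cy
  rw [e2] at γz
  obtain ⟨n, πn⟩ := H.pt_ex γ (E_self he) (RI.ne_one hD he)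
  rcases H.nb0 A.symm πn.sw cy (fun b => γ'.symm.e1 (e2 ▸ (ee_cj hD hz b).symm)) g5 g4 with b | b
  · have k1 := γz.c1.r
    have b1 : k' * (z * k * z) = z * k * z * k' := ((b _ k1).1 γz.c1.c.symm).symm
    have b2 : e * (z * k * z) = z * k * z * e := (((ee_cj hD hz b) _ k1).2 γz.c2.c).symm
    have b3 := (H.K_ee' (H.np e he _ k1 b2 fun e => γ.n1 (e ▸ b1.symm))
      (H.np k' γ.c2.r _ k1 b1 fun e => γ.n1 (e ▸ b2)) γ.n1).symm.trans (H.K_ee' γ.c1 γ.c2.symm γ.n1)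
    have b4 := H.fx_D hk hz (by rw [Fx, zi]; exact b3)
    have b5 : z ∈ M D k := (em (z = k)).elim (fun e => e ▸ H.self_M hz) fun n => M_mem (H.np z hz k hk b4 n)
    refine absurd ((b e he).1 ?_) γ.n1
    nth_rw 2 4 [← zi]
    rw [cj_eq]
    exact comm_mul (E_cm (H.M_cE hk b5 (M_mem γ.c1)) he γ.c1.c).symm rfl
  · obtain ⟨g₁, a1, a2, a3⟩ := H.sw3 γz.symm (Sw.symm hD ⟨πn.sw.1, b⟩)
    have c := H.co_l' γ'.c3.symm γ'.symm.e1 a1 a2
    have c2 := c.mul_r hD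
    refine ⟨g₁ * e, c.m, c2.c, (comm_mul (a2.comm hg) γ'.c3.c.symm).symm, fun o => ?_⟩
    obtain ⟨φ, p1, p2, p3, p4⟩ := H.pt_phi γ πn
    have o1 := (p2.od hD hf p1.l c.m o.symm).conj' hD he
    rw [← braid (sq hD p1.l) (sq hD he) p4, ← p3, conj_of_comm (sq hD he) c2.c.symm] at o1
    have := RI.eq_one_of_odd o1.symm.2 (s4_rel (sq hD a1) (sq hD he) (sq hD πn.sw.1) c.c
      (braid (sq hD a1) (sq hD πn.sw.1) a3) (braid (sq hD he) (sq hD πn.sw.1) πn.o))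
    exact o1.1 (by rw [eq_inv_of_mul_eq_one_left this, inv_eq hD πn.sw.1])

omit A in
theorem near (ha : a ∈ D) (hx : x ∈ D) (ho : Od a x) : ∃ k, P D a x k := by
  have hD := H.rt
  refine H.near_all (fun e f g k hf o hk hg n o' => ?_) ha hx ho
  by_cases c : g * k = k * g
  · obtain ⟨ε, h1, h2⟩ := H.lemB hg.r hf o hk hg c
    have h3 := H.mE hg.r h1 fun e => h2 (by rwa [e, mul_one])
    exact ⟨_, P_of hD ((col H.nc H.hE hg n h3.1 h3.2.symm).mul_l hD) hf o' h2⟩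
  have γ := H.geo_of hg.r hf o hk
  by_cases h3 : ∀ s, To D e f s → s * (s * s) = 1
  · obtain ⟨t₁, t1, t2⟩ := H.to_ex γ
    obtain ⟨f', t, A⟩ := H.ap_ex γ t1 t2
    obtain ⟨p, p0, p1, p2, p3⟩ := H.caseB A.symm h3
    exact H.transf A p0 p1 p2 p3 hg c o'
  · push Not at h3
    obtain ⟨t₁, t1, t2⟩ := h3
    obtain ⟨f', t, A⟩ := H.ap_ex γ t1 fun e => t2 (by simp [e])
    exact H.transf A A.γ.c3.r A.γ.c3.c.symm rfl (H.caseA A t2) hg c o'

end HR

/-- In the non-degenerate case every odd pair generates `L₂(q)`. -/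
theorem H2 [Finite G] (H : NC D) (hE : ∀ a ∈ D, ∀ b ∈ D, Ee D a b → a ≠ b → a * b ∈ D)
    (hfo : ∃ a ∈ D, ∃ b ∈ D, Fo a b) (hq : ∃ a ∈ D, ∃ b ∈ D, Ee D a b ∧ a ≠ b) :
    ∀ a ∈ D, ∀ b ∈ D, Od a b → ∀ (k : Type) [Field k] [Fintype k], Fintype.card k = Nat.card (𝐄 D a) →
      IsPSL2PairOver k (𝐄 D a) (𝐄 D b) := fun a ha b hb ho k _ _ hk => by
  have Q : HQ D := ⟨H, hE, hfo⟩
  obtain ⟨p, hp⟩ : ∃ p, P D a b p := by
    by_cases h : ∀ w ∈ D, ∀ d ∈ D, w * d = d * w → w ≠ d → Co D w d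
    · exact HR.near ⟨Q, hq, h⟩ ha hb ho
    · push Not at h
      obtain ⟨w, hw, d, hd, h1, h2, h3⟩ := h
      exact Q.near_pl (Q.polar hw hd h1 h2 h3) ha hb ho
  exact near_psl H hE hfo hq ha hb ho hp hk

end Cfsg.Agent.H7.RX
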