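import Cfsg.Agent.H7.RA

/-! Root involutions: odd pairs at distance three generate `L₂(q)`. -/

set_option autoImplicit false
set_option linter.style.haveILetI false

namespace Cfsg.Agent.H7.RX

open Cfsg.Agent.H8 RI RS Subgroup

variable {G : Type*} [Group G] {D : Set G} {a b c d e k n s t x y : G}

local notation "𝐄" => sameCommutingSubgroup

theorem E_self (ha : a ∈ D) : a ∈ 𝐄 D a := subset_closure ⟨ha, rfl⟩

theorem E_of (hb : b ∈ D) (h : Ee D a b) : b ∈ 𝐄 D a := subset_closure (mem_sc.2 ⟨hb, h⟩)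

theorem E_cm (hn : n ∈ 𝐄 D a) (hs : s ∈ D) (h : s * a = a * s) : n * s = s * n := by
  have : 𝐄 D a ≤ centralizer {s} := (closure_le _).2 fun e he =>
    mem_centralizer_singleton_iff.2 (((mem_sc.1 he).2 s hs).1 h).symm
  exact mem_centralizer_singleton_iff.1 (this hn)

theorem E_le (hD : IsRootInvolutionSet D) (ha : a ∈ D) (hx : x ∈ D) (h : Od a x) :
    𝐄 D x ≤ 𝐄 D a ⊔ zpowers x := by
  obtain ⟨n, e1⟩ := exists_conj_of_od hD ha hx h
  have k0 : (a * x) ^ n ∈ 𝐄 D a ⊔ zpowers x :=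
    zpow_mem (mul_mem (mem_sup_left (E_self ha)) (mem_sup_right (mem_zpowers x))) n
  have k1 := RT.E_conj hD a ((a * x) ^ n)
  rw [e1] at k1
  rw [← k1]
  rintro _ ⟨y, hy, rfl⟩
  exact mul_mem (mul_mem k0 (mem_sup_left hy)) (inv_mem k0)

/-- the root elements of the rank one group generated by `E(a)` and `E(x)` -/
def TT (D : Set G) (a x : G) : Set G :=
  {s | s ∈ D ∧ (Ee D a s ∨ ∃ n ∈ 𝐄 D a, Ee D (n * x * n⁻¹) s)}

variable [Finite G] (H : NC D) (hE : ∀ a ∈ D, ∀ b ∈ D, Ee D a b → a ≠ b → a * b ∈ D)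
  (ha : a ∈ D) (hx : x ∈ D) (ho : Od a x)
include H

theorem TT_a (ha : a ∈ D) (hn : n ∈ 𝐄 D a) (hs : s ∈ TT D a x) : n * s * n⁻¹ ∈ TT D a x := by
  obtain ⟨hs, h | ⟨m, hm, h⟩⟩ := hs
  · rw [E_cm hn hs (h.comm ha).symm, mul_inv_cancel_right]
    exact ⟨hs, .inl h⟩
  · refine ⟨H.rt.conj_mem s hs n, .inr ⟨n * m, mul_mem hn hm, ?_⟩⟩
    have := h.conj H.rt n
    rwa [show n * (m * x * m⁻¹) * n⁻¹ = n * m * x * (n * m)⁻¹ by group] at this

omit [Finite G] in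
theorem TT_le (hs : s ∈ TT D a x) : s ∈ 𝐄 D a ⊔ 𝐄 D x := by
  obtain ⟨hs, h | ⟨m, hm, h⟩⟩ := hs
  · exact mem_sup_left (E_of hs h)
  · have h1 := h.conj H.rt m⁻¹
    rw [show m⁻¹ * (m * x * m⁻¹) * m⁻¹⁻¹ = x by group] at h1
    have := mul_mem (mul_mem (mem_sup_left hm : m ∈ 𝐄 D a ⊔ 𝐄 D x)
      (mem_sup_right (E_of (H.rt.conj_mem s hs _) h1))) (inv_mem (mem_sup_left hm))
    rwa [show m * (m⁻¹ * s * m⁻¹⁻¹) * m⁻¹ = s by group] at this

include hE ha hx ho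

theorem TT_pair (hs : s ∈ TT D a x) (ht : t ∈ TT D a x) : Ee D s t ∨ Od s t := by
  have hD := H.rt
  have k : ∀ s ∈ D, Ee D a s → ∀ t ∈ D, ∀ m ∈ 𝐄 D a, Ee D (m * x * m⁻¹) t → Od s t :=
    fun s hs h t ht m hm h' => by
      have := ho.conj m
      rw [E_cm hm ha rfl, mul_inv_cancel_right] at this
      exact (h'.od hD (hD.conj_mem x hx m) ht hs (h.od hD ha hs (hD.conj_mem x hx m) this).symm).symm
  obtain ⟨hs, h | ⟨m, hm, h⟩⟩ := hs <;> obtain ⟨ht, h' | ⟨n, hn, h'⟩⟩ := ht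
  · exact .inl (h.symm.trans h')
  · exact .inr (k s hs h t ht n hn h')
  · exact .inr (k t ht h' s hs m hm h).symm
  · rcases (mem_E H hE ha).1 (mul_mem (inv_mem hm) hn) with e | e
    · rw [inv_mul_eq_one] at e
      subst e
      exact .inl (h.symm.trans h')
    · have o := ((e.2.symm.od hD ha e.1 hx ho).symm.sq_od hD hx e.1).conj m
      rw [show m * (m⁻¹ * n * x * (m⁻¹ * n)) * m⁻¹ = n * x * n⁻¹ by
        nth_rw 2 [← inv_eq hD e.1]; group] at o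
      exact .inr (h'.od hD (hD.conj_mem x hx n) ht hs
        (h.od hD (hD.conj_mem x hx m) hs (hD.conj_mem x hx n) o).symm).symm

variable (R1 : ∀ a' ∈ D, Ee D a a' → ∃ y ∈ D, Ee D x y ∧ orderOf (a' * y) = 3)
  (R2 : ∀ y ∈ D, Ee D x y → ∃ a' ∈ D, Ee D a a' ∧ orderOf (a' * y) = 3)
include R1 R2

omit ho in
theorem TT_x (hy : y ∈ 𝐄 D x) (hs : s ∈ TT D a x) : y * s * y⁻¹ ∈ TT D a x := by
  have hD := H.rt
  have k : ∀ y ∈ 𝐄 D x, ∀ s ∈ D, Ee D a s → y * s * y⁻¹ ∈ TT D a x := fun y hy s hs h => by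
    rcases (mem_E H hE hx).1 hy with rfl | e
    · simpa using ⟨hs, .inl h⟩
    obtain ⟨a', h1, h2, h3⟩ := R2 y e.1 e.2.symm
    refine ⟨hD.conj_mem s hs y, .inr ⟨a', E_of h1 h2, (e.2.symm.conj hD a').trans ?_⟩⟩
    have := (h2.symm.trans h).conj hD y
    rw [inv_eq hD h1, braid (sq hD h1) (sq hD e.1) h3]
    rwa [inv_eq hD e.1] at this ⊢
  obtain ⟨hs, h | ⟨m, hm, h⟩⟩ := hs
  · exact k y hy s hs h
  rcases (mem_E H hE ha).1 hm with rfl | e
  · rw [one_mul, inv_one, mul_one] at h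
    rw [E_cm hy hs (h.comm hx).symm, mul_inv_cancel_right]
    exact ⟨hs, .inr ⟨1, hm, by simpa using h⟩⟩
  obtain ⟨z, h1, h2, h3⟩ := R1 m e.1 e.2.symm
  have h4 := ((h2.conj hD m).symm.trans h).conj hD z⁻¹
  rw [inv_eq hD e.1, braid (sq hD e.1) (sq hD h1) h3, show z⁻¹ * (z * m * z) * z⁻¹⁻¹ = m * (z * z) by group,
    sq hD h1, mul_one] at h4
  have := k (y * z) (mul_mem hy (E_of h1 h2)) _ (hD.conj_mem s hs z⁻¹) (e.2.symm.trans h4)
  rwa [show y * z * (z⁻¹ * s * z⁻¹⁻¹) * (y * z)⁻¹ = y * s * y⁻¹ by group] at this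

omit ho in
theorem TT_nrm : 𝐄 D a ⊔ 𝐄 D x ≤ normalizer (TT D a x) :=
  sup_le (fun n hn => mem_set_normalizer_iff.2 fun s => ⟨TT_a H ha hn, fun h => by
      simpa [mul_assoc] using TT_a H ha (inv_mem hn) h⟩)
    fun n hn => mem_set_normalizer_iff.2 fun s => ⟨TT_x H hE ha hx R1 R2 hn, fun h => by
      simpa [mul_assoc] using TT_x H hE ha hx R1 R2 (inv_mem hn) h⟩

theorem psl_of (hq : ∃ a ∈ D, ∃ b ∈ D, Ee D a b ∧ a ≠ b) {k : Type*} [Field k] [Fintype k]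
    (hk : Fintype.card k = Nat.card (𝐄 D a)) : IsPSL2PairOver k (𝐄 D a) (𝐄 D x) := by
  have hD := H.rt
  have aT : a ∈ TT D a x := ⟨ha, .inl (Ee.refl _)⟩
  have xT : x ∈ TT D a x := ⟨hx, .inr ⟨1, one_mem _, by simpa using Ee.refl x⟩⟩
  have ee : ∀ s ∈ TT D a x, ∀ t ∈ D, Ee D s t → t ∈ TT D a x := fun s hs t ht h =>
    ⟨ht, hs.2.imp (·.trans h) fun ⟨n, hn, e⟩ => ⟨n, hn, e.trans h⟩⟩
  have cm : ∀ s ∈ TT D a x, ∀ t ∈ TT D a x, Commute s t ↔ Ee D s t := fun s hs t ht =>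
    ⟨fun h => (TT_pair H hE ha hx ho hs ht).resolve_right fun o => o.not_comm hD hs.1 ht.1 h,
      fun h => h.comm hs.1⟩
  have hm : ∀ s ∈ TT D a x, ∀ t ∈ TT D a x, Commute s t → s ≠ t → s * t ∈ TT D a x :=
    fun s hs t ht h hn => by
      have e := (cm s hs t ht).1 h
      have m := hE s hs.1 t ht.1 e hn
      exact ee s hs _ m (ee_mul H e (co_of hD hs.1 ht.1 m)).symm
  have ot : RT.OT (TT D a x) :=
    ⟨fun d hd => hD.orderOf_eq d hd.1, fun s hs t ht => by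
      have := (mem_set_normalizer_iff.1 (TT_nrm H hE ha hx R1 R2 (TT_le H hs)) t).1 ht
      rwa [inv_eq hD hs.1] at this,
      fun s hs t ht => (TT_pair H hE ha hx ho hs ht).imp_left (cm s hs t ht).2⟩
  have nc : ¬ Commute x a := fun e => ho.not_comm hD ha hx e.symm
  have r : RT.R1 (TT D a x) :=
    { ot with
      cl := fun s hs t ht => by
        have k : ∀ s ∈ TT D a x, a ∈ RT.Cl (closure (TT D a x)) s := fun s hs => by
          by_cases e : Commute s a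
          · exact RT.Cl.trans (ot.of_od xT aT nc (subset_closure xT) (subset_closure aT))
              (ot.of_od hs xT (fun e' => nc ((cm x xT a aT).2 (((cm s hs x xT).1 e').symm.trans
                ((cm s hs a aT).1 e)))) (subset_closure hs) (subset_closure xT))
          · exact ot.of_od hs aT e (subset_closure hs) (subset_closure aT)
        exact RT.Cl.trans (RT.Cl.symm (k t ht)) (k s hs)
      pure := by
        obtain ⟨u, hu, v, hv, e, hn⟩ := hq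
        obtain ⟨g, rfl⟩ := H.cl u hu a ha
        have m := ee _ aT _ (hD.conj_mem v hv g) (e.conj hD g)
        have c := (cm _ aT _ m).2 (e.conj hD g)
        exact ⟨_, aT, _, m, c, hm _ aT _ m c fun e => hn (mul_left_cancel (mul_right_cancel e))⟩
      tr := fun s hs t ht u hu h1 h2 =>
        (cm s hs u hu).2 (((cm s hs t ht).1 h1).trans ((cm t ht u hu).1 h2))
      na := ⟨x, xT, a, aT, nc⟩ }
  obtain ⟨R, K, l⟩ := r.loc ZS.coreStep hm aT xT nc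
  have hB : l.B = 𝐄 D a := Subgroup.ext fun y => by
    rw [l.mem_B, mem_E H hE ha]
    exact or_congr_right ⟨fun e => ⟨e.1.1, (cm _ e.1 _ aT).1 ((r.δ_iff e.1 aT).1 e.2)⟩, fun e =>
      have := ee a aT y e.1 e.2.symm; ⟨this, (r.δ_iff this aT).2 ((cm _ this _ aT).2 e.2)⟩⟩
  have hc : closure (TT D a x) = 𝐄 D a ⊔ 𝐄 D x := le_antisymm ((closure_le _).2 fun s hs => TT_le H hs)
    (sup_le (closure_mono fun s hs => ee a aT s hs.1 (mem_sc.1 hs).2)
      (closure_mono fun s hs => ee x xT s hs.1 (mem_sc.1 hs).2))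
  rcases RT.gen_cases l (by rw [hc, hB]; exact sup_le le_sup_left (E_le hD ha hx ho)) with
    ⟨F, _, _, -, -, b1, b2, ⟨b3⟩⟩ | ⟨b1, -⟩
  · rw [b1, hB] at b2
    exact RT.psl2Pair_of ((MulEquiv.subgroupCongr hc.symm).trans b3) (RT.E_two hD ha) (RT.E_two hD hx) b2
      ((RT.card_E ⟨hD, ⟨a, ha⟩, H.cl⟩ ha hx).trans b2)
      (fun e => nc (E_cm (e ▸ E_self hx) ha rfl)) (hk.trans b2)
  refine absurd (le_antisymm (fun g hg => ?_) l.B_le) b1
  have sT := r.cnj x xT a aT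
  have n1 := r.nrm (l.le hg).1
  have tT := (mem_set_normalizer_iff.1 n1 _).1 sT
  have e1 := RT.smul_δ n1 (x * a * x)
  have n2 : ∀ s ∈ TT D a x, RT.δ (TT D a x) s ≠ RT.δ (TT D a x) a → ∃ n ∈ 𝐄 D a,
      n • RT.δ (TT D a x) x = RT.δ (TT D a x) s := fun s hs h => by
    obtain ⟨n, hn, e⟩ := hs.2.resolve_left fun e => h ((r.δ_iff hs aT).2 ((cm _ hs _ aT).2 e.symm))
    have := TT_a H ha hn xT
    exact ⟨n, hn, by rw [RT.smul_δ (TT_nrm H hE ha hx R1 R2 (mem_sup_left hn)),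
      (r.δ_iff this hs).2 ((cm _ this _ hs).2 e)]⟩
  obtain ⟨m, hm, e2⟩ := n2 _ sT l.ne
  obtain ⟨n, hn, e3⟩ := n2 _ tT fun e => l.ne (by
    have : g • RT.δ (TT D a x) a = RT.δ (TT D a x) a := (l.le hg).2
    exact smul_left_cancel g (e1.trans (e.trans this.symm)))
  have h1 := mul_mem hm (inv_mem hn)
  rw [← hB] at h1
  have := l.free _ (mul_mem (l.B_le h1) hg) (by rw [mul_smul, e1, ← e3, mul_smul, inv_smul_smul, e2])
  rw [eq_inv_of_mul_eq_one_right this]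
  exact inv_mem h1

omit R1 R2 ha hx ho

variable (hfo : ∃ a ∈ D, ∃ b ∈ D, Fo a b)
include hfo

theorem exists_three (ha : a ∈ D) (hx : x ∈ D) (ho : Od a x) (hb : P D a x b) (a' : G) (ha' : a' ∈ D)
    (h : Ee D a a') : ∃ y ∈ D, Ee D x y ∧ orderOf (a' * y) = 3 := by
  have hD := H.rt
  have c0 := P_co hD ha hb
  have n : ¬ Ee D b a := fun e => (e.symm.od hD ha hb.1 hx ho).not_fo hb.2.2.2
  have c1 := col H hE c0 n ha' h
  have h1 := psi hD ha hx ho hb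
  have c2 := co_l hD hb.1 hx hb.2.2.2
  have f1 := (h.fo hD ha ha' h1.1 h1.2.2.2.symm).symm
  have e1 := thmA H hE hfo c2 c1.symm f1
  have c3 := co_l hD h1.1 ha' f1
  have c4 := co_r hD h1.1 ha' f1
  have f2 := K_ee H hE hfo hx hb.1 hb.2.2.2.symm hx c3.l (Ee.refl _) e1.symm
  rw [K_swap hD hb.1 hx fun o => o.not_fo hb.2.2.2] at f2
  obtain ⟨y, hy, e2, e3⟩ := K_surj H hE (thmA H hE hfo) hx c3.l f2.1 h1.1 f2.2
  have f3 := (e2.fo hD hx hy c3.l f2.1).symm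
  exact ⟨y, hy, e2, three' hD c3.symm ⟨c4.symm, f1, rfl⟩ hy f3
    ((K_swap hD hy c3.l fun o => o.symm.not_fo f3).trans e3)⟩

/-- odd pairs at distance three -/
theorem near_psl (hq : ∃ a ∈ D, ∃ b ∈ D, Ee D a b ∧ a ≠ b) (ha : a ∈ D) (hx : x ∈ D) (ho : Od a x)
    (hb : P D a x b) {k : Type*} [Field k] [Fintype k] (hk : Fintype.card k = Nat.card (𝐄 D a)) :
    IsPSL2PairOver k (𝐄 D a) (𝐄 D x) :=
  psl_of H hE ha hx ho (exists_three H hE hfo ha hx ho hb) (fun y hy h => by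
    simpa only [orderOf_mul_comm' y] using
      exists_three H hE hfo hx ha ho.symm (psi H.rt ha hx ho hb) y hy h) hq hk

end Cfsg.Agent.H7.RX
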