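import Cfsg.Agent.H7.RT3
import Cfsg.Agent.H8.ZS4

/-! Odd transpositions: passing from the frozen definitions to `OT` and `PC`. -/

set_option autoImplicit false

namespace Cfsg.Agent.H7.RT

open Subgroup FT H8.ZD H8.RI BS

variable {G : Type*} [Group G] {D : Set G}

lemma ot_of (h : IsOddTranspositionSet D) : OT D where
  ord := h.1.orderOf_eq
  cnj a ha b hb := by simpa [inv2 (h.1.orderOf_eq a ha)] using h.1.conj_mem b hb a
  pair a ha b hb := or_iff_not_imp_left.2 fun e => ⟨fun b => e (b ▸ rfl),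
    ((h.1.pair a ha b hb).resolve_left e).resolve_right fun c => h.2 a ha b hb c.1⟩

lemma pc_of (h : IsOddTranspositionSet D) (hcl : IsRootInvolutionClass D) (hDD : (D ∩ commutingProducts D).Nonempty) :
    PC D where
  toOT := ot_of h
  cl a ha b hb := let ⟨g, e⟩ := hcl.2.2 a ha b hb; ⟨g, h.1.generates.ge (mem_top g), e.symm⟩
  pure := let ⟨_, e, a, ha, b, hb, e1, _, e2⟩ := hDD; ⟨a, ha, b, hb, e1, e2 ▸ e⟩

end Cfsg.Agent.H7.RT
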