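import Cfsg.Agent.H7.Sh5

/-! Odd transpositions: basic facts, for subsets of an ambient group. -/

set_option autoImplicit false
set_option linter.unusedSectionVars false
set_option linter.unusedVariables false
set_option linter.style.haveILetI false

namespace Cfsg.Agent.H7.RT

open Subgroup FT H8.ZD H8.RI BS MulAction H9.Sh
open scoped Classical commutatorElement

universe u

variable {G : Type u} [Group G] {S T U : Set G} {a a' b c d e g k s t w x y z : G} {Q X H : Subgroup G}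

/-- subsets, with the conjugation action -/
def CS (G : Type u) := Set G

instance : MulAction G (CS G) where
  smul g s := fun x => s (g⁻¹ * x * g)
  one_smul s := funext fun x => show s (1⁻¹ * x * 1) = _ by simp
  mul_smul g h s := funext fun x => show s ((g * h)⁻¹ * x * (g * h)) = s (h⁻¹ * (g⁻¹ * x * g) * h) by
    simp [mul_assoc]

/-- the members commuting with `x` -/
def δ (S : Set G) (x : G) : CS G := commutingMembers S x

lemma δ_eq : δ S a = δ S b ↔ ∀ s ∈ S, Commute s a ↔ Commute s b :=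
  Set.ext_iff.trans (forall_congr' fun _ => and_congr_right_iff)

lemma cj_comm (h : Commute a b) (g : G) : Commute (g * a * g⁻¹) (g * b * g⁻¹) := by
  rw [commute_iff_eq, conj_mul, conj_mul, h.eq]

lemma cj_comm_iff : Commute (g * a * g⁻¹) (g * b * g⁻¹) ↔ Commute a b :=
  ⟨fun h => by simpa [mul_assoc] using cj_comm h g⁻¹, fun h => cj_comm h g⟩

lemma smul_δ (hg : g ∈ normalizer S) (a : G) : g • δ S a = δ S (g * a * g⁻¹) := Set.ext fun x =>
  show g⁻¹ * x * g ∈ S ∧ Commute (g⁻¹ * x * g) a ↔ x ∈ S ∧ Commute x (g * a * g⁻¹) from and_congr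
    (by rw [mem_set_normalizer_iff.1 hg]; simp [mul_assoc]) (by rw [← cj_comm_iff (g := g)]; simp [mul_assoc])

/-- singletons -/
def sg (a : G) : CS G := fun x => x = a

lemma smul_sg (g a : G) : g • sg a = sg (g * a * g⁻¹) := funext fun x => propext <|
  show g⁻¹ * x * g = a ↔ x = g * a * g⁻¹ from ⟨fun e => by rw [← e]; group, fun e => by rw [e]; group⟩

lemma sg_inj (h : sg a = sg b) : a = b := (congrFun h a).mp rfl

lemma comm_of_sq (ho : Odd (orderOf x)) (h : Commute g (x * x)) : Commute g x := by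
  obtain ⟨m, hm⟩ := ho
  have : x = (x * x) ^ (m + 1) := by
    rw [← _root_.sq, ← pow_mul, show 2 * (m + 1) = 2 * m + 1 + 1 by ring, pow_succ, ← hm, pow_orderOf_eq_one, one_mul]
  exact this ▸ h.pow_right _

lemma comm_of_od (h : Od a b) (h1 : Commute g a) (h2 : Commute g (b * a * b)) : Commute g b := by
  simpa using h1.inv_right.mul_right (comm_of_sq h.2 (by simpa [mul_assoc] using h1.mul_right h2))

lemma sq_mul (ha : a * a = 1) (hb : b * b = 1) (h : Commute a b) : a * b * (a * b) = 1 := by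
  simp only [mul_assoc, cc h.eq.symm, ii ha, hb]

lemma od_not (h : Od a b) (ha : a * a = 1) (hb : b * b = 1) : ¬ Commute a b := fun e =>
  h.1 (by rw [eq_inv_of_mul_eq_one_left (H8.RI.eq_one_of_odd h.2 (k := 1) (by rw [pow_one, _root_.sq, sq_mul ha hb e])),
    inv_eq_of_mul_eq_one_right hb])

lemma inv_cent' (h : Od d z) (hd : d * d = 1) (ho : Odd (orderOf k)) (h1 : d * k * d = k⁻¹) (h2 : Commute z k) :
    k = 1 := by
  have e1 : Commute (d * z * (d * z)) k := by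
    have e2 : d * k = k⁻¹ * d := by rw [← h1, mul_assoc, hd, mul_one]
    have e3 : d * k⁻¹ = k * d := by rw [← h1, ← mul_assoc, ← mul_assoc, hd, one_mul]
    calc _ = d * z * (d * k) * z := by simp only [mul_assoc, h2.eq]
      _ = d * k⁻¹ * z * d * z := by rw [e2]; simp only [mul_assoc, cc h2.inv_right.eq]
      _ = _ := by rw [e3]; simp only [mul_assoc]
  have e2 : Commute k d := by simpa using (comm_of_sq h.2 e1.symm).mul_right h2.symm.inv_right
  refine H8.RI.eq_one_of_odd ho (k := 1) ?_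
  rw [pow_one, _root_.sq, mul_eq_one_iff_eq_inv, ← h1, ← e2.eq, mul_assoc, hd, mul_one]

lemma fix_orbit [Finite G] {Ω : Type*} [MulAction G Ω] {ω : Ω} (hQ : IsPGroup 2 Q) (hk : k ∈ 𝐍(Q))
    (ho : Odd (orderOf k)) (h : ∃ n ∈ Q, k • ω = n • ω) : ∃ n ∈ Q, k • n • ω = n • ω := by
  obtain ⟨q, hq, e⟩ := h
  obtain ⟨j, hj⟩ := hQ.exists_card_eq
  obtain ⟨n, hn, h⟩ := H2.exists_fixed_in_orbit (A := zpowers k) (zpowers_le.2 hk)
    (by rw [Nat.card_zpowers, hj]; exact (Nat.coprime_two_right.2 ho).pow_right j)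
    (.inl (Group.isSolvable_of_comm fun ⟨_, i, rfl⟩ ⟨_, i', rfl⟩ => Subtype.ext (zpow_mul_comm _ _ _))) ω fun a ha => by
      obtain ⟨i, rfl⟩ := mem_powers_iff_mem_zpowers.2 ha
      induction i with
      | zero => exact ⟨1, one_mem _, by simp⟩
      | succ i ih =>
        obtain ⟨n, hn, e1⟩ := ih (pow_mem (mem_zpowers k) i)
        exact ⟨k * n * k⁻¹ * q, mul_mem ((mem_normalizer_iff.1 hk n).1 hn) hq, by
          simp only [pow_succ', mul_smul] at e1 ⊢; rw [e1, ← e, inv_smul_smul]⟩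
  exact ⟨n, hn, h k (mem_zpowers k)⟩

/-- a set of odd transpositions of the group it generates -/
structure OT (S : Set G) : Prop where
  ord : ∀ d ∈ S, orderOf d = 2
  cnj : ∀ a ∈ S, ∀ b ∈ S, a * b * a ∈ S
  pair : ∀ a ∈ S, ∀ b ∈ S, Commute a b ∨ Od a b

namespace OT

variable (h : OT S)
include h

lemma sq (ha : a ∈ S) : a * a = 1 := sq1 (h.ord a ha)
lemma inv (ha : a ∈ S) : a⁻¹ = a := inv2 (h.ord a ha)
lemma od (ha : a ∈ S) (hb : b ∈ S) (hn : ¬ Commute a b) : Od a b := (h.pair a ha b hb).resolve_left hn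
lemma nc (ha : a ∈ S) (hb : b ∈ S) (ho : Od a b) : ¬ Commute a b := od_not ho (h.sq ha) (h.sq hb)
lemma conj (hg : g ∈ closure S) (ha : a ∈ S) : g * a * g⁻¹ ∈ S :=
  conj_mem_closure (fun _ => h.sq) h.cnj hg a ha
lemma nrm (hg : g ∈ closure S) : g ∈ normalizer S := mem_set_normalizer_iff.2 fun x =>
  ⟨h.conj hg, fun e => by simpa [mul_assoc] using h.conj (inv_mem hg) e⟩

lemma L0 (ha : a ∈ S) (hb : b ∈ S) (hn : ¬ Commute a b) (hz : z * z = 1) (h1 : Commute z a) (h2 : Commute z b)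
    (h3 : z * a ∈ S) : z = 1 := by
  have o1 := h.od ha hb hn
  have o2 := h.od h3 hb fun e => hn (by simpa using h2.inv_left.mul_left e)
  have := eq_of_sq_eq o1.2 o2.2 (by simp only [mul_assoc, cc h1.eq.symm, cc h2.eq.symm, ii hz])
  simpa [mul_assoc] using this.symm

lemma cm_mul (ha : a ∈ S) (hb : b ∈ S) (hc : c ∈ S) (h1 : Commute a b) (h2 : a ≠ b) (h3 : Commute c (a * b)) :
    Commute c a := by
  by_contra hn
  refine h2 ((eq_inv_of_mul_eq_one_left (h.L0 ha hc (fun e => hn e.symm) (sq_mul (h.sq ha) (h.sq hb) h1)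
    ((Commute.refl a).mul_left h1.symm) h3.symm ?_)).trans (h.inv hb))
  rwa [h1.eq, mul_assoc, h.sq ha, mul_one]

lemma cm_mul' (ha : a ∈ S) (hb : b ∈ S) (hc : c ∈ S) (h1 : Commute a b) (h2 : a ≠ b) (h3 : Commute c (a * b)) :
    Commute c b := h.cm_mul hb ha hc h1.symm h2.symm (h1.eq ▸ h3)

lemma comm_of_two [Finite G] (hQ : IsPGroup 2 Q) (ha : a ∈ S) (hb : b ∈ S) (h1 : a * b ∈ Q) : Commute a b := by
  by_contra hn
  have o := h.od ha hb hn
  exact o.1 ((eq_inv_of_mul_eq_one_left (eq_one_of_two_odd hQ h1 o.2)).trans (h.inv hb))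

lemma swap (ha : a ∈ S) (hb : b ∈ S) (hn : ¬ Commute a b) :
    ∃ t ∈ S, t * a * t = b ∧ ∀ H : Subgroup G, a ∈ H → b ∈ H → t ∈ H := by
  obtain ⟨m, e1, e2⟩ := exists_conj_of_odd (h.ord a ha) (h.ord b hb) (h.od ha hb hn).2
  have i1 : ∀ n : ℕ, a * ((a * b) ^ n)⁻¹ = (a * b) ^ n * a := fun n => by
    induction n with
    | zero => simp
    | succ n ih =>
      rw [pow_succ', mul_inv_rev, ← mul_assoc, ih, mul_inv_rev, h.inv ha, h.inv hb, ← pow_succ', pow_succ]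
      simp only [mul_assoc]
  have hab := mul_mem (subset_closure ha) (subset_closure (k := S) hb)
  refine ⟨(a * b) ^ m * a, ?_, ?_, fun H a b => mul_mem (pow_mem (mul_mem a b) m) a⟩
  · rcases Nat.even_or_odd' m with ⟨j, rfl | rfl⟩
    · have := h.conj (pow_mem hab j) ha
      rwa [mul_assoc, i1, ← mul_assoc, ← pow_add, ← two_mul] at this
    · have := h.conj (mul_mem (pow_mem hab j) (subset_closure ha)) hb
      rwa [mul_inv_rev, h.inv ha, i1, mul_assoc ((a * b) ^ j), ← pow_succ, ← mul_assoc, ← pow_add,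
        show j + 1 + j = 2 * j + 1 by ring] at this
  · conv_rhs => rw [← e1, mul_assoc, i1]
    simp only [mul_assoc, ii (h.sq ha)]

lemma exists_cj (ha : a ∈ S) (hb : b ∈ S) (hn : ¬ Commute a b) (h1 : a ∈ H) (h2 : b ∈ H) :
    ∃ g ∈ H, g * a * g⁻¹ = b :=
  let ⟨t, ht, e, k⟩ := h.swap ha hb hn; ⟨t, k H h1 h2, by rw [h.inv ht, e]⟩

/-- the dihedral group generated by an involution `u` and a member -/
lemma dih {u : G} (hu : u * u = 1) (h1 : u ∈ closure S) (hd : d ∈ S) (hn : ¬ Commute d (u * d * u)) :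
    ∃ c ∈ S, Commute c u ∧ Commute d (u * c) ∧ ¬ Commute c d ∧ ∀ H : Subgroup G, u ∈ H → d ∈ H → c ∈ H := by
  have ui := inv_eq_of_mul_eq_one_right hu
  have hd' : u * d * u ∈ S := by simpa [ui] using h.conj h1 hd
  obtain ⟨t, ht, e, k⟩ := h.swap hd hd' hn
  have e1 : Commute d (u * t) := by
    rw [commute_iff_eq, ← mul_left_inj t, mul_assoc (u * t), mul_assoc u, ← mul_assoc t, e]
    simp only [mul_assoc, h.sq ht, ii hu, mul_one]
  have ht' : u * t * u ∈ S := by simpa [ui] using h.conj h1 ht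
  have e2 : ¬ Commute t d := fun b => hn (by rw [← e, b.eq, mul_assoc, h.sq ht, mul_one])
  refine ⟨t, ht, ?_, e1, e2, fun H a b => k H b (mul_mem (mul_mem a b) a)⟩
  have e3 : Commute d (t * (u * t * u)) := by
    simpa [ui, h.inv ht, mul_assoc] using (e1.mul_right e1).inv_right
  by_cases e4 : Commute t (u * t * u)
  · by_contra e5
    exact e2 (h.cm_mul ht ht' hd e4 (fun b => e5 (by
      rw [commute_iff_eq]; nth_rw 1 [b]; rw [mul_assoc, hu, mul_one])) e3).symm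
  · have o := h.od ht ht' e4
    exact absurd (eq_inv_of_mul_eq_one_left (inv_cent' (h.od ht hd e2) (h.sq ht) o.2 (by
      simp only [mul_inv_rev, ui, h.inv ht, mul_assoc, ii (h.sq ht)]) e3)) (by rw [h.inv ht']; exact o.1)

lemma rad (ha : a ∈ S) (hg : g ∈ S) (hx : x ∈ S) (h1 : Commute a g) (hn : ¬ Commute x (a * g * x * (a * g))) :
    ∃ c ∈ S, Commute c a ∧ Commute c g ∧ Commute x (a * g * c) ∧ ¬ Commute c x ∧
      ∀ H : Subgroup G, a ∈ H → g ∈ H → x ∈ H → c ∈ H := by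
  obtain ⟨c, hc, b1, b2, b3, b4⟩ := h.dih (sq_mul (h.sq ha) (h.sq hg) h1)
    (mul_mem (subset_closure ha) (subset_closure hg)) hx hn
  have k : a ≠ g := fun e => hn (by simp [e, h.sq hg])
  exact ⟨c, hc, h.cm_mul ha hg hc h1 k b1, h.cm_mul' ha hg hc h1 k b1, b2, b3,
    fun H a g x => b4 H (mul_mem a g) x⟩

end OT

/-- the class of `a` under `X` -/
def Cl (X : Subgroup G) (a : G) : Set G := {s | ∃ g ∈ X, g * a * g⁻¹ = s}

lemma Cl.self (X : Subgroup G) (a : G) : a ∈ Cl X a := ⟨1, one_mem _, by simp⟩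
lemma Cl.conj (hs : s ∈ Cl X a) (hg : g ∈ X) : g * s * g⁻¹ ∈ Cl X a :=
  let ⟨x, hx, e⟩ := hs; ⟨g * x, mul_mem hg hx, by rw [← e]; group⟩
lemma Cl.mem (hs : s ∈ Cl X a) (ha : a ∈ X) : s ∈ X :=
  let ⟨x, hx, e⟩ := hs; e ▸ mul_mem (mul_mem hx ha) (inv_mem hx)
lemma Cl.trans (hs : s ∈ Cl X a) (hb : a ∈ Cl X b) : s ∈ Cl X b := let ⟨x, hx, e⟩ := hs; e ▸ Cl.conj hb hx
lemma Cl.symm (hs : s ∈ Cl X a) : a ∈ Cl X s := let ⟨x, hx, e⟩ := hs; ⟨x⁻¹, inv_mem hx, by rw [← e]; group⟩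
lemma Cl.cent (hs : s ∈ Cl X a) (h : s ∈ 𝐂(X)) : a ∈ 𝐂(X) := by
  obtain ⟨g, hg, rfl⟩ := Cl.symm hs
  rwa [mem_cent_iff.1 h g hg, mul_inv_cancel_right]
lemma Cl.nrm [Finite G] (hg : g ∈ 𝐍(X)) (h : g * a * g⁻¹ ∈ Cl X a) : g ∈ normalizer (Cl X a) :=
  mem_normalizer_fintype fun _ ⟨x, hx, e⟩ => by
    convert Cl.conj h ((mem_normalizer_iff.1 hg x).1 hx) using 1
    rw [← e]; group

lemma cent_closure (h : ∀ s ∈ T, Commute s w) : w ∈ 𝐂(closure T) := by
  rw [centralizer_closure]; exact h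

lemma OT.of_od (h : OT S) (ha : a ∈ S) (hb : b ∈ S) (hn : ¬ Commute a b) (h1 : a ∈ X) (h2 : b ∈ X) : b ∈ Cl X a :=
  h.exists_cj ha hb hn h1 h2

lemma OT.cl_le (h : OT S) (hX : X ≤ closure S) (ha : a ∈ S) : Cl X a ⊆ S := fun _ ⟨_, hx, e⟩ =>
  e ▸ h.conj (hX hx) ha

/-- a class containing the involutions of a four-group -/
structure PC (S : Set G) : Prop extends OT S where
  cl : ∀ a ∈ S, ∀ b ∈ S, b ∈ Cl (closure S) a
  pure : ∃ a ∈ S, ∃ b ∈ S, Commute a b ∧ a * b ∈ S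

/-- commuting is transitive -/
structure R1 (S : Set G) : Prop extends PC S where
  tr : ∀ a ∈ S, ∀ b ∈ S, ∀ c ∈ S, Commute a b → Commute b c → Commute a c
  na : ∃ a ∈ S, ∃ b ∈ S, ¬ Commute a b

lemma closure_Cl (ha : a ∈ T) (h : T ⊆ Cl (closure T) a) : closure (Cl (closure T) a) = closure T :=
  le_antisymm ((closure_le _).2 fun _ hs => Cl.mem hs (subset_closure ha)) (closure_mono h)

lemma OT.pc (h : OT S) (hT : T ⊆ S) (ha : a ∈ T) (h1 : T ⊆ Cl (closure T) a)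
    (h2 : ∃ b ∈ Cl (closure T) a, ∃ c ∈ Cl (closure T) a, Commute b c ∧ b * c ∈ Cl (closure T) a) :
    PC (Cl (closure T) a) :=
  have k := h.cl_le (closure_mono hT) (hT ha)
  { ord d hd := h.ord d (k hd)
    cnj b hb c hc := by simpa [h.inv (k hb)] using Cl.conj hc (Cl.mem hb (subset_closure ha))
    pair b hb c hc := h.pair b (k hb) c (k hc)
    cl b hb c hc := by rw [closure_Cl ha h1]; exact Cl.trans hc (Cl.symm hb)
    pure := h2 }

/-- the subgroup generated by `E_a`, `E_g` and `x` -/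
def Tri (S : Set G) (a g x : G) : Subgroup G := closure ({e | e ∈ S ∧ (δ S e = δ S a ∨ δ S e = δ S g)} ∪ {x})

lemma Tri.left (he : e ∈ S) (h : δ S e = δ S a) : e ∈ Tri S a g x := subset_closure (.inl ⟨he, .inl h⟩)
lemma Tri.right (he : e ∈ S) (h : δ S e = δ S g) : e ∈ Tri S a g x := subset_closure (.inl ⟨he, .inr h⟩)
lemma Tri.base : x ∈ Tri S a g x := subset_closure (.inr rfl)
lemma Tri.le (hx : x ∈ S) : Tri S a g x ≤ closure S := closure_mono (Set.union_subset (fun _ e => e.1) (by simpa))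
lemma Tri.cent (h1 : ∀ e ∈ S, δ S e = δ S a ∨ δ S e = δ S g → Commute e w) (h2 : Commute x w) :
    w ∈ 𝐂(Tri S a g x) := cent_closure (by rintro s (hs | rfl); exacts [h1 s hs.1 hs.2, h2])
lemma cm_E (hs : s ∈ S) (h1 : Commute s a) (h2 : Commute s g) (h : δ S e = δ S a ∨ δ S e = δ S g) : Commute e s :=
  (h.elim (fun e => (δ_eq.1 e s hs).2 h1) fun e => (δ_eq.1 e s hs).2 h2).symm

namespace PC

variable [Finite G] (h : PC S)
include h

lemma δ_of_le (ha : a ∈ S) (hb : b ∈ S) (h1 : ∀ s ∈ S, Commute s a → Commute s b) : δ S a = δ S b := by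
  obtain ⟨g, hg, rfl⟩ := h.cl a ha b hb
  exact Set.eq_of_subset_of_ncard_le (fun s hs => ⟨hs.1, h1 s hs.1 hs.2⟩) (Set.ncard_le_ncard_of_injOn
    (fun x => g⁻¹ * x * g) (fun s hs => ⟨by simpa using h.conj (inv_mem hg) hs.1, by
      simpa [mul_assoc] using (cj_comm (show Commute s _ from hs.2) g⁻¹).eq⟩) fun _ _ _ _ e => by simpa using e)

lemma δ_mul (ha : a ∈ S) (hb : b ∈ S) (h1 : Commute a b) (h2 : a * b ∈ S) : δ S (a * b) = δ S a :=
  h.δ_of_le h2 ha fun s hs => h.cm_mul ha hb hs h1 fun e => ne1 (h.ord _ h2) (by rw [e, h.sq hb])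

lemma four (ha : a ∈ S) : ∃ b ∈ S, a * b ∈ S ∧ δ S b = δ S a ∧ δ S (a * b) = δ S a := by
  obtain ⟨c, hc, d, hd, h1, h2⟩ := h.pure
  obtain ⟨g, hg, rfl⟩ := h.cl c hc a ha
  have h3 := h.conj hg h2
  rw [← conj_mul] at h3
  have h4 := cj_comm h1 g
  exact ⟨_, h.conj hg hd, h3, (h.δ_mul (h.conj hg hd) ha h4.symm (h4.eq ▸ h3)).symm.trans
    (h4.eq ▸ h.δ_mul ha (h.conj hg hd) h4 h3), h.δ_mul ha (h.conj hg hd) h4 h3⟩

lemma exists_II (ha : a ∈ S) (hg : g ∈ S) (hx : x ∈ S) (h1 : Commute a g) (h2 : ¬ Commute x a) :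
    ∃ a' ∈ S, δ S a' = δ S a ∧ ¬ Commute x (a' * g * x * (a' * g)) := by
  obtain ⟨b, hb, h3, h4, h5⟩ := h.four ha
  by_contra! k
  have k1 : ∀ a' ∈ S, δ S a' = δ S a → Commute (g * x * g) (a' * x * a') := fun a' b1 b2 => by
    simpa [mul_assoc, h.inv hg, ii (h.sq hg), h.sq hg, cc ((δ_eq.1 b2 g hg).2 h1.symm).eq.symm] using
      cj_comm (k a' b1 b2) g
  have k2 : Commute a b := (δ_eq.1 h4 a ha).2 rfl
  have k3 := comm_of_od (h.od (h.cnj a ha x hx) h3 fun e => h2 ((δ_eq.1 h5 x hx).1 (by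
    simpa [mul_assoc, h.inv ha, ii (h.sq ha), h.sq ha, k2.eq.symm] using cj_comm e a))) (k1 a ha rfl) (by
    simpa [mul_assoc, ii (h.sq ha), cc k2.eq] using k1 b hb h4)
  exact h2 ((δ_eq.1 h5 x hx).1 (by simpa [mul_assoc, h.inv hg, ii (h.sq hg), h.sq hg, cc h1.eq.symm,
    ((δ_eq.1 h4 g hg).2 h1.symm).eq.symm] using cj_comm k3 g))

lemma W (ha : a ∈ S) (hg : g ∈ S) (hx : x ∈ S) (h1 : Commute a g) (h2 : ¬ Commute x a)
    (hE : ∀ e ∈ S, δ S e = δ S a → e ∈ X) (gX : g ∈ X) (xX : x ∈ X)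
    (hc : ∀ c ∈ S, c ∈ X → Commute c a → Commute c g → ∀ a' ∈ S, δ S a' = δ S a → Commute x (a' * g * c) →
      a' * g * c ∈ 𝐂(X)) (hs : s ∈ S) (sX : s ∈ X) (h3 : Commute s a) : Commute s g := by
  obtain ⟨a', ha', b1, b2⟩ := h.exists_II ha hg hx h1 h2
  obtain ⟨c, b3, b4, b5, b6, b7, b8⟩ := h.rad ha' hg hx ((δ_eq.1 b1 g hg).2 h1.symm).symm b2
  have b9 : Commute s _ := mem_cent_iff.1 (hc c b3 (b8 X (hE _ ha' b1) gX xX) ((δ_eq.1 b1 c b3).1 b4) b5 a' ha' b1 b6)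
    s sX
  refine h.cm_mul hg b3 hs b5.symm (fun e => h2 ((δ_eq.1 b1 x hx).1 ?_)) (by
    simpa [mul_assoc] using ((δ_eq.1 b1 s hs).2 h3).inv_right.mul_right b9)
  simpa [← e, mul_assoc, h.sq hg] using b6

section
variable (ha : a ∈ S) (hg : g ∈ S) (hx : x ∈ S) (h1 : Commute a g) (h2 : ¬ Commute x a)
include ha hg hx h1 h2

lemma tri_W (hs : s ∈ S) (sX : s ∈ Tri S a g x) (h3 : Commute s a) : Commute s g :=
  h.W ha hg hx h1 h2 (fun _ => Tri.left) (Tri.right hg rfl) Tri.base (fun c hc _ b1 b2 a' ha' b3 =>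
    Tri.cent fun e he b4 => ((cm_E ha' ((δ_eq.1 b3 a ha).2 rfl).symm ((δ_eq.1 b3 g hg).2 h1.symm).symm b4).mul_right
      (cm_E hg h1.symm rfl b4)).mul_right (cm_E hc b1 b2 b4)) hs sX h3

lemma tri_tr {s' : G} (hs : s ∈ S) (sX : s ∈ Tri S a g x) (h3 : Commute s a) (hs' : s' ∈ S) (sX' : s' ∈ Tri S a g x)
    (h4 : Commute s' a) : Commute s s' :=
  h.W ha hs' hx h4.symm h2 (fun _ => Tri.left) sX' Tri.base (fun c hc cX b1 b2 a' ha' b3 =>
    Tri.cent fun e he b4 => ((cm_E ha' ((δ_eq.1 b3 a ha).2 rfl).symm ((δ_eq.1 b3 g hg).2 h1.symm).symm b4).mul_right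
      (cm_E hs' h4 (h.tri_W ha hg hx h1 h2 hs' sX' h4) b4)).mul_right
      (cm_E hc b1 (h.tri_W ha hg hx h1 h2 hc cX b1) b4)) hs sX h3

variable (h3 : ¬ Commute x g)
include h3

lemma tri_sub : {e | e ∈ S ∧ (δ S e = δ S a ∨ δ S e = δ S g)} ∪ {x} ⊆ Cl (Tri S a g x) a := by
  have k := h.of_od ha hx (fun e => h2 e.symm) (Tri.left (g := g) (x := x) ha rfl) Tri.base
  rintro s (hs | rfl)
  · exact Cl.trans (h.of_od hx hs.1 (fun e => hs.2.elim (fun b => h2 ((δ_eq.1 b x hx).1 e))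
      fun b => h3 ((δ_eq.1 b x hx).1 e)) Tri.base (subset_closure (.inl hs))) k
  · exact k

lemma tri_closure : closure (Cl (Tri S a g x) a) = Tri S a g x :=
  closure_Cl (.inl ⟨ha, .inl rfl⟩) (h.tri_sub ha hg hx h1 h2 h3)

lemma tri_r1 : R1 (Cl (Tri S a g x) a) := by
  have k := h.tri_sub ha hg hx h1 h2 h3
  have k1 := h.cl_le (Tri.le (a := a) (g := g) hx) ha
  obtain ⟨b, hb, b1, b2, b3⟩ := h.four ha
  refine ⟨h.pc (Set.union_subset (fun _ e => e.1) (by simpa)) (.inl ⟨ha, .inl rfl⟩) k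
    ⟨a, Cl.self _ _, b, k (.inl ⟨hb, .inl b2⟩), (δ_eq.1 b2 a ha).2 rfl, k (.inl ⟨b1, .inl b3⟩)⟩, ?_,
    x, k (.inr rfl), a, Cl.self _ _, h2⟩
  rintro s hs _ ⟨y, hy, rfl⟩ s' hs' c1 c2
  have k2 := Cl.conj hs (inv_mem hy)
  have k3 := Cl.conj hs' (inv_mem hy)
  exact cj_comm_iff.1 (h.tri_tr ha hg hx h1 h2 (k1 k2) (Cl.mem k2 (Tri.left ha rfl))
    (by simpa [mul_assoc] using cj_comm c1 y⁻¹) (k1 k3) (Cl.mem k3 (Tri.left ha rfl))
    (by simpa [mul_assoc] using cj_comm c2.symm y⁻¹))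

end

end PC

end Cfsg.Agent.H7.RT
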