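import Cfsg.Agent.H7.RT1

/-! Odd transpositions with transitive commuting: the quotient by `O₂` is a rank one group. -/

set_option autoImplicit false
set_option linter.unusedSectionVars false
set_option linter.unusedVariables false
set_option linter.style.haveILetI false

namespace Cfsg.Agent.H7.RT

open Subgroup FT H8.ZD H8.RI BS MulAction H9.Sh
open scoped Classical commutatorElement

universe u

variable {G : Type u} [Group G] [Finite G] {S T U : Set G} {a a' b c d e g k s t w x y z : G} {Q X H : Subgroup G}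

lemma OT.eq_one (h : OT S) (hn : ∀ g, g ∈ normalizer S) (hO : pCore 2 G = ⊥) (h1 : w * w = 1)
    (h2 : w ∈ closure {e | e ∈ S ∧ δ S e = δ S a}) (h3 : ∀ y ∈ S, Commute y (w * y * w)) : w = 1 := by
  by_contra w1
  have wi := inv_eq_of_mul_eq_one_right h1
  obtain ⟨g, g1, go, e⟩ := H3.exists_inverted_odd (ord2 h1 w1) fun N _ hN hw =>
    w1 (hO.le (L.le_pCore hN hw))
  have k0 : ∀ {g y}, y ∈ S → g * y * g⁻¹ ∈ S := fun {g y} => (mem_set_normalizer_iff.1 (hn g) y).1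
  have k1 : ∀ y ∈ closure {e | e ∈ S ∧ δ S e = δ S a}, ∀ z ∈ closure {e | e ∈ S ∧ δ S e = δ S a},
      Commute (g * z * g⁻¹) (w * (g * y * g⁻¹) * w⁻¹) := fun y hy z hz => by
    induction hy, hz using closure_induction₂ with
    | mem y z hy hz => exact ((δ_eq.1 (show δ S (g * y * g⁻¹) = δ S (g * z * g⁻¹) by
        rw [← smul_δ (hn g), ← smul_δ (hn g), hy.2, hz.2]) _ (k0 (k0 hy.1))).1
        (by rw [wi]; exact (h3 _ (k0 hy.1)).symm)).symm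
    | one_left => simp
    | one_right => simp
    | mul_left _ _ _ _ _ _ b c => simpa only [conj_mul] using b.mul_right c
    | mul_right _ _ _ _ _ _ b c => simpa only [conj_mul] using b.mul_left c
    | inv_left _ _ _ _ b => simpa only [conj_inv] using b.inv_right
    | inv_right _ _ _ _ b => simpa only [conj_inv] using b.inv_left
  have k2 := sq_mul (a := g * w * g⁻¹) (by rw [conj_mul, h1]; simp) (by rw [conj_mul, conj_mul, h1]; simp)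
    (k1 w h2 w h2)
  rw [show g * w * g⁻¹ * (w * (g * w * g⁻¹) * w⁻¹) = g * (w * g * w⁻¹)⁻¹ * (g * (w * g * w⁻¹)⁻¹) by
    simp [mul_assoc, wi, ii h1], e] at k2
  exact g1 (H8.RI.eq_one_of_odd go (k := 3) (by rw [← k2]; simp [pow_succ, mul_assoc]))

lemma two_closure (h1 : ∀ a ∈ T, a * a = 1) (h2 : ∀ a ∈ T, ∀ b ∈ T, Commute a b) : IsPGroup 2 (closure T) :=
  fun ⟨y, hy⟩ => ⟨1, Subtype.ext (show y ^ 2 ^ 1 = 1 by
    haveI := isMulCommutative_closure h2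
    rw [pow_one, _root_.sq]
    induction hy using closure_induction with
    | mem x hx => exact h1 x hx
    | one => simp
    | mul x y hx hy a b => exact sq_mul a b (setLike_mul_comm hx hy)
    | inv x hx a => rw [← mul_inv_rev, a, inv_one])⟩

namespace R1

variable (h : R1 S)
include h

lemma δ_iff (ha : a ∈ S) (hb : b ∈ S) : δ S a = δ S b ↔ Commute a b :=
  ⟨fun e => (δ_eq.1 e a ha).1 rfl, fun e => h.δ_of_le ha hb fun s hs b => h.tr s hs a ha _ hb b e⟩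

lemma exists_ne (ha : a ∈ S) : ∃ x ∈ S, ¬ Commute x a := by
  obtain ⟨b, hb, c, hc, e⟩ := h.na
  by_contra! k
  exact e (h.tr b hb a ha c hc (k b hb) (k c hc).symm)

lemma mul (hn : ∀ g, g ∈ normalizer S) (hO : pCore 2 G = ⊥) (ha : a ∈ S) (hb : b ∈ S) (h1 : Commute a b)
    (h2 : a ≠ b) : a * b ∈ S := by
  by_contra h3
  have k : ∀ w ∈ closure {e | e ∈ S ∧ δ S e = δ S a}, w * w = 1 → w ≠ 1 → ∃ c ∈ S, ∃ x ∈ S, Commute c w ∧
      Commute x (w * c) ∧ ¬ Commute c x := fun w b1 b2 b3 => by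
    by_contra! b
    refine b3 (h.eq_one hn hO b2 b1 fun y hy => by_contra fun b4 => ?_)
    obtain ⟨c, hc, c1, c2, c3, -⟩ := h.dih b2 (closure_mono (fun _ e => e.1) b1) hy b4
    exact c3 (b c hc y hy c1 c2)
  have k0 : ∀ s ∈ S, Commute s a → s ∈ closure {e | e ∈ S ∧ δ S e = δ S a} := fun s hs e =>
    subset_closure ⟨hs, (h.δ_iff hs ha).2 e⟩
  have k1 := mul_mem (k0 a ha rfl) (k0 b hb h1.symm)
  have k2 := sq_mul (h.sq ha) (h.sq hb) h1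
  obtain ⟨c, hc, x, hx, c1, c2, c3⟩ := k _ k1 k2 fun e => h2 ((eq_inv_of_mul_eq_one_left e).trans (h.inv hb))
  obtain ⟨c', hc', x', hx', c4, c5, c6⟩ := k _ (mul_mem k1 (k0 c hc (h.cm_mul ha hb hc h1 h2 c1)))
    (sq_mul k2 (h.sq hc) c1.symm) fun e => h3 (by rwa [eq_inv_of_mul_eq_one_left e, h.inv hc])
  have k3 : c ∈ 𝐂[a * b * c] := mem_cent1_iff.2 (c1.mul_right rfl)
  obtain ⟨g, hg, rfl⟩ : c' ∈ Cl 𝐂[a * b * c] c := by
    by_cases e : Commute c c'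
    · exact Cl.trans (h.of_od hx hc' (fun b => c3 (h.tr c hc c' hc' x hx e b.symm)) (mem_cent1_iff.2 c2)
        (mem_cent1_iff.2 c4)) (h.of_od hc hx c3 k3 (mem_cent1_iff.2 c2))
    · exact h.of_od hc hc' e k3 (mem_cent1_iff.2 c4)
  have k4 : ∀ {y}, y ∈ S → g * y * g⁻¹ ∈ S := fun {y} => (mem_set_normalizer_iff.1 (hn g) y).1
  have k5 : a * b * c * (g * c * g⁻¹) = g * a * g⁻¹ * (g * b * g⁻¹) := by
    rw [← mul_assoc, ← mul_assoc, ← mem_cent1_iff.1 hg]; simp [mul_assoc, ii (h.sq hc)]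
  have k6 := fun {s} (hs : s ∈ S) => h.cm_mul (k4 ha) (k4 hb) hs (cj_comm h1 g) (by simpa using h2)
  exact c6 (h.tr _ hc' _ (k4 ha) _ hx' (k6 hc' (k5 ▸ c4.mul_right rfl)) (k6 hx' (k5 ▸ c5)).symm)

lemma sw (hm : ∀ a ∈ S, ∀ b ∈ S, Commute a b → a ≠ b → a * b ∈ S) : Sw S (δ S) where
  ord := h.ord
  cnj := h.cnj
  eqv a ha b hb := by rw [smul_δ (h.nrm (subset_closure ha)), h.inv ha]
  comm a ha b hb := (h.δ_iff ha hb).1
  mul a ha b hb e := hm a ha b hb ((h.δ_iff ha hb).1 e)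
  odd a ha b hb e := (h.od ha hb fun b => e ((h.δ_iff ha hb).2 b)).2
  two := let ⟨a, ha, b, hb, e⟩ := h.na; ⟨a, ha, b, hb, fun b => e ((h.δ_iff ha hb).1 b)⟩
  rk := let ⟨a, ha, b, hb, e, e1⟩ := h.pure
    ⟨a, ha, b, hb, fun b => ne1 (h.ord _ e1) (by rw [b, h.sq hb]), (h.δ_iff ha hb).2 e⟩

lemma loc (hs : CoreStep.{u, u}) (hm : ∀ a ∈ S, ∀ b ∈ S, Commute a b → a ≠ b → a * b ∈ S) (ha : a ∈ S) (hx : x ∈ S)
    (hn : ¬ Commute x a) : ∃ R K, Loc S (δ S) (δ S a) (δ S (x * a * x)) R K x :=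
  exists_loc (h.sw hm) ha (core_of_step hs _ _ rfl) ⟨a, ha, rfl⟩ hx ((h.sw hm).eqv x hx a ha).symm fun e =>
    hn ((h.δ_iff ha hx).1 (((h.sw hm).fix_iff hx ha).1 (((h.sw hm).eqv x hx a ha).symm.trans e))).symm

end R1

/-- the quotient of `N(S)` by its `O₂`, as a partial homomorphism -/
structure Bar (S : Set G) (Q : Subgroup G) {M : Type u} [Group M] (f : G → M) : Prop where
  r1 : R1 S
  two : IsPGroup 2 Q
  le : Q ≤ normalizer S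
  nrm : normalizer S ≤ 𝐍(Q)
  mul : ∀ x ∈ normalizer S, ∀ y ∈ normalizer S, f (x * y) = f x * f y
  ker : ∀ x ∈ normalizer S, f x = 1 ↔ x ∈ Q
  surj : ∀ m, ∃ x ∈ normalizer S, f x = m
  O : pCore 2 M = ⊥

theorem R1.bar (h : R1 S) : ∃ (M : Type u) (_ : Group M) (_ : Finite M) (Q : Subgroup G) (f : G → M), Bar S Q f :=
  ⟨_, _, inferInstance, (pCore 2 (normalizer S)).map (normalizer S).subtype,
    fun x => if e : x ∈ normalizer S then QuotientGroup.mk' (pCore 2 (normalizer S)) ⟨x, e⟩ else 1,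
    h, (L.pCore_isPGroup 2).map _, map_subtype_le _, H2.le_normalizer_map_of_characteristic le_normalizer _,
    fun x hx y hy => by rw [dif_pos hx, dif_pos hy, dif_pos (mul_mem hx hy), ← map_mul]; rfl,
    fun x hx => by
      rw [dif_pos hx, QuotientGroup.mk'_apply, QuotientGroup.eq_one_iff]
      exact ⟨fun e => ⟨_, e, rfl⟩, fun ⟨_, e, e1⟩ => (Subtype.ext e1 : _ = ⟨x, hx⟩) ▸ e⟩,
    fun m => let ⟨x, e⟩ := QuotientGroup.mk'_surjective _ m; ⟨x, x.2, by rw [dif_pos x.2]; exact e⟩,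
    L.pCore_quotient 2⟩

namespace Bar

variable {M : Type u} [Group M] [Finite M] {f : G → M} (h : Bar S Q f) {m : M}
include h

lemma N (ha : a ∈ S) : a ∈ normalizer S := h.r1.nrm (subset_closure ha)
lemma one : f 1 = 1 := (h.ker 1 (one_mem _)).2 (one_mem _)
lemma inv (hx : x ∈ normalizer S) : f x⁻¹ = (f x)⁻¹ :=
  eq_inv_of_mul_eq_one_left (by rw [← h.mul _ (inv_mem hx) _ hx, inv_mul_cancel, h.one])
lemma cj (hg : g ∈ normalizer S) (hx : x ∈ normalizer S) : f (g * x * g⁻¹) = f g * f x * (f g)⁻¹ := by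
  rw [h.mul _ (mul_mem hg hx) _ (inv_mem hg), h.mul _ hg _ hx, h.inv hg]
lemma pow (hx : x ∈ normalizer S) (n : ℕ) : f (x ^ n) = f x ^ n := by
  induction n with
  | zero => simpa using h.one
  | succ n ih => rw [pow_succ, h.mul _ (pow_mem hx n) _ hx, ih, pow_succ]
lemma eq_iff (hx : x ∈ normalizer S) (hy : y ∈ normalizer S) : f x = f y ↔ x * y⁻¹ ∈ Q := by
  rw [← h.ker _ (mul_mem hx (inv_mem hy)), h.mul _ hx _ (inv_mem hy), h.inv hy, mul_inv_eq_one]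
lemma odd (hx : x ∈ normalizer S) (ho : Odd (orderOf x)) : Odd (orderOf (f x)) :=
  ho.of_dvd_nat (orderOf_dvd_of_pow_eq_one (by rw [← h.pow hx, pow_orderOf_eq_one, h.one]))
lemma sq (ha : a ∈ S) : f a * f a = 1 := by rw [← h.mul _ (h.N ha) _ (h.N ha), h.r1.sq ha, h.one]

lemma comm (ha : a ∈ S) (hb : b ∈ S) : Commute (f a) (f b) ↔ Commute a b := by
  refine ⟨fun e => by_contra fun e1 => od_not ⟨fun b => e1 (h.r1.comm_of_two h.two ha hb ?_), ?_⟩ (h.sq ha) (h.sq hb) e,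
    fun e => by rw [commute_iff_eq, ← h.mul _ (h.N ha) _ (h.N hb), e.eq, h.mul _ (h.N hb) _ (h.N ha)]⟩
  · simpa [h.r1.inv hb] using (h.eq_iff (h.N ha) (h.N hb)).1 b
  · exact h.mul _ (h.N ha) _ (h.N hb) ▸ h.odd (mul_mem (h.N ha) (h.N hb)) (h.r1.od ha hb e1).2

lemma mem (hx : x ∈ closure S) : f x ∈ closure (f '' S) := by
  induction hx using closure_induction with
  | mem x hx => exact subset_closure ⟨x, hx, rfl⟩
  | one => exact h.one ▸ one_mem _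
  | mul x y hx hy a b => exact h.mul _ (h.r1.nrm hx) _ (h.r1.nrm hy) ▸ mul_mem a b
  | inv x hx a => exact h.inv (h.r1.nrm hx) ▸ inv_mem a

lemma lift (hm : m ∈ closure (f '' S)) : ∃ x ∈ closure S, f x = m := by
  induction hm using closure_induction with
  | mem x hx => exact hx.imp fun _ e => ⟨subset_closure e.1, e.2⟩
  | one => exact ⟨1, one_mem _, h.one⟩
  | mul _ _ _ _ a b =>
    obtain ⟨x, hx, rfl⟩ := a; obtain ⟨y, hy, rfl⟩ := b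
    exact ⟨_, mul_mem hx hy, h.mul _ (h.r1.nrm hx) _ (h.r1.nrm hy)⟩
  | inv _ _ a => obtain ⟨x, hx, rfl⟩ := a; exact ⟨_, inv_mem hx, h.inv (h.r1.nrm hx)⟩

lemma normal (m : M) : m ∈ normalizer (f '' S) := mem_normalizer_fintype (by
  obtain ⟨g, hg, rfl⟩ := h.surj m
  rintro _ ⟨a, ha, rfl⟩
  exact ⟨_, (mem_set_normalizer_iff.1 hg a).1 ha, h.cj hg (h.N ha)⟩)

lemma ne_one (ha : a ∈ S) : f a ≠ 1 := fun e =>
  let ⟨x, hx, e1⟩ := h.r1.exists_ne ha; e1 ((h.comm hx ha).1 (e ▸ Commute.one_right _))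

lemma r1' : R1 (f '' S) where
  ord := by rintro _ ⟨a, ha, rfl⟩; exact ord2 (h.sq ha) (h.ne_one ha)
  cnj := by
    rintro _ ⟨a, ha, rfl⟩ _ ⟨b, hb, rfl⟩
    exact ⟨_, h.r1.cnj a ha b hb, by rw [h.mul _ (mul_mem (h.N ha) (h.N hb)) _ (h.N ha), h.mul _ (h.N ha) _ (h.N hb)]⟩
  pair := by
    rintro _ ⟨a, ha, rfl⟩ _ ⟨b, hb, rfl⟩
    exact or_iff_not_imp_left.2 fun e => ⟨fun b => e (b ▸ rfl), h.mul _ (h.N ha) _ (h.N hb) ▸
      h.odd (mul_mem (h.N ha) (h.N hb)) (h.r1.od ha hb fun b => e ((h.comm ha hb).2 b)).2⟩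
  cl := by
    rintro _ ⟨a, ha, rfl⟩ _ ⟨b, hb, rfl⟩
    obtain ⟨g, hg, rfl⟩ := h.r1.cl a ha b hb
    exact ⟨_, h.mem hg, (h.cj (h.r1.nrm hg) (h.N ha)).symm⟩
  pure := let ⟨a, ha, b, hb, e, e1⟩ := h.r1.pure
    ⟨_, ⟨a, ha, rfl⟩, _, ⟨b, hb, rfl⟩, (h.comm ha hb).2 e, _, e1, h.mul _ (h.N ha) _ (h.N hb)⟩
  tr := by
    rintro _ ⟨a, ha, rfl⟩ _ ⟨b, hb, rfl⟩ _ ⟨c, hc, rfl⟩
    simpa only [h.comm, ha, hb, hc] using h.r1.tr a ha b hb c hc
  na := let ⟨a, ha, b, hb, e⟩ := h.r1.na; ⟨_, ⟨a, ha, rfl⟩, _, ⟨b, hb, rfl⟩, (h.comm ha hb).not.2 e⟩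

lemma loc (hs : CoreStep.{u, u}) (ha : a ∈ S) (hx : x ∈ S) (hn : ¬ Commute x a) :
    ∃ R K, Loc (f '' S) (δ (f '' S)) (δ (f '' S) (f a)) (δ (f '' S) (f x * f a * f x)) R K (f x) :=
  h.r1'.loc hs (fun _ a _ b => h.r1'.mul h.normal h.O a b) ⟨a, ha, rfl⟩ ⟨x, hx, rfl⟩ ((h.comm hx ha).not.2 hn)

/-- members with the same image are conjugate under `Q` -/
lemma exists_cj (ha : a ∈ S) (hb : b ∈ S) (e : f a = f b) : ∃ n ∈ Q ⊓ closure S, n * a * n⁻¹ = b := by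
  obtain ⟨x, hx, e1⟩ := h.r1.exists_ne ha
  have e2 : ¬ Commute x b := fun e2 => e1 ((h.comm hx ha).1 (e ▸ (h.comm hx hb).2 e2))
  have k : ∀ a ∈ S, ∀ i : ℕ, (a * x) ^ (2 * i + 1) = 1 → (a * x) ^ (i + 1) * x * ((a * x) ^ (i + 1))⁻¹ = a :=
    fun a ha i e => by
      have : x * (a * x)⁻¹ * x⁻¹ = a * x := by simp [mul_assoc, h.r1.inv ha, h.r1.inv hx, ii (h.r1.sq hx)]
      rw [mul_assoc, ← inv_pow, ← inv_mul_cancel_right (x * _) x, ← conj_pow, this, ← mul_assoc, ← pow_add,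
        show i + 1 + (i + 1) = 2 * i + 1 + 1 by ring, pow_succ, e, one_mul, mul_assoc, h.r1.sq hx, mul_one]
  obtain ⟨i, hi⟩ := (h.r1.od ha hx fun e => e1 e.symm).2.mul (h.r1.od hb hx fun e => e2 e.symm).2
  have a1 := k a ha i (by rw [← hi, pow_mul, pow_orderOf_eq_one, one_pow])
  have a2 := k b hb i (by rw [← hi, mul_comm, pow_mul, pow_orderOf_eq_one, one_pow])
  have n1 := mul_mem (h.N ha) (h.N hx)
  have n2 := mul_mem (h.N hb) (h.N hx)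
  refine ⟨(b * x) ^ (i + 1) * ((a * x) ^ (i + 1))⁻¹, mem_inf.2 ⟨(h.eq_iff (pow_mem n2 _) (pow_mem n1 _)).1 (by
    rw [h.pow n1, h.pow n2, h.mul _ (h.N ha) _ (h.N hx), h.mul _ (h.N hb) _ (h.N hx), e]), mul_mem (pow_mem (mul_mem
    (subset_closure hb) (subset_closure hx)) _) (inv_mem (pow_mem (mul_mem (subset_closure ha)
    (subset_closure hx)) _))⟩, ?_⟩
  generalize (a * x) ^ (i + 1) = u at a1
  generalize (b * x) ^ (i + 1) = v at a2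
  rw [← a1, ← a2]; group

lemma prod (ha : a ∈ S) (hb : b ∈ S) (h1 : Commute a b) (h2 : f a ≠ f b) : ∃ c ∈ S, Commute c a ∧ f c = f a * f b :=
  let ⟨c, hc, e⟩ := h.r1'.mul h.normal h.O ⟨a, ha, rfl⟩ ⟨b, hb, rfl⟩ ((h.comm ha hb).2 h1) h2
  ⟨c, hc, (h.comm hc ha).1 (e ▸ (Commute.refl _).mul_left ((h.comm hb ha).2 h1.symm)), e⟩

lemma typeI (ha : a ∈ S) (hb : b ∈ S) (hx : x ∈ S) (h1 : Commute a b) (h2 : ¬ Commute x a)
    (h3 : Commute x (a * b * x * (a * b))) : a * b ∈ Q := by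
  by_contra h4
  obtain ⟨c, hc, b1, b2⟩ := h.prod ha hb h1 fun e => h4 (by simpa [h.r1.inv hb] using (h.eq_iff (h.N ha) (h.N hb)).1 e)
  have n1 := mul_mem (h.N ha) (h.N hb)
  have k : a * b * x * (a * b) ∈ S := by
    simpa [h.r1.inv ha, h.r1.inv hb, h1.eq] using (mem_set_normalizer_iff.1 n1 x).1 hx
  have k1 := (h.comm hx k).2 h3
  rw [h.mul _ (mul_mem n1 (h.N hx)) _ n1, h.mul _ n1 _ (h.N hx), h.mul _ (h.N ha) _ (h.N hb), ← b2,
    ← h.mul _ (h.N hc) _ (h.N hx), ← h.mul _ (mul_mem (h.N hc) (h.N hx)) _ (h.N hc), h.comm hx (h.r1.cnj c hc x hx)] at k1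
  have k2 : ¬ Commute x c := fun e => h2 (h.r1.tr x hx c hc a ha e b1)
  exact k2 (comm_of_od (h.r1.od hx hc k2) rfl k1)

lemma lift_odd (hm : m ∈ closure (f '' S)) (ho : Odd (orderOf m)) : ∃ g ∈ closure S, f g = m ∧ Odd (orderOf g) := by
  obtain ⟨g, hg, rfl⟩ := h.lift hm
  obtain ⟨j, hj⟩ := h.two.exists_card_eq
  obtain ⟨r, hr⟩ := exists_pow_eq_self_of_coprime (x := f g) (n := ♯Q) (hj ▸ (Nat.coprime_two_left.2 ho).pow_left j)
  have n1 := h.r1.nrm hg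
  refine ⟨(g ^ ♯Q) ^ r, pow_mem (pow_mem hg _) _, by rw [h.pow (pow_mem n1 _), h.pow n1, hr],
    ho.of_dvd_nat (orderOf_dvd_of_pow_eq_one ?_)⟩
  have := congrArg Subtype.val (pow_card_eq_one' (x := (⟨g ^ orderOf (f g), (h.ker _ (pow_mem n1 _)).1 (by
    rw [h.pow n1, pow_orderOf_eq_one])⟩ : Q)))
  rw [pow_right_comm, pow_right_comm g, show (g ^ orderOf (f g)) ^ ♯Q = 1 from this, one_pow]

lemma mem_B {β : CS M} {R K : Subgroup M} {e : M} (l : Loc (f '' S) (δ (f '' S)) (δ (f '' S) (f a)) β R K e)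
    (ha : a ∈ S) : m ∈ l.B ∧ m ≠ 1 ↔ ∃ b ∈ S, Commute b a ∧ f b = m := by
  rw [l.mem_B]
  refine ⟨fun ⟨e, e1⟩ => ?_, fun ⟨b, hb, e, e1⟩ => e1 ▸ ⟨.inr ⟨⟨b, hb, rfl⟩, (h.r1'.δ_iff ⟨b, hb, rfl⟩
    ⟨a, ha, rfl⟩).2 ((h.comm hb ha).2 e)⟩, h.ne_one hb⟩⟩
  obtain ⟨⟨b, hb, rfl⟩, e2⟩ := e.resolve_left e1
  exact ⟨b, hb, (h.comm hb ha).1 ((h.r1'.δ_iff ⟨b, hb, rfl⟩ ⟨a, ha, rfl⟩).1 e2), rfl⟩

variable (hs : CoreStep.{u, u})
include hs

lemma F1 {t' : G} (ha : a ∈ S) (hd : d ∈ S) (ht : t ∈ S) (ht' : t' ∈ S) (h1 : Commute d a) (h2 : ¬ Commute t a)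
    (h3 : Commute (t' * a * t') (t * a * t)) :
    ∃ g ∈ closure S, g * a * g⁻¹ = d ∧ t * t' * g * (g * (t * t'))⁻¹ ∈ Q ⊓ closure S := by
  obtain ⟨R, K, l⟩ := h.loc hs ha ht h2
  have k0 : ∀ t ∈ S, f t * f a * f t = f (t * a * t) := fun t ht => by
    rw [h.mul _ (mul_mem (h.N ht) (h.N ha)) _ (h.N ht), h.mul _ (h.N ht) _ (h.N ha)]
  have k1 := fun t ht => h.r1.cnj t ht a ha
  obtain ⟨k, hk, e⟩ := l.swap_iff.1 ⟨⟨t', ht', rfl⟩, by
    rw [← l.eqv _ ⟨t', ht', rfl⟩ _ ⟨a, ha, rfl⟩, k0 t ht, k0 t' ht', h.r1'.δ_iff ⟨_, k1 t' ht', rfl⟩ ⟨_, k1 t ht, rfl⟩,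
      h.comm (k1 t' ht') (k1 t ht)]; exact h3⟩
  have b1 := (h.mem_B l ha).2 ⟨a, ha, rfl, rfl⟩
  have b2 := (h.mem_B l ha).2 ⟨d, hd, h1, rfl⟩
  obtain ⟨k', hk', e'⟩ := l.K_trans b1.1 b2.1 b1.2 b2.2
  obtain ⟨g, hg, rfl⟩ := h.lift (l.KD hk').1
  obtain ⟨n, hn, e2⟩ := h.exists_cj (h.r1.conj hg ha) hd (by rw [h.cj (h.r1.nrm hg) (h.N ha), e'])
  have c1 := mul_mem (subset_closure ht) (subset_closure (k := S) ht')
  have c2 := mul_mem hn.2 hg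
  have n1 := h.r1.nrm c1
  have n2 := h.r1.nrm c2
  refine ⟨n * g, c2, by rw [← e2]; group, mem_inf.2 ⟨(h.eq_iff (mul_mem n1 n2) (mul_mem n2 n1)).1 ?_,
    mul_mem (mul_mem c1 c2) (inv_mem (mul_mem c2 c1))⟩⟩
  rw [h.mul _ n1 _ n2, h.mul _ n2 _ n1, h.mul _ (h.N ht) _ (h.N ht'), e, ii (h.sq ht), h.mul _ (h.le hn.1) _ (h.r1.nrm hg),
    (h.ker _ (h.le hn.1)).2 hn.1, one_mul, l.K_comm hk hk']

omit hs in
lemma nrm' (hk : k ∈ normalizer S) : k ∈ 𝐍((Q ⊓ closure S : Subgroup G)) :=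
  zpowers_le.1 (H2.le_normalizer_inf (zpowers_le.2 (h.nrm hk)) (zpowers_le.2
    (H3.mem_normalizer_closure_of_conj_mem fun e => (mem_set_normalizer_iff.1 hk e).1)))

lemma F2 (hk : k ∈ normalizer S) (ho : Odd (orderOf k)) (hz : z ∈ S) (he : e ∈ S) (h1 : Commute k z)
    (h2 : ¬ Commute z e) (h3 : Commute (k * e * k⁻¹) e) : ∃ s ∈ S, Commute s e ∧ Commute k s := by
  obtain ⟨R, K, l⟩ := h.loc hs he hz h2
  have k0 : ∀ {s}, s ∈ S → k * s * k⁻¹ ∈ S := fun {s} => (mem_set_normalizer_iff.1 hk s).1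
  have k1 : Commute (f k) (f z) := by rw [commute_iff_eq, ← h.mul _ hk _ (h.N hz), h1.eq, h.mul _ (h.N hz) _ hk]
  have k2 : f k • δ (f '' S) (f e) = δ (f '' S) (f e) := by
    rw [smul_δ (h.normal _), ← h.cj hk (h.N he), h.r1'.δ_iff ⟨_, k0 he, rfl⟩ ⟨_, he, rfl⟩, h.comm (k0 he) he]; exact h3
  have k3 : f k • δ (f '' S) (f z) = δ (f '' S) (f z) := by rw [smul_δ (h.normal _), k1.eq, mul_inv_cancel_right]
  have k4 := Lc.norm_R l (H3.mem_normalizer_closure_of_conj_mem fun e =>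
    (mem_set_normalizer_iff.1 (h.normal (f k)) e).1) k2
  have k5 : δ (f '' S) (f z) ≠ δ (f '' S) (f e) := fun b => h2 ((h.comm hz he).1 ((h.r1'.δ_iff ⟨_, hz, rfl⟩ ⟨_, he, rfl⟩).1 b))
  obtain ⟨x, hx, e1⟩ := l.trans _ ⟨_, ⟨z, hz, rfl⟩, rfl⟩ k5
  have k6 := l.ea
  generalize δ (f '' S) (f z * f e * f z) = β at l e1 k6
  have k7 : f k • β = β := by rw [← k6, smul_smul, k1.eq, mul_smul, k2]
  have k8 : Commute (f k) x := by
    have := l.free _ (mul_mem (inv_mem hx) ((mem_normalizer_iff.1 k4 x).1 hx)) (by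
      rw [mul_smul, mul_smul, mul_smul, inv_fix k7, e1, k3, ← e1, inv_smul_smul])
    rwa [inv_mul_eq_one, eq_mul_inv_iff_mul_eq, eq_comm] at this
  have x1 : x ≠ 1 := fun b => k5 (by
    rw [b, one_smul] at e1
    rw [← l.eb, e1, l.fix_self ⟨z, hz, rfl⟩])
  obtain ⟨m, ⟨s, hs', b1, rfl⟩, b2⟩ : ∃ m, (∃ b ∈ S, Commute b e ∧ f b = m) ∧ Commute (f k) m := by
    by_cases b : x * x = 1
    · exact ⟨x, (h.mem_B l he).1 ⟨⟨hx, b⟩, x1⟩, k8⟩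
    · exact ⟨_, (h.mem_B l he).1 ⟨l.sz.sq_mem l.exp x hx, b⟩, k8.mul_right k8⟩
  obtain ⟨n, hn, e2⟩ := h.exists_cj hs' (k0 hs') (by rw [h.cj hk (h.N hs'), b2.eq, mul_inv_cancel_right])
  obtain ⟨n, hn, e2⟩ := fix_orbit (ω := sg s) (isPGroup_of_le inf_le_left h.two) (h.nrm' hk) ho
    ⟨n, hn, by rw [smul_sg, smul_sg, e2]⟩
  rw [smul_sg, smul_sg] at e2
  have k9 := h.r1.conj hn.2 hs'
  exact ⟨_, k9, h.r1.tr _ k9 s hs' e he ((h.comm k9 hs').1 (by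
    rw [h.cj (h.le hn.1) (h.N hs'), (h.ker _ (h.le hn.1)).2 hn.1]; simp)) b1, mul_inv_eq_iff_eq_mul.1 (sg_inj e2)⟩

lemma Nm (hd : d ∈ S) (hc : ∀ n ∈ Q ⊓ closure S, Commute n d) (ha : a ∈ S) (hb : b ∈ S) (h1 : Commute a b)
    (h2 : a ≠ b) : a * b ∈ S := by
  have k0 : ∀ n ∈ Q ⊓ closure S, n ∈ 𝐂(closure S) := fun n hn => cent_closure fun s hs => by
    obtain ⟨g, hg, rfl⟩ := h.r1.cl d hd s hs
    simpa [mul_assoc] using cj_comm (hc _ ((mem_normalizer_iff''.1 (h.nrm' (h.r1.nrm hg)) n).1 hn)).symm g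
  have k1 : ∀ a ∈ S, ∀ b ∈ S, f a = f b → a = b := fun a ha b hb e => by
    obtain ⟨n, hn, rfl⟩ := h.exists_cj ha hb e
    rw [← mem_cent_iff.1 (k0 n hn) a (subset_closure ha), mul_inv_cancel_right]
  obtain ⟨c, hc, b1, b2⟩ := h.prod ha hb h1 fun e => h2 (k1 a ha b hb e)
  obtain ⟨x, hx, b3⟩ := h.r1.exists_ne ha
  obtain ⟨R, K, l⟩ := h.loc hs ha hx b3
  obtain ⟨F, _, _, _, ⟨co⟩⟩ := l.sz.suz.exists_coord
  obtain ⟨⟨κ, hκ⟩, b4⟩ := (isCyclic_of_surjective co.χ.symm co.χ.symm.surjective).exists_generator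
  obtain ⟨g, hg, rfl, go⟩ := h.lift_odd (l.KD hκ).1 (l.odd_K.of_dvd_nat (K.orderOf_dvd_natCard hκ))
  have n1 := h.r1.nrm hg
  set A := closure {s | s ∈ S ∧ Commute s a}
  have a2 : ∀ s ∈ {s | s ∈ S ∧ Commute s a}, ∀ s' ∈ {s | s ∈ S ∧ Commute s a}, Commute s s' :=
    fun s hs s' hs' => h.r1.tr s hs.1 a ha s' hs'.1 hs.2 hs'.2.symm
  have a1 : IsMulCommutative A := isMulCommutative_closure a2
  obtain ⟨j, hj⟩ := (two_closure (fun s hs => h.r1.sq hs.1) a2).exists_card_eq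
  have a3 := H2.centralizer_inf_commutator_eq_bot (A := zpowers g) (K := A) (zpowers_le.2
    (H3.mem_normalizer_closure_of_conj_mem fun s hs => ⟨h.r1.conj hg hs.1, by
      have := (h.mem_B l ha).2 ⟨s, hs.1, hs.2, rfl⟩
      obtain ⟨y, y1, y2, y3⟩ := (h.mem_B l ha).1 ⟨l.conj_B (l.KD hκ).1 (l.KD hκ).2.1 this.1, by simpa using this.2⟩
      exact k1 y y1 _ (h.r1.conj hg hs.1) (y3.trans (h.cj n1 (h.N hs.1)).symm) ▸ y2⟩))
    (by rw [Nat.card_zpowers, hj]; exact (Nat.coprime_two_right.2 go).pow_right j) a1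
  have a4 : ∀ s ∈ S, Commute s a → ∀ s' ∈ S, Commute s' a → s * s' ∈ ⁅A, zpowers g⁆ := fun s hs c1 s' hs' c2 => by
    have c3 := (h.mem_B l ha).2 ⟨s, hs, c1, rfl⟩
    have c4 := (h.mem_B l ha).2 ⟨s', hs', c2, rfl⟩
    obtain ⟨k, hk, e⟩ := l.K_trans c3.1 c4.1 c3.2 c4.2
    obtain ⟨i, hi⟩ := mem_powers_iff_mem_zpowers.2 (b4 ⟨k, hk⟩)
    rw [← k1 _ (h.r1.conj (pow_mem hg i) hs) s' hs' (by
      rw [h.cj (pow_mem n1 i) (h.N hs), h.pow n1, ← e, show f g ^ i = k from congrArg Subtype.val hi])]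
    simpa [commutatorElement_def, h.r1.inv hs, mul_assoc] using commutator_mem_commutator
      (show s ∈ A from subset_closure ⟨hs, c1⟩) (pow_mem (mem_zpowers g) i)
  obtain ⟨y, hy, y1, y2, y3⟩ := h.r1.four ha
  have a5 := a4 _ y1 ((h.r1.δ_iff y1 ha).1 y3) y hy ((h.r1.δ_iff hy ha).1 y2)
  rw [mul_assoc, h.r1.sq hy, mul_one] at a5
  have a6 := mul_mem (mul_mem (a4 a ha rfl b hb h1.symm) (a4 c hc b1 a ha rfl)) a5
  rw [mul_assoc, mul_assoc c, h.r1.sq ha, mul_one] at a6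
  have a7 := mul_mem (mul_mem (subset_closure ha) (subset_closure hb)) (subset_closure (k := S) hc)
  rwa [eq_inv_of_mul_eq_one_left (a3.le ⟨cent_anti (zpowers_le.2 hg) (k0 _ ⟨(h.ker _ (h.r1.nrm a7)).1 (by
    rw [h.mul _ (mul_mem (h.N ha) (h.N hb)) _ (h.N hc), h.mul _ (h.N ha) _ (h.N hb), ← b2, h.sq hc]), a7⟩), a6⟩),
    h.r1.inv hc]

end Bar

end Cfsg.Agent.H7.RT
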