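import Cfsg.Agent.H7.RT2

/-! Odd transpositions: common neighbours. -/

set_option autoImplicit false
set_option linter.unusedSectionVars false
set_option linter.unusedVariables false
set_option linter.style.haveILetI false

namespace Cfsg.Agent.H7.RT

open Subgroup FT H8.ZD H8.RI BS MulAction H9.Sh
open scoped Classical commutatorElement

universe u

variable {G : Type u} [Group G] [Finite G] {S T U : Set G} {a a' b c d e g k s t w x y z : G} {Q X H : Subgroup G}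

lemma OT.pair_tr (h : OT S) (hQ : IsPGroup 2 Q) (h0 : Q ≤ closure S) (hd : d ∈ S) (he : e ∈ S) (hy : y ∈ S)
    (n1 : d ∈ 𝐍(Q)) (n2 : y ∈ 𝐍(Q)) (h1 : e * d ∈ Q) (h2 : ¬ Commute d y) (h3 : ¬ Commute e y) :
    ∃ o ∈ Q, Commute o y ∧ o * e * o⁻¹ = d := by
  obtain ⟨j, hj⟩ := hQ.exists_card_eq
  have k0 : zpowers (d * y) ⊓ Q = ⊥ := eq_bot_iff.2 fun x hx => eq_one_of_two_odd hQ hx.2
    ((h.od hd hy h2).2.of_dvd_nat (orderOf_dvd_of_mem_zpowers hx.1))
  have k1 : e * y = e * d * (d * y) := by simp [mul_assoc, ii (h.sq hd)]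
  have n3 := mul_mem n1 n2
  obtain ⟨n, hn, k2⟩ := H2.exists_conj_le_of_le_sup (A := zpowers (e * y)) (zpowers_le.2 n3) k0
    (zpowers_le.2 (k1 ▸ mul_mem (mem_sup_right h1) (mem_sup_left (mem_zpowers _))))
    (by rw [Nat.card_zpowers, hj]; exact (Nat.coprime_two_right.2 (h.od he hy h3).2).pow_right j)
    (.inl (Group.isSolvable_of_comm fun ⟨_, i, rfl⟩ ⟨_, i', rfl⟩ => Subtype.ext (zpow_mul_comm _ _ _)))
  have k3 : n⁻¹ * (e * y) * n = d * y := mul_inv_eq_one.1 (k0.le (mem_inf.2 ⟨mul_mem (k2 _ (mem_zpowers _))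
    (inv_mem (mem_zpowers _)), by
      simpa [k1, mul_assoc] using mul_mem (mul_mem (inv_mem hn) h1) ((mem_normalizer_iff.1 n3 n).1 hn)⟩))
  have k4 := h.conj (h0 hn) hy
  have k5 : y * (n * y * n⁻¹) ∈ Q := by
    simpa [mul_assoc, h.inv hy] using mul_mem ((mem_normalizer_iff.1 n2 n).1 hn) (inv_mem hn)
  have k6 := h.comm_of_two hQ hy k4 k5
  have k7 : Commute (e * y) (y * (n * y * n⁻¹)) := by
    have b1 : e * y * n = n * (d * y) := by rw [← k3]; group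
    have b2 : y * e * n = n * (y * d) := by
      have := congrArg (·⁻¹) k3
      simp only [mul_inv_rev, h.inv hd, h.inv he, h.inv hy, inv_inv] at this
      rw [← this]; group
    calc _ = y * (y * e * n) * y * n⁻¹ := by simp [mul_assoc, ii (h.sq hy)]
      _ = y * n * y * (n⁻¹ * (n * (d * y))) * n⁻¹ := by rw [b2]; group
      _ = _ := by rw [← b1]; group
  have k8 : y = n * y * n⁻¹ := by_contra fun b => h3 (h.cm_mul hy k4 he k6 b (by
    simpa using k7.mul_left ((Commute.refl y).mul_right k6).inv_left))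
  have k9 : Commute n y := (eq_mul_inv_iff_mul_eq.1 k8).symm
  exact ⟨n⁻¹, inv_mem hn, k9.inv_left, by rw [← mul_left_inj y, ← k3, inv_inv, mul_assoc, k9.eq]; group⟩

namespace PC

variable (hs : CoreStep.{u, u}) (h : PC S)
include h

/-- a torus element of `⟨E_a, y⟩` -/
lemma torus (ha : a ∈ S) (hy : y ∈ S) (h1 : ¬ Commute a y) : ∃ t ∈ S, ∃ t' ∈ S, t * a * t = y ∧ ¬ Commute t a ∧
    ¬ Commute t' a ∧ Commute (t' * a * t') y ∧ Od t t' ∧ (t * t') • δ S a = δ S a ∧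
    ∀ H : Subgroup G, (∀ e ∈ S, δ S e = δ S a → e ∈ H) → y ∈ H → t ∈ H ∧ t' ∈ H := by
  obtain ⟨b, hb, b1, b2, b3⟩ := h.four ha
  have h2 : ¬ Commute b y := fun e => h1 ((δ_eq.1 b2 y hy).1 e.symm).symm
  have h3 : Commute a b := (δ_eq.1 b2 a ha).2 rfl
  obtain ⟨t, ht, e, k⟩ := h.swap ha hy h1
  obtain ⟨t', ht', e', k'⟩ := h.swap hb hy h2
  have k1 : ¬ Commute t a := fun b => h1 (by rw [← e, b.eq, mul_assoc, h.sq ht, mul_one])
  have k2 : t * t' * b * (t * t')⁻¹ = a := by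
    rw [mul_inv_rev, h.inv ht, h.inv ht', ← mul_assoc, mul_assoc t, mul_assoc t, e', ← e]
    simp [mul_assoc, ii (h.sq ht), h.sq ht]
  have k3 : a ≠ b := fun e => ne1 (h.ord _ b1) (by rw [e, h.sq hb])
  refine ⟨t, ht, t', ht', e, k1, fun c => h2 ?_, by simpa [h.inv ht', e'] using cj_comm h3 t', h.od ht ht' fun c => ?_,
    by rw [← b2, smul_δ (h.nrm (mul_mem (subset_closure ht) (subset_closure ht'))), k2, b2],
    fun H c1 c2 => ⟨k H (c1 a ha rfl) c2, k' H (c1 b hb b2) c2⟩⟩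
  · rw [← e', ((δ_eq.1 b2 t' ht').2 c).eq, mul_assoc, h.sq ht', mul_one]
  · have c1 := inv_eq_of_mul_eq_one_right (sq_mul (h.sq ht) (h.sq ht') c)
    refine k1 ((δ_eq.1 b3 t ht).1 (h.cm_mul ht ht' b1 c (fun e => k3 (by simpa [e, h.sq ht'] using k2.symm)) ?_).symm)
    have c2 := sq_mul (h.sq ht) (h.sq ht') c
    generalize t * t' = u at k2 c1 c2
    rw [c1] at k2
    have c3 : u * b = a * u := by rw [← k2, mul_assoc, c2, mul_one]
    have c4 : b * u = u * a := by rw [← k2]; simp [mul_assoc, ii c2]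
    rw [commute_iff_eq, mul_assoc, c4, ← mul_assoc, ← c3, mul_assoc, h3.eq]

include hs

lemma step (hd : d ∈ S) (ha : a ∈ S) (hz : z ∈ S) (hy : y ∈ S) (h1 : Commute a d) (h2 : Commute a z)
    (h3 : Commute z y) : ∃ e ∈ S, Commute e d ∧ Commute e y := by
  by_contra! hn
  have h4 : ¬ Commute y a := fun e => hn a ha h1 e.symm
  have h5 : ¬ Commute y d := fun e => hn d hd rfl e.symm
  obtain ⟨t, ht, t', ht', e1, b1, b2, b3, b4, b5, b6⟩ := h.torus ha hy fun e => h4 e.symm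
  have r := h.tri_r1 ha hd hy h1 h4 h5
  have r1 := h.tri_closure ha hd hy h1 h4 h5
  have r2 := h.tri_sub ha hd hy h1 h4 h5
  have r3 := h.cl_le (Tri.le (a := a) (g := d) hy) ha
  have r4 : closure (Cl (Tri S a d y) a) ≤ closure S := closure_mono r3
  obtain ⟨M, _, _, Q, f, B⟩ := r.bar
  obtain ⟨c1, c2⟩ := b6 _ (fun _ => Tri.left (g := d)) Tri.base
  have c3 := h.of_od ha ht (fun e => b1 e.symm) (Tri.left ha rfl) c1
  have c4 := h.of_od ha ht' (fun e => b2 e.symm) (Tri.left ha rfl) c2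
  have c5 := r2 (.inl ⟨hd, .inr rfl⟩)
  have c6 := r2 (.inr rfl)
  obtain ⟨g, hg, e2, hq⟩ := B.F1 hs (Cl.self _ _) c5 c3 c4 h1.symm b1 (e1 ▸ b3)
  have q2 := isPGroup_of_le (inf_le_left (b := closure (Cl (Tri S a d y) a))) B.two
  obtain ⟨n, hn', e3⟩ := fix_orbit (ω := δ S d) q2 (B.nrm' (mul_mem (B.N c3) (B.N c4))) b4.2 ⟨_, hq, by
    rw [← e2, ← smul_δ (h.nrm (r4 hg))]
    conv_rhs => rw [← b5, smul_smul, smul_smul, mul_assoc _ g, inv_mul_cancel_right, mul_smul]⟩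
  have k0 := h.nrm (mul_mem (subset_closure ht) (subset_closure ht'))
  rw [smul_δ (h.nrm (r4 hn'.2)), smul_δ k0] at e3
  have c7 := r.conj hn'.2 c5
  have c8 : n * d * n⁻¹ * d ∈ Q ⊓ closure (Cl (Tri S a d y) a) := by
    simpa [mul_assoc, h.inv hd] using mul_mem hn' ((mem_normalizer_iff.1 (B.nrm' (B.N c5)) _).1 (inv_mem hn'))
  generalize n * d * n⁻¹ = e at e3 c7 c8
  have he := r3 c7
  have c9 := r.comm_of_two q2 c7 c5 c8
  obtain ⟨o, ho, o1, o2⟩ := h.pair_tr q2 (inf_le_right.trans r4) hd he hy (B.nrm' (B.N c5)) (B.nrm' (B.N c6)) c8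
    (fun e => h5 e.symm) fun b => h5 (r.tr _ c6 _ c7 _ c5 b.symm c9)
  have k1 : ∀ s ∈ S, Commute s e → ¬ Commute s y := fun s hs c1 c2 => hn _ (h.conj (r4 ho.2) hs)
    (o2 ▸ cj_comm c1 o) (by simpa [o1.eq] using cj_comm c2 o)
  have k2 : ¬ Commute z e := fun b => k1 z hz b h3
  have k3 : Commute a e := r.tr _ (Cl.self _ _) _ c5 _ c7 h1 c9.symm
  obtain ⟨M', _, _, Q', f', B'⟩ := (h.tri_r1 he he hz rfl k2 k2).bar
  have r5 := h.tri_sub he he hz rfl k2 k2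
  obtain ⟨z1, z2⟩ := b6 𝐂[z] (fun e he b => mem_cent1_iff.2 ((δ_eq.1 b z hz).2 h2.symm).symm) (mem_cent1_iff.2 h3.symm)
  have z3 : Commute (t * t') z := mem_cent1_iff.1 (mul_mem z1 z2)
  have k4 : ∀ {s}, s ∈ S → t * t' * s * (t * t')⁻¹ ∈ S := fun {s} => (mem_set_normalizer_iff.1 k0 s).1
  obtain ⟨s, s1, s2, s3⟩ := B'.F2 hs (Cl.nrm (H3.mem_normalizer_closure_of_conj_mem (by
      rintro s (hs | rfl)
      · exact .inl ⟨k4 hs.1, .inl (by rw [← smul_δ k0, hs.2.elim id id, smul_δ k0, e3])⟩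
      · exact .inr (by rw [z3.eq, mul_inv_cancel_right]; rfl))) (r5 (.inl ⟨k4 he, .inl e3⟩))) b4.2 (r5 (.inr rfl))
    (Cl.self _ _) z3 k2 ((δ_eq.1 e3 e he).2 rfl).symm
  have s4 := h.cl_le (Tri.le hz) he s1
  have s5 : Commute s a := mem_cent_iff.1 (Tri.cent (fun _ _ => cm_E ha k3 k3) h2.symm) s (Cl.mem s1 (Tri.left he rfl))
  have s6 : Commute s t := by_contra fun b => b4.1 ((eq_inv_of_mul_eq_one_left (inv_cent' (h.od ht s4 fun e => b e.symm)
    (h.sq ht) b4.2 (by simp [mul_assoc, h.inv ht, h.inv ht', ii (h.sq ht)]) s3.symm)).trans (h.inv ht'))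
  exact k1 s s4 s2 (e1 ▸ (s6.mul_right s5).mul_right s6)

theorem common (hc : IsConnectedSet (CommAdj S) S) (hd : d ∈ S) (hx : x ∈ S) : ∃ e ∈ S, Commute e d ∧ Commute e x := by
  have := hc d hd x hx
  induction this with
  | refl => exact ⟨d, hd, rfl, rfl⟩
  | tail _ e ih => obtain ⟨a, ha, b1, b2⟩ := ih e.1; exact h.step hs hd ha e.1 hx b1 b2 e.2.2.2

end PC

end Cfsg.Agent.H7.RT
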