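import Cfsg.Agent.H7.RT3

/-! Odd transpositions: the structure of `⟨E_d, x⟩`. -/

set_option autoImplicit false
set_option linter.unusedSectionVars false
set_option linter.unusedVariables false
set_option linter.style.haveILetI false

namespace Cfsg.Agent.H7.RT

open Subgroup FT H8.ZD H8.RI BS MulAction H9.Sh Matrix
open scoped Classical commutatorElement

universe u

variable {G : Type u} [Group G] [Finite G] {S T U D : Set G} {a a' b c d e g k s t w x y z : G} {Q X H R K : Subgroup G}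

lemma BN.le_of {L L' D Q' : Subgroup G} (h : BN L Q D t) (h' : BN L' Q' K t) (h1 : L ≤ L') (h2 : Q' ≤ Q) (h3 : K ≤ D) :
    D ≤ K ∧ Q ≤ Q' := by
  have k : ∀ g ∈ Q ⊔ D, g ∈ Q' ⊔ K := fun g hg => by_contra fun e => by
    obtain ⟨a, ha, y, hy, rfl⟩ := h'.cover g (h1 (h.HL hg)) e
    exact h.not_mem (sup_le_sup h2 h3 ha) (mem_sup_left (h2 hy)) hg
  refine ⟨fun d hd => h'.mem_D (k d (mem_sup_right hd)) (k _ (mem_sup_right (h.tD d hd))), fun x hx => ?_⟩
  obtain ⟨y, hy, z, hz, rfl⟩ := h'.sdp.mem_iff.1 (k x (mem_sup_left hx))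
  rwa [h.eq_one ((mul_mem_cancel_left (h2 hy)).1 hx) (h3 hz), mul_one]

lemma gen_cases {Ω : Type*} [MulAction G Ω] {δ : G → Ω} {α β : Ω} (l : Loc S δ α β R K e)
    (hg : closure S ≤ l.B ⊔ zpowers e) :
    (∃ (F : Type) (_ : Field F) (_ : Fintype F), CharP F 2 ∧ 4 ≤ Fintype.card F ∧ R = l.B ∧ ♯R = Fintype.card F ∧
      Nonempty (closure S ≃* ProjectiveSpecialLinearGroup (Fin 2) F)) ∨
    (R ≠ l.B ∧ closure S ⊓ St2 G α β ≤ K ∧ Lie.IsoSuzuki (closure S)) := by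
  have h4 := l.four_le
  have k0 : closure S = R ⊔ zpowers e := le_antisymm (Lc.gen l) (sup_le l.sz.QL (zpowers_le.2 l.sz.tL))
  have k : closure S ⊓ St2 G α β ≤ K ∧ ♯R ≠ ♯l.B ^ 3 := by
    obtain ⟨s, r, H⟩ := l.sz.exists_dist
    obtain ⟨F, _, _, _, c, rfl⟩ := l.sz.suz.exists_coord' H.sZ H.ne
    by_cases h7 : r * r = 1
    · obtain rfl := H.three h7
      have := BN.le_of l.sz.toBN H.bn0 (hg.trans (sup_le_sup_right le_sup_left _)) l.B_le l.sz.KD
      refine ⟨this.1, fun e => ?_⟩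
      have b1 : ♯R ≤ ♯l.B := card_le_of_le' this.2
      have : ♯l.B ^ 1 < ♯l.B ^ 3 := Nat.pow_lt_pow_right (by omega) (by norm_num)
      rw [pow_one] at this; omega
    · have b1 := H.order_five (H.five h7 (l.sz.sq_mem l.exp r H.rQ)).1 fun e => h7 (l.exp e r H.rQ)
      refine ⟨(BN.le_of l.sz.toBN b1.2.2 k0.le le_rfl l.sz.KD).1, b1.2.1 ▸ fun e => ?_⟩
      simpa using Nat.pow_right_injective (by omega : 2 ≤ ♯l.B) e
  obtain ⟨r, hr, r1⟩ := exists_ne_one_of_ne_bot l.sz.neQ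
  rw [k0]
  rcases l.sz.main' l.exp (eq_bot_iff.2 fun d hd => (l.K_free (k.1 hd.1) hr (by
    rw [← mem_cent_iff.1 hd.2 r hr, mul_inv_cancel_right])).resolve_right r1) with b | b | ⟨_, _, _, _, _, _, b, _⟩
  · exact .inl b
  · refine .inr ⟨fun e => ?_, k0 ▸ k.1, b.2.2⟩
    have : ♯l.B ^ 1 = ♯l.B ^ 2 := by rw [pow_one, ← b.1]; exact congrArg (fun X : Subgroup G => ♯X) e.symm
    simpa using Nat.pow_right_injective (by omega : 2 ≤ ♯l.B) this
  · exact absurd b k.2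

lemma eq_bot_of_two (hO : pCore 2 G = ⊥) (h1 : IsPGroup 2 Q) (h2 : ⊤ ≤ 𝐍(Q)) : Q = ⊥ :=
  haveI := normalizer_eq_top_iff.1 (top_le_iff.1 h2); eq_bot_iff.2 (hO ▸ L.le_pCore h1)

lemma cent_eq_one (hO : pCore 2 G = ⊥) (h1 : w * w = 1) (h2 : w ∈ 𝐂((⊤ : Subgroup G))) : w = 1 := by_contra fun e =>
  e ((eq_bot_of_two hO (isPGroup_zpowers2 (ord2 h1 e)) ((cent_symm (zpowers_le.2 h2)).trans (cent_le_norm _))).le
    (mem_zpowers w))

lemma OT.pure_of (h : OT S) (hO : pCore 2 G = ⊥) (hd : d ∈ S) (hx : x ∈ S) (h1 : ¬ Commute x d)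
    (hg : Tri S d d x = ⊤) (he : e ∈ S) (h2 : δ S e = δ S d) (h3 : e ≠ d) : ∃ a ∈ S, ∃ b ∈ S, Commute a b ∧ a * b ∈ S := by
  by_contra! hn
  have hN : ∀ g, g ∈ normalizer S := fun g => h.nrm (Tri.le hx (hg.ge (mem_top g)))
  have n0 : ∀ {g s}, s ∈ S → g * s * g⁻¹ ∈ S := fun {g s} => (mem_set_normalizer_iff.1 (hN g) s).1
  have k0 : ∀ {p a b}, a ∈ S → δ S a = p → δ S b = p → Commute a b := fun ha e1 e2 =>
    (δ_eq.1 (e1.trans e2.symm) _ ha).1 rfl
  have xx : ∀ p : CS G, x • x • p = p := fun p => by rw [smul_smul, h.sq hx, one_smul]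
  let P : CS G → Set G := fun p => {u | ∃ a ∈ S, ∃ b ∈ S, δ S a = p ∧ δ S b = p ∧ a * b = u}
  have p1 : ∀ g p, ∀ u ∈ P p, g * u * g⁻¹ ∈ P (g • p) := fun g p u ⟨a, ha, b, hb, e1, e2, e3⟩ =>
    ⟨_, n0 ha, _, n0 hb, by rw [← smul_δ (hN g), e1], by rw [← smul_δ (hN g), e2], by rw [conj_mul, e3]⟩
  have p2 : ∀ p, IsPGroup 2 (closure (P p)) := fun p => two_closure (by
    rintro _ ⟨a, ha, b, hb, e1, e2, rfl⟩; exact sq_mul (h.sq ha) (h.sq hb) (k0 ha e1 e2)) (by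
    rintro _ ⟨a, ha, b, hb, e1, e2, rfl⟩ _ ⟨a', ha', b', hb', e3, e4, rfl⟩
    exact ((k0 ha e1 e3).mul_right (k0 ha e1 e4)).mul_left ((k0 hb e2 e3).mul_right (k0 hb e2 e4)))
  have k1 : ∀ u ∈ P (δ S d), u • x • δ S d = x • δ S d := by
    rintro _ ⟨a, ha, b, hb, e1, e2, rfl⟩
    have c0 := k0 ha e1 e2
    by_cases c2 : a = b
    · rw [c2, h.sq hb, one_smul]
    by_cases c1 : Commute x (a * b * x * (a * b))
    · have c4 := sq_mul (h.sq ha) (h.sq hb) c0
      have c3 : Commute (a * b) (x * a * x⁻¹ * (x * b * x⁻¹)) := by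
        rw [conj_mul, h.inv hx]
        generalize a * b = u at c1 c4
        rw [commute_iff_eq, ← mul_left_inj x, ← mul_right_inj x, mul_assoc (x * u * x), ← mul_assoc u, ← mul_assoc u,
          mul_assoc (u * x * u), h.sq hx, mul_one, c1.eq]
        simp only [mul_assoc, ii (h.sq hx)]
      have c5 : ∀ s ∈ S, Commute s (x * a * x⁻¹) ↔ Commute s (x * a * x⁻¹ * (x * b * x⁻¹)) := fun s hs =>
        ⟨fun e => e.mul_right ((δ_eq.1 (show δ S (x * a * x⁻¹) = δ S (x * b * x⁻¹) by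
          rw [← smul_δ (hN x), ← smul_δ (hN x), e1, e2]) s hs).1 e),
          h.cm_mul (n0 ha) (n0 hb) hs (cj_comm c0 x) (by simpa using c2)⟩
      rw [← e1, smul_δ (hN x), eq_comm, ← inv_smul_eq_iff, smul_δ (hN _), δ_eq]
      intro s hs
      rw [← cj_comm_iff (g := a * b), c5 s hs, ← cj_comm_iff (g := a * b) (a := s) (b := _ * _), c3.eq,
        mul_inv_cancel_right, ← c5 _ (n0 hs)]
      simp [mul_assoc]
    · obtain ⟨c, hc, b1, b2, b3, b4, -⟩ := h.rad ha hb hx c0 c1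
      have b5 := (δ_eq.1 e1 c hc).1 b1
      have := cent_eq_one hO (sq_mul (sq_mul (h.sq ha) (h.sq hb) c0) (h.sq hc) (b1.mul_right b2).symm) (hg ▸ Tri.cent
        (fun e he b => ((k0 he (b.elim id id) e1).mul_right (k0 he (b.elim id id) e2)).mul_right (cm_E hc b5 b5 b)) b3)
      exact absurd (by rwa [eq_inv_of_mul_eq_one_left this, h.inv hc]) (hn a ha b hb c0)
  have k2 : ∀ u ∈ P (x • δ S d), u • δ S d = δ S d := fun u hu => by
    have := k1 _ (xx _ ▸ p1 x _ u hu)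
    rwa [mul_smul, mul_smul, inv_smul_smul, smul_left_cancel_iff] at this
  have k3 : closure (P (δ S d)) ≤ 𝐍(closure (P (x • δ S d))) := (closure_le _).2 fun u hu =>
    H3.mem_normalizer_closure_of_conj_mem fun v hv => k1 u hu ▸ p1 u _ v hv
  have k4 := eq_bot_of_two hO (isPGroup_sup' (p2 _) (p2 _) k3) (hg ▸ (closure_le _).2 (by
    rw [← Subgroup.closure_union]
    rintro s (hs | rfl)
    · have b := hs.2.elim id id
      refine H1.mem_normalizer_of_cj_le ?_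
      rw [H1.cj_def, MonoidHom.map_closure, closure_le]
      rintro _ ⟨u, hu | hu, rfl⟩ <;> change s * u * s⁻¹ ∈ Subgroup.closure _
      · rw [show s * u * s⁻¹ = s * (u * s * u⁻¹) * u by simp [mul_assoc, h.inv hs.1]]
        exact mul_mem (subset_closure (.inr ⟨s, hs.1, _, n0 hs.1, b, by rw [← smul_δ (hN u), b, k2 u hu], rfl⟩))
          (subset_closure (.inl hu))
      · have := p1 s _ u hu
        rw [smul_δ (hN s), ((δ_eq.1 b d hd).2 rfl).symm.eq, mul_inv_cancel_right] at this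
        exact subset_closure (.inr this)
    · exact H3.mem_normalizer_closure_of_conj_mem fun u hu => hu.symm.imp (p1 s _ u) fun e => by
        simpa only [xx] using p1 s _ u e))
  exact h3 ((eq_inv_of_mul_eq_one_left (k4.le (mem_sup_right (subset_closure ⟨e, he, d, hd, h2, rfl, rfl⟩)))).trans
    (h.inv hd))

end Cfsg.Agent.H7.RT
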