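import Cfsg.Agent.H7.RT4

/-! Odd transpositions: `⟨E_d, x⟩ / O₂`. -/

set_option autoImplicit false
set_option linter.unusedSectionVars false
set_option linter.unusedVariables false
set_option linter.style.haveILetI false

namespace Cfsg.Agent.H7.RT

open Subgroup FT H8.ZD H8.RI BS MulAction H9.Sh Matrix
open scoped Classical commutatorElement

universe u

variable {G : Type u} [Group G] [Finite G] {S T U D : Set G} {a a' b c d e g k s t w x y z : G} {Q X H R K : Subgroup G}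

/-- the conclusion for `⟨E_d, x⟩ / O₂` -/
def Rk1 (G : Type u) [Group G] : Prop :=
  (∃ (F : Type) (_ : Field F) (_ : Fintype F), CharP F 2 ∧ 4 ≤ Fintype.card F ∧
    Nonempty (G ≃* ProjectiveSpecialLinearGroup (Fin 2) F)) ∨ Lie.IsoSuzuki G ∨ ∃ n : ℕ, Nonempty (G ≃* DihedralGroup n)

lemma OT.rk1 (hs : CoreStep.{u, u}) (h : OT S) (hO : pCore 2 G = ⊥) (hd : d ∈ S) (hx : x ∈ S) (h1 : ¬ Commute x d)
    (hg : Tri S d d x = ⊤) (hc : ∀ s ∈ S, s ∈ Cl ⊤ d) : Rk1 G := by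
  have k0 : closure S = ⊤ := top_le_iff.1 (hg ▸ Tri.le hx)
  have k1 : ∀ {M : Type} [Group M], Nonempty (closure S ≃* M) → Nonempty (G ≃* M) := fun ⟨e⟩ =>
    ⟨(topEquiv.symm.trans (MulEquiv.subgroupCongr k0.symm)).trans e⟩
  by_cases he : ∃ e ∈ S, δ S e = δ S d ∧ e ≠ d
  · obtain ⟨e, he, h2, h3⟩ := he
    have p : PC S := ⟨h, fun a ha b hb => k0 ▸ Cl.trans (hc b hb) (Cl.symm (hc a ha)), h.pure_of hO hd hx h1 hg he h2 h3⟩
    have r := p.tri_r1 hd hd hx rfl h1 h1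
    rw [hg, show Cl ⊤ d = S from (h.cl_le k0.ge hd).antisymm hc] at r
    obtain ⟨R, K, l⟩ := r.loc hs (fun _ a _ b => r.mul (fun g => h.nrm (k0.ge (mem_top g))) hO a b) hd hx h1
    rcases gen_cases l (k0.le.trans (hg.ge.trans ((closure_le _).2 (by
      rintro s (hs | rfl)
      exacts [mem_sup_left (l.mem_B.2 (.inr ⟨hs.1, hs.2.elim id id⟩)), mem_sup_right (mem_zpowers _)])))) with
      ⟨F, _, _, b1, b2, -, -, b3⟩ | ⟨-, -, F, _, _, m, b1, b2, b3⟩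
    exacts [.inl ⟨F, _, _, b1, b2, k1 b3⟩, .inr (.inl ⟨F, _, _, m, b1, b2, k1 b3⟩)]
  · push Not at he
    obtain ⟨e⟩ := H3.closure_pair_equiv_dihedral (h.ord d hd) (h.ord x hx)
    refine .inr (.inr ⟨_, ⟨(topEquiv.symm.trans (MulEquiv.subgroupCongr (top_le_iff.1 (hg.ge.trans (closure_mono ?_))).symm)).trans e⟩⟩)
    rintro s (hs | rfl)
    exacts [.inl (he s hs.1 (hs.2.elim id id)), .inr rfl]

lemma OT.rk1_quot (hs : CoreStep.{u, u}) (h : OT S) (hd : d ∈ S) (hx : x ∈ S) (h1 : ¬ Commute x d)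
    (hX : X = Tri S d d x) : Rk1 (X ⧸ pCore 2 X) := by
  let f := QuotientGroup.mk' (pCore 2 X)
  have hf := QuotientGroup.mk'_surjective (pCore 2 X)
  have dX : d ∈ X := hX ▸ Tri.left hd rfl
  have xX : x ∈ X := hX ▸ Tri.base
  have k0 : ∀ {s : X}, s.1 ∈ Cl X d → s.1 ∈ S := fun e => h.cl_le (hX ▸ Tri.le hx) hd e
  have k1 : ∀ {a b : X}, a.1 ∈ S → b.1 ∈ S → f a = f b → Commute a.1 b.1 := fun {a b} ha hb e =>
    h.comm_of_two ((L.pCore_isPGroup 2).map X.subtype) ha hb ⟨a * b⁻¹, by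
      rwa [SetLike.mem_coe, ← QuotientGroup.eq_one_iff, QuotientGroup.mk_mul, QuotientGroup.mk_inv, mul_inv_eq_one],
      by simp [h.inv hb]⟩
  have k2 : ∀ {a : X}, a.1 ∈ S → f a * f a = 1 := fun {a} ha => by
    rw [← map_mul, show a * a = 1 from Subtype.ext (h.sq ha), map_one]
  have k3 : ∀ {a b : X}, a.1 ∈ S → b.1 ∈ S → ¬ Commute a.1 b.1 → Od (f a) (f b) := fun {a b} ha hb e =>
    ⟨fun b => e (k1 ha hb b), map_mul f a b ▸ (h.od ha hb e).2.of_dvd_nat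
      ((orderOf_map_dvd f _).trans (Subgroup.orderOf_coe (a * b)).symm.dvd)⟩
  have k4 : ∀ {a b : X}, a.1 ∈ S → b.1 ∈ S → (Commute (f a) (f b) ↔ Commute a.1 b.1) := fun {a b} ha hb =>
    ⟨fun e => by_contra fun e1 => od_not (k3 ha hb e1) (k2 ha) (k2 hb) e, fun e => Commute.map (show a * b = b * a from Subtype.ext e) f⟩
  have k5 : ∀ {e}, e ∈ S → δ S e = δ S d → e ∈ Cl X d := fun he e => Cl.trans (h.of_od hx he
    (fun b => h1 ((δ_eq.1 e x hx).1 b)) xX (hX ▸ Tri.left he e)) (h.of_od hd hx (fun e => h1 e.symm) dX xX)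
  have k6 : ∀ {s : X}, s.1 ∈ Cl X d → f s ∈ Cl ⊤ (f ⟨d, dX⟩) := fun {s} ⟨g, hg, e⟩ =>
    ⟨f ⟨g, hg⟩, mem_top _, by rw [← map_mul, ← map_inv, ← map_mul]; exact congrArg f (Subtype.ext e)⟩
  have k7 : ∀ {m}, m ∈ Cl ⊤ (f ⟨d, dX⟩) → ∃ s : X, s.1 ∈ S ∧ f s = m := fun ⟨g, _, e⟩ => by
    obtain ⟨g, rfl⟩ := hf g
    exact ⟨g * ⟨d, dX⟩ * g⁻¹, k0 ⟨g, g.2, rfl⟩, by rw [← e, map_mul, map_mul, map_inv]⟩
  have k8 := k6 (s := ⟨x, xX⟩) (h.of_od hd hx (fun e => h1 e.symm) dX xX)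
  have k9 := (k4 (a := ⟨x, xX⟩) (b := ⟨d, dX⟩) hx hd).not.2 h1
  refine OT.rk1 hs ⟨fun m hm => ?_, fun a ha b hb => ?_, fun a ha b hb => ?_⟩ (L.pCore_quotient 2) (Cl.self ⊤ _) k8 k9
    ?_ fun _ => id
  · obtain ⟨g, -, rfl⟩ := hm
    rw [← MulAut.conj_apply, MulEquiv.orderOf_eq]
    exact ord2 (k2 hd) fun e => k9 (e ▸ Commute.one_right _)
  · obtain ⟨s, b1, rfl⟩ := k7 ha
    simpa only [inv_eq_of_mul_eq_one_right (k2 b1)] using Cl.conj hb (mem_top (f s))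
  · obtain ⟨s, b1, rfl⟩ := k7 ha
    obtain ⟨s', b2, rfl⟩ := k7 hb
    exact or_iff_not_imp_left.2 fun e => k3 b1 b2 ((k4 b1 b2).not.1 e)
  · refine eq_top_iff.2 fun m _ => ?_
    obtain ⟨⟨g, hg⟩, rfl⟩ := hf m
    subst hX
    induction hg using closure_induction with
    | mem s hs =>
      rcases hs with hs | rfl
      · refine Tri.left (k6 (k5 hs.1 (hs.2.elim id id))) (δ_eq.2 fun m hm => ?_)
        obtain ⟨s', b1, rfl⟩ := k7 hm
        rw [k4 b1 hs.1, k4 b1 hd]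
        exact δ_eq.1 (hs.2.elim id id) _ b1
      · exact Tri.base
    | one => exact one_mem _
    | mul x y hx hy a b => exact mul_mem (a (mem_top _)) (b (mem_top _))
    | inv x hx a => exact inv_mem (a (mem_top _))

end Cfsg.Agent.H7.RT
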