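import Cfsg.Agent.H7.RT5

/-! Odd transpositions: `E_d ∪ 1` is a group. -/

set_option autoImplicit false
set_option linter.unusedSectionVars false
set_option linter.unusedVariables false
set_option linter.style.haveILetI false

namespace Cfsg.Agent.H7.RT

open Subgroup FT H8.ZD H8.RI BS MulAction H9.Sh Matrix
open scoped Classical commutatorElement

universe u

variable {G : Type u} [Group G] [Finite G] {S T U D : Set G} {a a' b c d e g k s t w x y z : G} {Q X H R K : Subgroup G}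

lemma Tri.mono : Tri S a a x ≤ Tri S a g x := closure_mono (Set.union_subset_union_left _ fun _ e =>
  ⟨e.1, .inl (e.2.elim id id)⟩)

lemma OT.E_le (h : OT S) (ha : a ∈ S) (hx : x ∈ S) (h1 : ¬ Commute x a) (hb : b ∈ S) (h2 : δ S b = δ S x) :
    b ∈ Tri S a g x := by
  obtain ⟨t, ht, e, k⟩ := h.swap hx ha h1
  have k1 := k _ Tri.base (Tri.left (g := g) ha rfl)
  have k2 := h.nrm (subset_closure ht)
  have k3 := smul_δ k2 b
  rw [h2, smul_δ k2, h.inv ht, e] at k3
  simpa [mul_assoc, ii (h.sq ht), h.sq ht] using mul_mem (mul_mem k1 (Tri.left (g := g) (x := x) (h.cnj t ht b hb)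
    k3.symm)) k1

namespace PC

variable (h : PC S)
include h

lemma mem_E (ha : a ∈ S) (hx : x ∈ S) (h1 : ¬ Commute x a) (hg : g ∈ S) (gX : g ∈ Tri S a a x) (h2 : Commute g a) :
    δ S g = δ S a :=
  (h.δ_of_le ha hg fun s hs e => (h.tri_W ha hs hx e.symm h1 hg (Tri.mono gX) h2).symm).symm

lemma prop (ha : a ∈ S) (hb : b ∈ S) (hab : δ S b = δ S a) (hx : x ∈ S) (hy : y ∈ S) (h1 : ¬ Commute x a)
    (h3 : Commute x y) (h4 : Commute x (a * b * x * (a * b))) : Commute y (a * b * y * (a * b)) := by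
  by_contra hn
  have c0 : Commute a b := (δ_eq.1 hab a ha).2 rfl
  have h2 : ¬ Commute y a := fun e => hn (by
    have := e.mul_right ((δ_eq.1 hab y hy).2 e); exact (this.mul_right rfl).mul_right this)
  obtain ⟨c, hc, b1, b2, b3, b4, b5⟩ := h.rad ha hb hy c0 hn
  have k1 := h.mem_E ha hy h2 hc (b5 _ (Tri.left ha rfl) (Tri.left hb hab) Tri.base) b1
  have k2 := mul_mem (Tri.base (S := S) (a := x) (g := y) (x := a)) (h.E_le hx ha (fun e => h1 e.symm) hb hab)
  have k3 := sq_mul (h.sq ha) (h.sq hb) c0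
  have k4 := h.conj (mul_mem (subset_closure ha) (subset_closure hb)) hx
  have k5 := b1.mul_right b2
  generalize a * b = u at *
  have ui := inv_eq_of_mul_eq_one_right k3
  have k6 := h.tri_W hx hy ha h3 (fun e => h1 e.symm) k4 (mul_mem (mul_mem k2 (Tri.left hx rfl)) (inv_mem k2))
    (by rw [ui]; exact h4.symm)
  have k7 : c * y * c = u⁻¹ * y * u := by
    rw [ui, ← mul_left_inj c, ← mul_right_inj u, mul_assoc (u * y), ← mul_assoc u (u * y), ← mul_assoc, ← mul_assoc,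
      ← mul_assoc, ← b3.eq]
    simp [mul_assoc, ii k3, ii (h.sq hc), h.sq hc]
  exact h1 ((δ_eq.1 k1 x hx).1 (comm_of_od (h.od hy hc fun e => b4 e.symm) h3 (by
    simpa [k7, mul_assoc] using cj_comm k6 u⁻¹)))

lemma r1_of_not_conn (hD : IsRootInvolutionSet D) (hS : S ⊆ D) (hn : ¬ IsConnectedSet (CommAdj S) S) : R1 S := by
  have p := part_of_not_conn (rt_sub hD hS h.cnj fun a ha b hb e => ((h.pair a ha b hb).elim
    (fun c => e.sq_ne (sq_mul (h.sq ha) (h.sq hb) c)) fun c => c.not_fo e).elim) fun c => hn fun a ha b hb =>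
      (c ⟨a, subset_closure ha⟩ ha ⟨b, subset_closure hb⟩ hb).lift Subtype.val fun _ _ e =>
        ⟨e.1, e.2.1, fun b => e.2.2.1 (Subtype.ext b), congrArg Subtype.val e.2.2.2⟩
  obtain ⟨a, ha, b, hb, e1, e2⟩ := h.pure
  obtain ⟨c, hc, d, hd, e3⟩ := p.two
  refine ⟨h, fun x hx y hy z hz c1 c2 => congrArg Subtype.val (p.comm_of_E ⟨⟨a, subset_closure ha⟩ *
    ⟨b, subset_closure hb⟩, e2, ⟨a, subset_closure ha⟩, ha, ⟨b, subset_closure hb⟩, hb, Subtype.ext e1, fun e => ne1 (h.ord _ e2) (congrArg Subtype.val e), rfl⟩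
    (a := ⟨x, subset_closure hx⟩) (b := ⟨z, subset_closure hz⟩) hx hz (p.trans
      (p.comm (b := ⟨y, subset_closure hy⟩) hx hy (Subtype.ext c1)) (p.comm hy hz (Subtype.ext c2)))),
    c, hc, d, hd, fun e => e3 (p.comm hc hd (Subtype.ext e))⟩

end PC

lemma typeI_all (hs : CoreStep.{u, u}) (hD : IsRootInvolutionSet D) (n : ℕ) : ∀ S ⊆ D, S.ncard = n → PC S →
    a ∈ S → b ∈ S → δ S b = δ S a → ∀ x ∈ S, ∀ y ∈ S, ¬ Commute x a → Commute x (a * b * x * (a * b)) →
    Commute y (a * b * y * (a * b)) := by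
  induction n using Nat.strong_induction_on with
  | _ n ih =>
  rintro S hS rfl h ha hb hab x hx y hy h1 h4
  have c0 : Commute a b := (δ_eq.1 hab a ha).2 rfl
  by_cases h2 : Commute y a
  · have := h2.mul_right ((δ_eq.1 hab y hy).2 h2); exact (this.mul_right rfl).mul_right this
  by_cases hc : IsConnectedSet (CommAdj S) S
  · obtain ⟨e, he, b1, b2⟩ := h.common hs hc hx hy
    by_cases h5 : Commute e a
    · set T := {s | s ∈ S ∧ δ S s = δ S a} ∪ {x, y}
      have t1 : T ⊆ S := Set.union_subset (fun _ e => e.1) (Set.pair_subset hx hy)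
      have t2 : a ∈ T := .inl ⟨ha, rfl⟩
      have t3 := h.of_od ha hx (fun e => h1 e.symm) (subset_closure t2) (subset_closure (k := T) (.inr (.inl rfl)))
      have t4 : T ⊆ Cl (closure T) a := by
        rintro s (hs | rfl | rfl)
        · exact Cl.trans (h.of_od hx hs.1 (fun e => h1 ((δ_eq.1 hs.2 x hx).1 e)) (subset_closure (.inr (.inl rfl)))
            (subset_closure (.inl hs))) t3
        · exact t3
        · exact h.of_od ha hy (fun e => h2 e.symm) (subset_closure t2) (subset_closure (.inr (.inr rfl)))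
      have t5 := h.cl_le (closure_mono t1) ha
      obtain ⟨c, hc, c1, c2, c3⟩ := h.four ha
      obtain ⟨g, hg, e1⟩ := h.cl a ha e he
      refine ih _ (Set.ncard_lt_ncard ⟨t5, fun k => h1 (cj_comm_iff.1 (e1.symm ▸ mem_cent_iff.1 (cent_closure (w := e) ?_) _
        (Cl.mem (k (h.conj hg hx)) (subset_closure t2))))⟩) _ (t5.trans hS) rfl (h.pc t1 t2 t4
          ⟨a, Cl.self _ _, c, t4 (.inl ⟨hc, c2⟩), (δ_eq.1 c2 a ha).2 rfl, t4 (.inl ⟨c1, c3⟩)⟩) (Cl.self _ _)
        (t4 (.inl ⟨hb, hab⟩)) (δ_eq.2 fun s hs => δ_eq.1 hab s (t5 hs)) x t3 y (t4 (.inr (.inr rfl))) h1 h4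
      rintro s (hs | rfl | rfl)
      exacts [((δ_eq.1 hs.2 e he).2 h5).symm, b1.symm, b2.symm]
    · exact h.prop ha hb hab he hy h5 b2 (h.prop ha hb hab hx he h1 b1.symm h4)
  · obtain ⟨M, _, _, Q, f, B⟩ := (h.r1_of_not_conn hD hS hc).bar
    have k := B.typeI ha hb hx c0 h1 h4
    have k1 := h.conj (mul_mem (subset_closure ha) (subset_closure hb)) hy
    rw [inv_eq_of_mul_eq_one_right (sq_mul (h.sq ha) (h.sq hb) c0)] at k1
    exact h.comm_of_two B.two hy k1 (by
      simpa [mul_assoc, h.inv hy] using mul_mem ((mem_normalizer_iff.1 (B.nrm (B.N hy)) _).1 k) k)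

/-- products of commuting members of `⟨E_a, x⟩` -/
lemma PC.mul_tri (hs : CoreStep.{u, u}) (h : PC D) (hD : IsRootInvolutionSet D) (hO : pCore 2 G = ⊥) (ha : a ∈ D)
    (hx : x ∈ D) (h1 : ¬ Commute x a) : ∀ b ∈ Cl (Tri D a a x) a, ∀ c ∈ Cl (Tri D a a x) a, Commute b c → b ≠ c →
      b * c ∈ Cl (Tri D a a x) a := fun b hb c hc => by
  obtain ⟨M, _, _, Q, f, B⟩ := (h.tri_r1 ha ha hx rfl h1 h1).bar
  have k0 := h.tri_sub ha ha hx rfl h1 h1 (.inr rfl)
  have k1 := h.cl_le (Tri.le (a := a) (g := a) hx) ha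
  refine B.Nm hs (Cl.self _ _) (fun n hn => ?_) hb hc
  have k2 := B.r1.conj hn.2 (Cl.self _ a)
  have k3 : a * (n * a * n⁻¹) ∈ Q := by
    simpa [mul_assoc, h.inv ha] using mul_mem ((mem_normalizer_iff.1 (B.nrm (B.N (Cl.self _ a))) n).1 hn.1) (inv_mem hn.1)
  have k4 := h.comm_of_two B.two ha (k1 k2) k3
  have k5 := h.mem_E ha hx h1 (k1 k2) (Cl.mem k2 (Tri.left ha rfl)) k4.symm
  have k6 := sq_mul (h.sq ha) (h.sq (k1 k2)) k4
  have k7 := hD.conj_mem x hx (a * (n * a * n⁻¹))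
  rw [inv_eq_of_mul_eq_one_right k6] at k7
  have := h.eq_one (fun g => h.nrm (hD.generates.ge (mem_top g))) hO k6 (mul_mem (subset_closure ⟨ha, rfl⟩)
    (subset_closure ⟨k1 k2, k5⟩)) fun y hy => typeI_all hs hD _ D le_rfl rfl h ha (k1 k2) k5 x hx y hy h1
      (h.comm_of_two B.two hx k7 (by
        simpa only [mul_assoc, h.inv hx] using mul_mem ((mem_normalizer_iff.1 (B.nrm (B.N k0)) _).1 k3) k3))
  rwa [mul_eq_one_iff_inv_eq, h.inv ha, eq_mul_inv_iff_mul_eq, eq_comm] at this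

end Cfsg.Agent.H7.RT
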