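import Cfsg.Agent.H7.RT6

/-! Odd transpositions: `⟨E_d, x⟩` is not a Suzuki group. -/

set_option autoImplicit false
set_option linter.unusedSectionVars false
set_option linter.unusedVariables false
set_option linter.style.haveILetI false

namespace Cfsg.Agent.H7.RT

open Subgroup FT H8.ZD H8.RI BS MulAction H9.Sh
open scoped Classical commutatorElement

universe u

variable {G : Type u} [Group G] [Finite G] {S T U D : Set G} {a a' b c d e g k m s t w x y z : G}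
  {Q X H R K M : Subgroup G}

lemma comm_of_sq_one (ha : a * a = 1) (hb : b * b = 1) (h : a * b * (a * b) = 1) : Commute a b := by
  rw [commute_iff_eq, ← inv_eq_of_mul_eq_one_right h, mul_inv_rev, inv_eq_of_mul_eq_one_right ha,
    inv_eq_of_mul_eq_one_right hb]

lemma sq_closure (h1 : ∀ a ∈ T, a * a = 1) (h2 : ∀ a ∈ T, ∀ b ∈ T, Commute a b) (hy : y ∈ closure T) : y * y = 1 := by
  haveI := isMulCommutative_closure h2
  induction hy using closure_induction with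
  | mem x hx => exact h1 x hx
  | one => simp
  | mul x y hx hy a b => exact sq_mul a b (setLike_mul_comm hx hy)
  | inv x hx a => rw [← mul_inv_rev, a, inv_one]

lemma cj_of_odd (ha : a * a = 1) (hx : x * x = 1) {i : ℕ} (e : (a * x) ^ (2 * i + 1) = 1) :
    (a * x) ^ (i + 1) * x * ((a * x) ^ (i + 1))⁻¹ = a := by
  have : x * (a * x)⁻¹ * x⁻¹ = a * x := by
    simp [mul_assoc, inv_eq_of_mul_eq_one_right ha, inv_eq_of_mul_eq_one_right hx, ii hx]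
  rw [mul_assoc, ← inv_pow, ← inv_mul_cancel_right (x * _) x, ← conj_pow, this, ← mul_assoc, ← pow_add,
    show i + 1 + (i + 1) = 2 * i + 1 + 1 by ring, pow_succ, e, one_mul, mul_assoc, hx, mul_one]

lemma pow_mul_mem (hn : g ∈ 𝐍(M)) (hm : m ∈ M) (i : ℕ) : (m * g) ^ i * (g ^ i)⁻¹ ∈ M := by
  induction i with
  | zero => simp
  | succ i ih => simpa [pow_succ', mul_assoc] using mul_mem hm ((mem_normalizer_iff.1 hn _).1 ih)

/-- the centralizer of an involution inverting an element of odd order -/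
lemma dec (hM : ∀ m ∈ M, m * m = 1) (hb : b * b = 1) (hx : x * x = 1) (ho : Odd (orderOf (b * x)))
    (hn : b * x ∈ 𝐍(M)) (hm : m ∈ M) (h1 : Commute m b) :
    ∃ ζ ∈ M, Commute ζ b ∧ Commute ζ x ∧ ∃ o ∈ M, o * b * o⁻¹ = m * ζ * b := by
  obtain ⟨i, hi⟩ := ho
  have k0 : (b * x) ^ (2 * i + 1) = 1 := hi ▸ pow_orderOf_eq_one _
  have k1 := pow_mul_mem hn hm (2 * i + 1)
  rw [k0, inv_one, mul_one] at k1
  have k2 := hM _ k1
  have k3 : ∀ m ∈ M, ∀ m' ∈ M, Commute m m' := fun m a m' b => comm_of_sq_one (hM m a) (hM m' b) (hM _ (mul_mem a b))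
  have k4 : Commute ((m * (b * x)) ^ (2 * i + 1)) x := by
    have : x * (m * (b * x))⁻¹ * x⁻¹ = m * (b * x) := by
      simp [mul_assoc, inv_eq_of_mul_eq_one_right hb, inv_eq_of_mul_eq_one_right hx, ii hx,
        inv_eq_of_mul_eq_one_right (hM m hm), cc h1.eq]
    have e := congrArg (· ^ (2 * i + 1)) this
    simp only [conj_pow, inv_pow, inv_eq_of_mul_eq_one_right k2] at e
    exact (mul_inv_eq_iff_eq_mul.1 e).symm
  have k5 := Commute.pow_self (m * (b * x)) (2 * i + 1)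
  have k6 := k3 _ k1 m hm
  have k7 : ((m * (b * x)) ^ (2 * i + 1) * (m * (b * x))) ^ (2 * i + 1) = 1 := by
    rw [k5.mul_pow, ← pow_succ, show 2 * i + 1 + 1 = 2 * (i + 1) by ring, pow_mul _ 2 (i + 1), _root_.sq, k2, one_pow]
  generalize (m * (b * x)) ^ (2 * i + 1) = ζ at *
  have k8 : Commute ζ b := by simpa using (k6.inv_right.mul_right k5).mul_right k4.inv_right
  have k9 := cj_of_odd (sq_mul (hM _ (mul_mem hm k1)) hb (h1.mul_left k8)) hx (i := i) (by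
    rw [← k7, k6.symm.eq]; simp only [mul_assoc])
  refine ⟨ζ, k1, k8, k4, _, pow_mul_mem hn (mul_mem hm k1) (i + 1), ?_⟩
  have := cj_of_odd hb hx k0
  rw [mul_assoc _ b] at k9
  generalize (m * ζ * (b * x)) ^ (i + 1) = u at *
  generalize (b * x) ^ (i + 1) = v at *
  rw [← k9, ← this]; group

namespace PC

variable (h : PC S)
include h

lemma exists_opp (ha : a ∈ S) (he : e ∈ S) (h1 : Commute e a) (h2 : δ S e ≠ δ S a) :
    ∃ g ∈ S, Commute g a ∧ δ S g ≠ δ S a ∧ ∃ y ∈ S, ¬ Commute y a ∧ ¬ Commute y g := by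
  by_contra! hn
  set C := {g | g ∈ S ∧ Commute g a ∧ δ S g ≠ δ S a}
  have k : ∀ s ∈ S, s ∉ C → ∀ g ∈ C, Commute s g := fun s hs b g hg => (em (Commute s a)).elim (fun c =>
    ((δ_eq.1 (of_not_not fun e => b ⟨hs, c, e⟩) g hg.1).2 hg.2.1).symm) (hn g hg.1 hg.2.1 hg.2.2 s hs)
  have k1 : closure S ≤ normalizer C := (closure_le _).2 fun s hs => mem_normalizer_fintype fun g hg => by
    by_contra b
    suffices e : Commute s g from b (by rwa [e.eq, mul_inv_cancel_right])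
    by_cases c : s ∈ C
    · simpa using cj_comm_iff.1 (show Commute (s * s * s⁻¹) _ by
        simpa using (k _ (h.conj (subset_closure hs) hg.1) b s c).symm)
    · exact k s hs c g hg
  obtain ⟨g, hg, rfl⟩ := h.cl e he a ha
  exact ((mem_set_normalizer_iff.1 (k1 hg) e).1 ⟨he, h1, h2⟩).2.2 rfl

lemma exists_g0 (hN : ∀ g, g ∈ normalizer S) (hE : ∀ b ∈ S, ∀ c ∈ S, δ S b = δ S a → δ S c = δ S a → b ≠ c → b * c ∈ S) (ha : a ∈ S) (hx : x ∈ S)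
    (h0 : ¬ Commute x a) (he : e ∈ S) (h1 : Commute e a) (h2 : δ S e ≠ δ S a) :
    ∃ g ∈ S, Commute g a ∧ δ S g ≠ δ S a ∧ ¬ Commute x g := by
  by_contra! hn
  obtain ⟨g, hg, b1, b2, y, hy, b3, b4⟩ := h.exists_opp ha he h1 h2
  obtain ⟨a', ha', b5, b6⟩ := h.exists_II ha hg hy b1.symm b3
  have b7 := (δ_eq.1 b5 g hg).2 b1
  obtain ⟨c, hc, c1, c2, c3, c4, -⟩ := h.rad ha' hg hy b7.symm b6
  have k0 : ∀ s ∈ S, Commute s a' → Commute y s → Commute x s := fun s hs e1 e2 =>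
    hn s hs ((δ_eq.1 b5 s hs).1 e1) fun e => b3 ((δ_eq.1 e y hy).1 e2)
  have k1 : Commute x c := hn c hc ((δ_eq.1 b5 c hc).1 c1) fun e => b4 (by
    rw [mul_assoc, ← c2.eq, ← mul_assoc] at c3
    by_cases e1 : a' = c
    · simpa [e1, h.sq hc] using c3
    · have := hE a' ha' c hc b5 e e1
      exact h.cm_mul' this hg hy (b7.symm.mul_left c2) (fun e2 => b2 (e2 ▸ (h.δ_mul ha' hc c1.symm this).trans b5)) c3)
  have k2 := hn g hg b1 b2
  obtain ⟨b, hb, d1, d2, d3⟩ := h.four ha'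
  have k3 : ¬ Commute x a' := fun e => h0 ((δ_eq.1 b5 x hx).1 e)
  have k4 : ¬ Commute y a' := fun e => b3 ((δ_eq.1 b5 y hy).1 e)
  have k5 : ∀ s, δ S s = δ S a' → Commute s (g * c) := fun s e =>
    (((δ_eq.1 e g hg).2 b7).symm.mul_right ((δ_eq.1 e c hc).2 c1).symm)
  have k6 : ∀ s, δ S s = δ S a' → s ∈ 𝐂[a' * g * c] := fun s e => mem_cent1_iff.2 (by
    rw [mul_assoc a']; exact (((δ_eq.1 e a' ha').2 rfl).symm.mul_right (k5 s e)))
  have k7 := mem_cent1_iff.2 (k2.mul_right k1)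
  obtain ⟨g1, e1, e2⟩ := Cl.trans (h.of_od hx ha' k3 k7 (mem_cent1_iff.2 (k5 _ rfl)))
    (h.of_od d1 hx (fun e => k3 ((δ_eq.1 d3 x hx).1 e.symm)) (mem_cent1_iff.2 (k5 _ d3)) k7)
  obtain ⟨g2, e3, e4⟩ := Cl.trans (h.of_od hy hb (fun e => k4 ((δ_eq.1 d2 y hy).1 e)) (mem_cent1_iff.2 c3) (k6 _ d2))
    (h.of_od ha' hy (fun e => k4 e.symm) (k6 _ rfl) (mem_cent1_iff.2 c3))
  have k8 : g1 * g2 * g * (g1 * g2)⁻¹ * (g1 * g2 * c * (g1 * g2)⁻¹) = a' * g * c := by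
    have e5 : g2 * (g * c) * g2⁻¹ = a' * b * (g * c) := by
      rw [((δ_eq.1 d2 a' ha').2 rfl).eq, mul_assoc b, ← e4, ← mul_assoc a', mul_assoc _ g2⁻¹,
        mem_cent1_iff.1 (inv_mem e3)]
      simp [mul_assoc, ii (h.sq ha')]
    rw [conj_mul, mul_inv_rev, mul_assoc g1, mul_assoc g1, ← mul_assoc _ g2⁻¹, e5, mul_assoc _ (g * c),
      ← (mem_cent1_iff.1 (inv_mem e1)), ← mul_assoc, ← mul_assoc, e2, mul_assoc]
  have n0 : ∀ {s}, s ∈ S → g1 * g2 * s * (g1 * g2)⁻¹ ∈ S := fun {s} => (mem_set_normalizer_iff.1 (hN _) s).1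
  have k9 : g1 * g2 * g * (g1 * g2)⁻¹ ≠ g1 * g2 * c * (g1 * g2)⁻¹ := fun e => k4 (by
    simpa [show g = c by simpa using e, mul_assoc, h.sq hc] using c3)
  have l1 := fun {s} (hs : s ∈ S) (e : Commute s (a' * g * c)) => h.cm_mul (n0 hg) (n0 hc) hs (cj_comm c2.symm _) k9 (k8 ▸ e)
  have l2 := fun {s} (hs : s ∈ S) (e : Commute s (a' * g * c)) => h.cm_mul' (n0 hg) (n0 hc) hs (cj_comm c2.symm _) k9 (k8 ▸ e)
  have l3 := mem_cent1_iff.1 (k6 _ rfl)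
  have l4 := (k0 _ (n0 hg) (l1 ha' l3).symm (l1 hy c3)).mul_right (k0 _ (n0 hc) (l2 ha' l3).symm (l2 hy c3))
  rw [k8] at l4
  exact k3 (by simpa using (l4.mul_right k1.inv_right).mul_right k2.inv_right)

lemma no_sz (hs : CoreStep.{u, u}) (hN : ∀ g, g ∈ normalizer S)
    (hE : ∀ b ∈ S, ∀ c ∈ S, δ S b = δ S a → δ S c = δ S a → b ≠ c → b * c ∈ S) (ha : a ∈ S) (hx : x ∈ S)
    (h0 : ¬ Commute x a) (hg : g ∈ S) (g1 : Commute g a) (g2 : δ S g ≠ δ S a) (g3 : ¬ Commute x g)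
    {Ω : Type*} [MulAction G Ω] {δ' : G → Ω} {α β : Ω} (l : Loc T δ' α β R K x) (hT : T ⊆ Cl (Tri S a g x) a)
    (hY : closure T = Tri S a a x) (hB : ∀ b ∈ l.B, b ≠ 1 → b ∈ S ∧ δ S b = δ S a)
    (hB' : ∀ b ∈ S, δ S b = δ S a → b ∈ l.B) (h1 : R ≠ l.B) (h2 : closure T ⊓ St2 G α β ≤ K) : False := by
  have r := h.tri_r1 ha hg hx g1.symm h0 g3
  have r1 := h.tri_closure ha hg hx g1.symm h0 g3
  have r2 := h.tri_sub ha hg hx g1.symm h0 g3
  have r3 := h.cl_le (Tri.le (a := a) (g := g) hx) ha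
  have r4 : ∀ {e}, e ∈ S → δ S e = δ S a → e ∈ Cl (Tri S a g x) a := fun he e => r2 (.inl ⟨he, .inl e⟩)
  have r5 := r2 (.inr rfl)
  have r6 := r2 (.inl ⟨hg, .inr rfl⟩)
  have r7 := closure_mono hT
  have r8 := Cl.self (Tri S a g x) a
  have hT' := hT
  clear r1 r2 hT
  obtain ⟨M, _, _, Q, f, B⟩ := r.bar
  generalize Cl (Tri S a g x) a = U at *
  have cm : ∀ {e e'}, e ∈ S → δ S e = δ S a → δ S e' = δ S a → Commute e e' := fun he e1 e2 =>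
    (δ_eq.1 (e1.trans e2.symm) _ he).1 rfl
  have eqE : ∀ {e e'}, e ∈ S → e' ∈ S → δ S e = δ S a → δ S e' = δ S a → e * e' ∈ Q → e = e' :=
    fun {e e'} he he' e1 e2 e3 => by_contra fun e4 => by
      have := hE e he e' he' e1 e2 e4
      have := r4 this ((h.δ_mul he he' (cm he e1 e2) this).trans e1)
      exact B.ne_one this ((B.ker _ (B.N this)).2 e3)
  have cE : ∀ {q b e}, q ∈ Q → δ S b = δ S a → Commute q b → e ∈ S → δ S e = δ S a → Commute q e :=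
    fun {q b e} hq e1 e2 he e3 => mul_inv_eq_iff_eq_mul.1 (eqE ((mem_set_normalizer_iff.1 (hN q) e).1 he) he (by
      rw [← smul_δ (hN q), e3, ← e1, smul_δ (hN q), e2.eq, mul_inv_cancel_right]) e3 (by
      simpa [mul_assoc, h.inv he] using mul_mem hq ((mem_normalizer_iff.1 (B.nrm (B.N (r4 he e3))) _).1 (inv_mem hq))))
  obtain ⟨ρ, hρ, ρ1⟩ : ∃ ρ ∈ R, ρ * ρ ≠ 1 := by
    by_contra! k
    exact h1 (le_antisymm (fun y hy => ⟨hy, k y hy⟩) l.B_le)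
  have a1 := l.sz.sq_mem l.exp ρ hρ
  obtain ⟨a2, a3⟩ := hB _ a1 ρ1
  generalize ea : ρ * ρ = a₀ at *
  have a4 := r4 a2 a3
  have nN : ∀ {y}, y ∈ closure T → y ∈ 𝐍((Q ⊓ closure U : Subgroup G)) := fun hy => B.nrm' (r.nrm (r7 hy))
  have n1 : R ≤ 𝐍((Q ⊓ closure U : Subgroup G)) := fun y hy => nN (l.RL hy)
  obtain ⟨n, hn, n2, n3⟩ : ∃ n ∈ Q ⊓ closure U, ¬ Commute n a₀ ∧ ∀ y ∈ R, Commute y (n * a₀ * n⁻¹) := by
    obtain ⟨y, ⟨y1, y2⟩, y3⟩ := SetLike.exists_of_lt (H1.lt_inf_normalizer_of_isNilpotent (isPGroup_sup'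
      (isPGroup_of_le inf_le_left B.two) l.two' n1).isNilpotent (inf_lt_left.2 (show ¬ _ ≤ 𝐂[a₀] from fun e => g2 (by
        have := r3 (B.Nm hs a4 (fun n hn => mem_cent1_iff.1 (e (mem_sup_left hn))) r6 r8 g1 fun e => g2 (e ▸ rfl))
        rw [← h.δ_mul hg ha g1 this, g1.eq, h.δ_mul ha hg g1.symm (g1.eq ▸ this)]))))
    obtain ⟨n, hn, s, hs, rfl⟩ := (H1.mem_sup_iff_of_le_normalizer' n1).1 y1
    have k : ∀ s ∈ R, s ∈ (Q ⊓ closure U ⊔ R) ⊓ 𝐂[a₀] := fun s hs => ⟨mem_sup_right hs, mem_cent1_iff.2 (l.R_comm hs a1)⟩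
    refine ⟨n, hn, fun e => y3 (mul_mem ⟨mem_sup_left hn, mem_cent1_iff.2 e⟩ (k s hs)), fun y hy => ?_⟩
    have := mem_cent1_iff.1 ((mem_normalizer_iff''.1 ((mul_mem_cancel_right (le_normalizer (k s hs))).1 y2) y).1 (k y hy)).2
    simpa [mul_assoc] using cj_comm this n
  have b1 := r.conj hn.2 a4
  have b2 : n * a₀ * n⁻¹ * a₀ ∈ Q ⊓ closure U := by
    simpa [mul_assoc, h.inv a2] using mul_mem hn ((mem_normalizer_iff.1 (B.nrm' (B.N a4)) _).1 (inv_mem hn))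
  have b3 : n * a₀ * n⁻¹ ≠ a₀ := fun e => n2 (mul_inv_eq_iff_eq_mul.1 e)
  generalize n * a₀ * n⁻¹ = c at *
  clear hn n2 n
  have b4 : Commute c a₀ := (n3 _ (l.B_le a1)).symm
  have b5 := sq_mul (h.sq (r3 b1)) (h.sq a2) b4
  have b6 : ∀ y ∈ R, Commute y (c * a₀) := fun y hy => (n3 y hy).mul_right (l.R_comm hy a1)
  have v1 : ∀ y ∈ closure T, Commute (c * a₀) (y * (c * a₀) * y⁻¹) := fun y hy => by
    by_cases e : y • α = α
    · have c1 := r.conj (r7 hy) a4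
      have c2 := r.conj (r7 hy) b1
      have c3 : Commute a₀ (y * a₀ * y⁻¹) := l.R_comm (l.B_le a1) (l.conj_B hy e a1)
      have c4 := r.tr _ a4 _ c1 _ c2 c3 (cj_comm b4.symm y)
      rw [← conj_mul]
      exact ((r.tr _ b1 _ a4 _ c2 b4 c4).mul_right (r.tr _ b1 _ a4 _ c1 b4 c3)).mul_left (c4.mul_right c3)
    · obtain ⟨s, s1, s2⟩ := l.trans _ (smul_img l.toSw hy l.aΔ) e
      obtain ⟨s', s3, d, d1, d2⟩ := l.exists_mul (mul_mem (subset_closure l.eS) (mul_mem (inv_mem (l.RL s1)) hy)) (by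
        rw [mul_smul, mul_smul, ← s2, inv_smul_smul, l.eb])
      have c1 := hT' (l.swap_iff.2 ⟨d, h2 d1, rfl⟩).1
      have c2 := b6 _ (l.K_norm (inv_mem (h2 d1)) s3)
      have c3 : y = s * (x * d) * (d⁻¹ * s' * d⁻¹⁻¹) := by
        rw [← mul_inv_cancel_left s y, ← ii l.ee (s⁻¹ * y), d2]; group
      generalize x * d = t at c1 c3
      generalize d⁻¹ * s' * d⁻¹⁻¹ = s'' at c2 c3
      have c4 := (mem_normalizer_iff.1 (B.nrm' (B.N c1)) _).1 b2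
      have c5 := r.comm_of_two B.two c1 (r.conj b2.2 c1) (by
        simpa [mul_assoc, r.inv c1] using mul_mem (mem_inf.1 c4).1 (inv_mem (mem_inf.1 b2).1))
      have c6 := b6 s s1
      generalize c * a₀ = v at *
      have c7 : Commute (t * v * t⁻¹) v := comm_of_sq_one (by rw [conj_mul, b5]; simp) b5 (by
        simpa only [mul_assoc, r.inv c1, inv_eq_of_mul_eq_one_right b5] using
          sq_mul (r.sq c1) (by rw [conj_mul, r.sq c1]; simp) c5)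
      have := cj_comm c7.symm s
      rw [c6.eq, mul_inv_cancel_right] at this
      convert this using 1
      rw [c3, mul_assoc _ s'', c2.eq]; group
  have hM : ∀ m ∈ closure (Cl (closure T) (c * a₀)), m * m = 1 := fun m => sq_closure (by
    rintro _ ⟨y, -, rfl⟩; rw [conj_mul, b5]; simp) (by
    rintro _ ⟨y, hy, rfl⟩ _ ⟨y', hy', rfl⟩
    simpa [mul_assoc] using cj_comm (v1 _ (mul_mem (inv_mem hy) hy')) y)
  have m1 : closure (Cl (closure T) (c * a₀)) ≤ Q := (closure_le _).2 (by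
    rintro _ ⟨y, hy, rfl⟩; exact ((mem_normalizer_iff.1 (nN hy) _).1 b2).1)
  have m2 : ∀ {y}, y ∈ closure T → y ∈ 𝐍(closure (Cl (closure T) (c * a₀))) := fun hy =>
    H3.mem_normalizer_closure_of_conj_mem fun _ e => Cl.conj e hy
  have m3 := subset_closure (Cl.self (closure T) (c * a₀))
  generalize closure (Cl (closure T) (c * a₀)) = W at *
  have m4 : ∀ m ∈ W, ∀ m' ∈ W, Commute m m' := fun m a m' b => comm_of_sq_one (hM m a) (hM m' b) (hM _ (mul_mem a b))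
  have dc : ∀ {b m}, b ∈ S → δ S b = δ S a → m ∈ W → Commute m b → ∃ ζ ∈ W, ζ ∈ 𝐂(closure T) ∧
      ∃ o ∈ W, o * b * o⁻¹ = m * ζ * b := fun {b m} hb e hm e1 => by
    obtain ⟨ζ, z1, z2, z3, z4⟩ := dec hM (h.sq hb) (h.sq hx) (h.od hb hx fun c => h0 ((δ_eq.1 e x hx).1 c.symm)).2
      (m2 (hY ▸ mul_mem (Tri.left hb e) Tri.base)) hm e1
    exact ⟨ζ, z1, hY ▸ Tri.cent (fun s hs c => (cE (m1 z1) e z2 hs (c.elim id id)).symm) z3.symm, z4⟩
  have n0 : ∀ {g s}, s ∈ S → g * s * g⁻¹ ∈ S := fun {g s} => (mem_set_normalizer_iff.1 (hN g) s).1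
  obtain ⟨ζ, z1, z2, o, o1, o2⟩ := dc a2 a3 m3 (b4.mul_left rfl)
  have z3 : Commute ζ a₀ := (mem_cent_iff.1 z2 _ (l.RL (l.B_le a1))).symm
  have z4 : o * a₀ * o⁻¹ = ζ * c := by rw [o2, ← (m4 _ z1 _ m3).eq]; simp [mul_assoc, h.sq a2]
  have z5 : ¬ Commute c x := fun e => h0 (r.tr _ r5 _ b1 _ r8 e.symm (r.tr _ b1 _ a4 _ r8 b4 (cm a2 a3 rfl)))
  obtain rfl := h.L0 (r3 b1) hx z5 (hM _ z1) (by simpa using (m4 _ z1 _ m3).mul_right z3.inv_right)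
    (mem_cent_iff.1 z2 _ (subset_closure l.eS)).symm (z4 ▸ n0 a2)
  rw [one_mul] at z4
  obtain ⟨b, hb, d1, d2, d3⟩ := h.four a2
  have d4 := (mem_normalizer_iff.1 (m2 (l.RL hρ)) o).1 o1
  have d5 : Commute (o⁻¹ * (ρ * o * ρ⁻¹)) a₀ := by
    have := (n3 ρ hρ).eq
    rw [← z4] at this
    rw [commute_iff_eq, mul_assoc, mul_assoc, ← l.R_comm (inv_mem hρ) a1 |>.symm, ← mul_assoc _ a₀, mul_assoc ρ,
      ← inv_mul_cancel_right (o * a₀) o, ← mul_assoc ρ, this]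
    group
  obtain ⟨ζ, y1, y2, p, p1, p2⟩ := dc hb (d2.trans a3) (mul_mem (inv_mem o1) d4)
    (cE (m1 (mul_mem (inv_mem o1) d4)) a3 d5 hb (d2.trans a3))
  have y3 : ρ * b = b * ρ := l.R_comm hρ (hB' b hb (d2.trans a3))
  have y4 : ρ * ζ = ζ * ρ := mem_cent_iff.1 y2 _ (l.RL hρ)
  have y5 : p * (ρ * p * ρ⁻¹) * b * (p * (ρ * p * ρ⁻¹))⁻¹ = c * (a₀ * b) := by
    have d6 := (mem_normalizer_iff.1 (m2 (l.RL (l.B_le a1))) o).1 o1
    have e1 : ρ * p * ρ⁻¹ * b * (ρ * p * ρ⁻¹)⁻¹ = (ρ * o * ρ⁻¹)⁻¹ * (a₀ * o * a₀⁻¹) * ζ * b :=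
      calc _ = ρ * (p * (ρ⁻¹ * b * ρ) * p⁻¹) * ρ⁻¹ := by group
        _ = _ := by
          rw [mul_assoc ρ⁻¹, ← y3, inv_mul_cancel_left, p2, ← ea, mul_inv_eq_iff_eq_mul, mul_assoc _ b, ← y3,
            ← mul_assoc _ ρ, mul_assoc _ ζ ρ, ← y4]
          group
    have e2 : c * a₀ = a₀ * o * a₀⁻¹ * o⁻¹ := by rw [b4.eq, ← z4, h.inv a2]; group
    rw [← mul_assoc c, e2]
    generalize ρ * p * ρ⁻¹ = p' at e1
    generalize ρ * o * ρ⁻¹ = o' at *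
    generalize a₀ * o * a₀⁻¹ = o'' at *
    calc _ = p * (p' * b * p'⁻¹) * p⁻¹ := by group
      _ = o'⁻¹ * o'' * ζ * (p * b * p⁻¹) := by
        rw [e1, ← mul_assoc, (m4 _ p1 _ (mul_mem (mul_mem (inv_mem d4) d6) y1)).eq]; group
      _ = _ := by
        rw [p2, (m4 _ (mul_mem (inv_mem o1) d4) _ y1).eq, (m4 _ (inv_mem d4) _ d6).eq, (m4 _ (inv_mem o1) _ d4).eq]
        simp [mul_assoc, ii (hM _ y1)]
  have y6 := n0 (g := p * (ρ * p * ρ⁻¹)) hb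
  rw [y5] at y6
  have y7 : Commute c (a₀ * b) := r.tr _ b1 _ a4 _ (r4 d1 (d3.trans a3)) b4 (cm a2 a3 (d3.trans a3))
  exact b3 (eqE (r3 b1) a2 (by rw [← h.δ_mul (r3 b1) d1 y7 y6, y7.eq, h.δ_mul d1 (r3 b1) y7.symm (y7.eq ▸ y6), d3, a3])
    a3 b2.1)

theorem main (hs : CoreStep.{u, u}) (hD : IsRootInvolutionSet S) (hO : pCore 2 G = ⊥)
    (hc : IsConnectedSet (CommAdj S) S) (ha : a ∈ S) (hx : x ∈ S) (h0 : ¬ Commute x a) :
    (∀ y, y ∈ closure {e | e ∈ S ∧ δ S e = δ S a} ↔ y = 1 ∨ y ∈ S ∧ δ S y = δ S a) ∧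
    ∃ (F : Type) (_ : Field F) (_ : Fintype F), Fintype.card F = ♯(closure {e | e ∈ S ∧ δ S e = δ S a}) ∧
      Nonempty (Tri S a a x ≃* Matrix.ProjectiveSpecialLinearGroup (Fin 2) F) := by
  have r := h.tri_r1 ha ha hx rfl h0 h0
  have r1 := h.tri_closure ha ha hx rfl h0 h0
  have r2 := h.tri_sub ha ha hx rfl h0 h0
  have r3 := h.cl_le (Tri.le (a := a) (g := a) hx) ha
  have r4 := Cl.self (Tri S a a x) a
  obtain ⟨R, K, l⟩ := r.loc hs (h.mul_tri hs hD hO ha hx h0) r4 (r2 (.inr rfl)) h0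
  have k : ∀ y, y ∈ l.B ↔ y = 1 ∨ y ∈ S ∧ δ S y = δ S a := fun y => l.mem_B.trans (or_congr_right
    ⟨fun e => ⟨r3 e.1, h.mem_E ha hx h0 (r3 e.1) (Cl.mem e.1 (Tri.left ha rfl)) ((r.δ_iff e.1 r4).1 e.2)⟩,
      fun e => have := r2 (.inl ⟨e.1, .inl e.2⟩); ⟨this, (r.δ_iff this r4).2 ((δ_eq.1 e.2 a ha).2 rfl).symm⟩⟩)
  have k1 : closure {e | e ∈ S ∧ δ S e = δ S a} = l.B := le_antisymm ((closure_le _).2 fun y hy => (k y).2 (.inr hy))
    fun y hy => ((k y).1 hy).elim (fun e => e ▸ one_mem _) fun e => subset_closure e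
  rw [k1]
  refine ⟨k, ?_⟩
  rcases gen_cases l (r1.le.trans ((closure_le _).2 (by
    rintro s (hs | rfl)
    exacts [mem_sup_left ((k s).2 (.inr ⟨hs.1, hs.2.elim id id⟩)), mem_sup_right (mem_zpowers _)]))) with
    ⟨F, _, _, -, -, b1, b2, b3⟩ | ⟨b1, b2, -⟩
  · exact ⟨F, _, _, by rw [← b2, ← b1], r1 ▸ b3⟩
  · have hE : ∀ b ∈ S, ∀ c ∈ S, δ S b = δ S a → δ S c = δ S a → b ≠ c → b * c ∈ S := fun b hb c hc e1 e2 e3 =>
      (((k _).1 (mul_mem ((k b).2 (.inr ⟨hb, e1⟩)) ((k c).2 (.inr ⟨hc, e2⟩)))).resolve_left fun e =>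
        e3 ((eq_inv_of_mul_eq_one_left e).trans (h.inv hc))).1
    have hN : ∀ g, g ∈ normalizer S := fun g => h.nrm (hD.generates.ge (mem_top g))
    obtain ⟨e, he, e1, e2⟩ := h.common hs hc ha hx
    obtain ⟨g, hg, g1, g2, g3⟩ := h.exists_g0 hN hE ha hx h0 he e1 fun b => h0 ((δ_eq.1 b x hx).1 e2.symm)
    exact (h.no_sz hs hN hE ha hx h0 hg g1 g2 g3 l (fun _ ⟨y, hy, e⟩ => ⟨y, Tri.mono hy, e⟩) r1
      (fun b hb e => ((k b).1 hb).resolve_left e) (fun b hb e => (k b).2 (.inr ⟨hb, e⟩)) b1 b2).elim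

end PC

end Cfsg.Agent.H7.RT
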