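import Cfsg.Agent.S5052
import Cfsg.Agent.H8.SL2b
import Cfsg.Agent.H8.Root

/-! Root involutions: passing to `k`-root subgroups. -/

set_option autoImplicit false
set_option linter.unusedSectionVars false
set_option linter.unusedVariables false
set_option linter.style.haveILetI false

namespace Cfsg.Agent.H7.RT

open Subgroup FT H8.ZD H8.RI BS MulAction H9.Sh Matrix H8
open scoped Classical commutatorElement MatrixGroups Pointwise

section SL

variable {F : Type*} [Field F] [Fintype F] [CharP F 2]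

lemma exists_fix {P : Subgroup SL(2, F)} (hP : IsPGroup 2 P) : ∃ v : Fin 2 → F, v ≠ 0 ∧ ∀ g ∈ P, g.1 *ᵥ v = v := by
  obtain ⟨n, -, hn⟩ := FiniteField.card F 2
  obtain ⟨v, hv, e⟩ := hP.exists_fixed_point_of_prime_dvd_card_of_fixed_point (Fin 2 → F)
    (by simpa [hn] using dvd_pow (dvd_pow_self 2 n.ne_zero) two_ne_zero) (a := 0) fun g => smul_zero _
  exact ⟨v, e.symm, fun g hg => hv ⟨g, hg⟩⟩

lemma eq_upper {P : Subgroup SL(2, F)} (h1 : ♯P = Fintype.card F) (h2 : ∀ g ∈ P, g.1 *ᵥ ![1, 0] = ![1, 0]) :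
    P = upperUnipotentSL2 F := by
  have k : P ≤ upperUnipotentSL2 F := fun g hg => subset_closure (by
    have a := congrFun (h2 g hg) 0
    have b := congrFun (h2 g hg) 1
    have c := (det_fin_two _).symm.trans g.det_coe
    simp [mulVec, dotProduct] at a b
    exact ⟨b, a, by simpa only [a, b, one_mul, mul_one, mul_zero, zero_mul, sub_zero] using c⟩)
  refine eq_of_le_of_card_ge k (h1 ▸ Nat.card_eq_fintype_card (α := F) ▸ Nat.card_le_card_of_surjective
    (fun t => (⟨uX t, mem_upper_iff.2 ⟨t, rfl⟩⟩ : upperUnipotentSL2 F)) fun ⟨g, hg⟩ => ?_)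
  obtain ⟨t, rfl⟩ := mem_upper_iff.1 hg
  exact ⟨t, rfl⟩

lemma eq_lower {P : Subgroup SL(2, F)} (h1 : ♯P = Fintype.card F) (h2 : ∀ g ∈ P, g.1 *ᵥ ![0, 1] = ![0, 1]) :
    P = lowerUnipotentSL2 F := by
  have k : P ≤ lowerUnipotentSL2 F := fun g hg => subset_closure (by
    have a := congrFun (h2 g hg) 0
    have b := congrFun (h2 g hg) 1
    have c := (det_fin_two _).symm.trans g.det_coe
    simp [mulVec, dotProduct] at a b
    exact ⟨a, by simpa only [a, b, one_mul, mul_one, mul_zero, zero_mul, sub_zero] using c, b⟩)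
  refine eq_of_le_of_card_ge k (h1 ▸ Nat.card_eq_fintype_card (α := F) ▸ Nat.card_le_card_of_surjective
    (fun t => (⟨uY t, mem_lower_iff.2 ⟨t, rfl⟩⟩ : lowerUnipotentSL2 F)) fun ⟨g, hg⟩ => ?_)
  obtain ⟨t, rfl⟩ := mem_lower_iff.1 hg
  exact ⟨t, rfl⟩

lemma card_comap_conj (P : Subgroup SL(2, F)) (g : SL(2, F)) : ♯(P.comap (MulAut.conj g).toMonoidHom) = ♯P :=
  Nat.card_congr ((MulAut.conj g).toEquiv.subtypeEquiv fun _ => Iff.rfl)

lemma fix_comap {P : Subgroup SL(2, F)} {g : SL(2, F)} {v : Fin 2 → F} (h : ∀ x ∈ P, x.1 *ᵥ (g.1 *ᵥ v) = g.1 *ᵥ v) :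
    ∀ x ∈ P.comap (MulAut.conj g).toMonoidHom, x.1 *ᵥ v = v := fun x hx => by
  have : (g * x * g⁻¹) • g • v = g • v := h _ hx
  rwa [mul_smul, inv_smul_smul, mul_smul, smul_left_cancel_iff] at this

lemma exists_conj_pair {P Q : Subgroup SL(2, F)} (hP : IsPGroup 2 P) (hQ : IsPGroup 2 Q) (h1 : ♯P = Fintype.card F)
    (h2 : ♯Q = Fintype.card F) (hn : P ≠ Q) : ∃ g : SL(2, F), P.comap (MulAut.conj g).toMonoidHom = upperUnipotentSL2 F ∧
      Q.comap (MulAut.conj g).toMonoidHom = lowerUnipotentSL2 F := by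
  obtain ⟨v, v0, hv⟩ := exists_fix hP
  obtain ⟨w, w0, hw⟩ := exists_fix hQ
  have k : ∀ w : Fin 2 → F, v 0 * w 1 - w 0 * v 1 ≠ 0 → ∃ g : SL(2, F), ∃ c : F, g.1 *ᵥ ![1, 0] = v ∧
      g.1 *ᵥ ![0, 1] = c • w := fun w e => ⟨⟨!![v 0, w 0 / (v 0 * w 1 - w 0 * v 1); v 1, w 1 / (v 0 * w 1 - w 0 * v 1)],
        by rw [det_fin_two_of]; field_simp⟩, (v 0 * w 1 - w 0 * v 1)⁻¹, by ext i; fin_cases i <;> simp,
        by ext i; fin_cases i <;> simp [div_eq_inv_mul]⟩
  by_cases e : v 0 * w 1 - w 0 * v 1 = 0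
  · obtain ⟨g, c, e1, -⟩ : ∃ g : SL(2, F), ∃ c : F, g.1 *ᵥ ![1, 0] = v ∧ True := by
      by_cases a : v 0 = 0
      · obtain ⟨g, c, b, -⟩ := k ![1, 0] (by simpa [a] using fun b => v0 (by ext i; fin_cases i <;> simp [a, b]))
        exact ⟨g, c, b, trivial⟩
      · obtain ⟨g, c, b, -⟩ := k ![0, 1] (by simpa using a)
        exact ⟨g, c, b, trivial⟩
    obtain ⟨c, rfl⟩ : ∃ c : F, v = c • w := by
      by_cases a : w 0 = 0
      · have b : w 1 ≠ 0 := fun b => w0 (by ext i; fin_cases i <;> simp [a, b])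
        exact ⟨v 1 / w 1, by ext i; fin_cases i <;> simp_all⟩
      · exact ⟨v 0 / w 0, by ext i; fin_cases i <;> simp [a]; field_simp; linear_combination -e⟩
    exact absurd (comap_injective (MulAut.conj g).surjective ((eq_upper ((card_comap_conj P g).trans h1)
      (fix_comap (e1 ▸ hv))).trans (eq_upper ((card_comap_conj Q g).trans h2) (fix_comap fun x hx => by
        rw [e1, mulVec_smul, hw x hx])).symm)) hn
  · obtain ⟨g, c, e1, e2⟩ := k w e
    exact ⟨g, eq_upper ((card_comap_conj P g).trans h1) (fix_comap (e1 ▸ hv)),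
      eq_lower ((card_comap_conj Q g).trans h2) (fix_comap fun x hx => by rw [e2, mulVec_smul, hw x hx])⟩

end SL

variable {G : Type*} [Group G] {A B : Subgroup G} {D : Set G} {a b d x : G}

theorem psl2Pair_field {F k : Type*} [Field F] [Field k] [Fintype F] [Fintype k] (hk : Fintype.card k = Fintype.card F)
    (h : IsPSL2PairOver F A B) : IsPSL2PairOver k A B := by
  obtain ⟨φ, h1, h2, h3, h4⟩ := h
  let e := FiniteField.ringEquivOfCardEq hk
  let ψ := SpecialLinearGroup.map (n := Fin 2) e.toRingHom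
  have kX : ∀ t, ψ (uX t) = uX (e t) := fun t => Subtype.ext (by ext i j; fin_cases i <;> fin_cases j <;> simp [ψ])
  have kY : ∀ t, ψ (uY t) = uY (e t) := fun t => Subtype.ext (by ext i j; fin_cases i <;> fin_cases j <;> simp [ψ])
  have k1 : (upperUnipotentSL2 k).map ψ = upperUnipotentSL2 F := Subgroup.ext fun g => by
    simp only [mem_map, mem_upper_iff]
    exact ⟨by rintro ⟨_, ⟨t, rfl⟩, rfl⟩; exact ⟨_, kX t⟩, by rintro ⟨t, rfl⟩; exact ⟨_, ⟨e.symm t, rfl⟩, by simp [kX]⟩⟩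
  have k2 : (lowerUnipotentSL2 k).map ψ = lowerUnipotentSL2 F := Subgroup.ext fun g => by
    simp only [mem_map, mem_lower_iff]
    exact ⟨by rintro ⟨_, ⟨t, rfl⟩, rfl⟩; exact ⟨_, kY t⟩, by rintro ⟨t, rfl⟩; exact ⟨_, ⟨e.symm t, rfl⟩, by simp [kY]⟩⟩
  have k3 : (upperUnipotentSL2 k).map (φ.comp ψ) = A := by rw [← Subgroup.map_map, k1, h3]
  have k4 : (lowerUnipotentSL2 k).map (φ.comp ψ) = B := by rw [← Subgroup.map_map, k2, h4]
  refine ⟨φ.comp ψ, by rw [range_eq_sup, k3, k4], ker_le_center_of_ne _ (s := 1) (t := 1) fun c => ?_, k3, k4⟩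
  have : uX (1 : F) * uY 1 * (uY 1 * uX 1)⁻¹ ∈ φ.ker := by
    rw [MonoidHom.mem_ker, map_mul, map_inv, map_mul, map_mul, mul_inv_eq_one]; simpa [kX, kY] using c
  obtain ⟨r, -, hr⟩ := Matrix.SpecialLinearGroup.mem_center_iff.1 (h2 this)
  simpa [SpecialLinearGroup.coe_inv, adjugate_fin_two] using congrFun (congrFun hr 1) 0

theorem psl2Pair_of [Finite G] {F k : Type*} [Field F] [Field k] [Fintype F] [Fintype k]
    (e : ↥(A ⊔ B) ≃* ProjectiveSpecialLinearGroup (Fin 2) F) (hA : IsPGroup 2 A) (hB : IsPGroup 2 B)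
    (h1 : ♯A = Fintype.card F) (h2 : ♯B = Fintype.card F) (hn : A ≠ B) (hk : Fintype.card k = Fintype.card F) :
    IsPSL2PairOver k A B := by
  refine psl2Pair_field hk ?_
  obtain ⟨p, hp⟩ := CharP.exists F
  obtain ⟨n, pp, hn'⟩ := FiniteField.card F p
  obtain ⟨j, hj⟩ := hA.exists_card_eq
  obtain rfl : p = 2 := (Nat.prime_dvd_prime_iff_eq pp Nat.prime_two).1 (pp.dvd_of_dvd_pow (by
    rw [← hj, h1, hn']; exact dvd_pow_self _ n.ne_zero))
  let ψ : SL(2, F) →* G := (A ⊔ B).subtype.comp (e.symm.toMonoidHom.comp (QuotientGroup.mk' _))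
  have k0 : Function.Injective ψ := (injective_iff_map_eq_one ψ).2 fun g hg =>
    (mem_center_SL2 ((QuotientGroup.eq_one_iff g).1 (e.symm.map_eq_one_iff.1 (Subtype.ext hg)))).elim id fun c => by
      rw [c]; ext i j; simp [CharTwo.neg_eq]
  have k1 : ψ.range = A ⊔ B := le_antisymm (by rintro _ ⟨g, rfl⟩; exact (e.symm g).2) fun y hy => by
    obtain ⟨g, hg⟩ := QuotientGroup.mk'_surjective _ (e ⟨y, hy⟩)
    exact ⟨g, by simp [ψ, show (g : ProjectiveSpecialLinearGroup (Fin 2) F) = _ from hg]⟩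
  have k2 : ∀ {C : Subgroup G}, C ≤ A ⊔ B → (C.comap ψ).map ψ = C := fun h => map_comap_eq_self (k1 ▸ h)
  have k3 : ∀ {C : Subgroup G}, C ≤ A ⊔ B → ♯(C.comap ψ) = ♯C := fun h => by
    rw [← card_map_of_injective k0, k2 h]
  obtain ⟨g, e1, e2⟩ := exists_conj_pair (hA.comap_of_injective ψ k0) (hB.comap_of_injective ψ k0)
    ((k3 le_sup_left).trans h1) ((k3 le_sup_right).trans h2) fun c => hn (by rw [← k2 le_sup_left, c, k2 le_sup_right])
  have k4 : ∀ {C : Subgroup G}, C ≤ A ⊔ B → ((C.comap ψ).comap (MulAut.conj g).toMonoidHom).map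
      (ψ.comp (MulAut.conj g).toMonoidHom) = C := fun h => by
    rw [← Subgroup.map_map, map_comap_eq_self_of_surjective (MulAut.conj g).surjective, k2 h]
  refine ⟨ψ.comp (MulAut.conj g).toMonoidHom, by rw [range_eq_sup, ← e1, ← e2, k4 le_sup_left, k4 le_sup_right], ?_,
    e1 ▸ k4 le_sup_left, e2 ▸ k4 le_sup_right⟩
  exact ((MonoidHom.ker_eq_bot_iff _).2 fun x y e => (MulAut.conj g).injective (k0 e)).le.trans bot_le

theorem psl2Pair_three {k : Type*} [Field k] [Fintype k] (hk : Fintype.card k = 2) (ha : orderOf a = 2)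
    (hb : orderOf b = 2) (h : orderOf (a * b) = 3) : IsPSL2PairOver k (zpowers a) (zpowers b) := by
  have k0 : ∀ t : k, t ≠ 0 → t = 1 := fun t ht => by simpa [hk] using FiniteField.pow_card_sub_one_eq_one t ht
  have k1 : (1 : k) + 1 = 0 := by_contra fun e => by simpa using k0 _ e
  have k2 : ∀ {a : G}, orderOf a = 2 → ∀ s t : k, (if s + t = 0 then 1 else a) =
      (if s = 0 then 1 else a) * if t = 0 then 1 else a := fun ha s t => by
    by_cases e : s = 0 <;> by_cases e' : t = 0 <;> simp [e, e']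
    rw [k0 s e, k0 t e', if_pos k1, sq1 ha]
  have k3 : ∀ {a : G}, orderOf a = 2 → ∀ g, g ∈ zpowers a ↔ ∃ t : k, g = if t = 0 then 1 else a := fun ha g =>
    ⟨fun h => (mem_zpowers2 ha h).elim (fun e => ⟨0, by simp [e]⟩) fun e => ⟨1, by simp [e]⟩,
      by rintro ⟨t, rfl⟩; split_ifs <;> simp⟩
  have k4 : a * b * a * a = b * (a * b * a) := by
    have := pow_orderOf_eq_one (a * b)
    rw [h, pow_succ, pow_succ, pow_one, mul_eq_one_iff_eq_inv, _root_.mul_inv_rev, inv2 ha, inv2 hb] at this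
    rw [← mul_right_inj a, ← mul_assoc a b, ← mul_assoc (a * b), this]
    simp [mul_assoc, sq1 ha, ii (sq1 ha)]
  let S : St k G := ⟨fun t => if t = 0 then 1 else a, fun t => if t = 0 then 1 else b, k2 ha, k2 hb, fun t ht u => by
    by_cases e : u = 0 <;> simp [ht, e, k4]⟩
  exact S.psl2Pair (fun t u => S.h_mul_of_finite) (k3 ha) (k3 hb) (s := 1) (t := 1) (by
    simpa [S, commute_iff_eq] using od_not ⟨fun e => by simp [e, sq1 hb] at h, by rw [h]; decide⟩ (sq1 ha) (sq1 hb))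

lemma E_conj (hD : IsRootInvolutionSet D) (a g : G) :
    conjBy (sameCommutingSubgroup D a) g = sameCommutingSubgroup D (g * a * g⁻¹) := by
  have n : ∀ g, g ∈ normalizer D := fun g => mem_set_normalizer_iff.2 fun x =>
    ⟨fun e => hD.conj_mem x e g, fun e => by simpa [mul_assoc] using hD.conj_mem _ e g⁻¹⟩
  rw [conjBy, sameCommutingSubgroup, MonoidHom.map_closure]
  refine congrArg Subgroup.closure (Set.ext fun e => ⟨?_, fun he => ⟨g⁻¹ * e * g⁻¹⁻¹, ⟨hD.conj_mem e he.1 _, ?_⟩,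
    by simp [mul_assoc]⟩⟩)
  · rintro ⟨e, he, rfl⟩
    exact ⟨hD.conj_mem e he.1 g, (smul_δ (n g) a).symm.trans ((congrArg (g • ·) (show δ D a = δ D e from he.2)).trans (smul_δ (n g) e))⟩
  · change δ D a = δ D _
    rw [← smul_δ (n _), ← show δ D (g * a * g⁻¹) = δ D e from he.2, ← smul_δ (n _), inv_smul_smul]

lemma E_comm (ha : a ∈ D) (hb : b ∈ D) (h : a * b = b * a) :
    Cm (sameCommutingSubgroup D a) (sameCommutingSubgroup D b) := fun x hx y hy =>
  mem_cent_iff.1 ((closure_le _).2 (fun e he => cent_closure fun s hs => (δ_eq.1 (show δ D b = δ D e from he.2) s hs.1).1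
    ((δ_eq.1 (show δ D a = δ D s from hs.2) b hb).1 (Eq.symm h)).symm) hy) x hx

lemma E_two [Finite G] (hD : IsRootInvolutionSet D) (ha : a ∈ D) : IsPGroup 2 (sameCommutingSubgroup D a) :=
  two_closure (fun e he => sq hD he.1) fun e he s hs => E_comm ha ha rfl e (subset_closure he) s (subset_closure hs)

lemma card_E (hcl : IsRootInvolutionClass D) (ha : a ∈ D) (hb : b ∈ D) :
    ♯(sameCommutingSubgroup D b) = ♯(sameCommutingSubgroup D a) := by
  obtain ⟨g, rfl⟩ := hcl.2.2 a ha b hb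
  rw [← E_conj hcl.1, card_map_of_injective (MulAut.conj g).injective]

/-- the rank one pairs -/
theorem psl2Pair_of_iso [Finite G] (hD : IsRootInvolutionSet D) (ha : a ∈ D) (hb : b ∈ D) (h : Od a b)
    {F k : Type*} [Field F] [Field k] [Fintype F] [Fintype k]
    (e : closure (sameCommutingClass D a ∪ {b}) ≃* ProjectiveSpecialLinearGroup (Fin 2) F)
    (h1 : Fintype.card F = ♯(sameCommutingSubgroup D a)) (hk : Fintype.card k = ♯(sameCommutingSubgroup D a)) :
    IsPSL2PairOver k (sameCommutingSubgroup D a) (sameCommutingSubgroup D b) := by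
  obtain ⟨n, e1⟩ := exists_conj_of_od hD ha hb h
  have k0 : (a * b) ^ n ∈ closure (sameCommutingClass D a ∪ {b}) :=
    zpow_mem (mul_mem (subset_closure (.inl ⟨ha, rfl⟩)) (subset_closure (.inr rfl))) n
  have k1 := E_conj hD a ((a * b) ^ n)
  rw [e1] at k1
  have k2 : sameCommutingSubgroup D a ⊔ sameCommutingSubgroup D b = closure (sameCommutingClass D a ∪ {b}) :=
    le_antisymm (sup_le (closure_mono Set.subset_union_left) (by
      rw [← k1]; rintro _ ⟨y, hy, rfl⟩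
      exact mul_mem (mul_mem k0 (closure_mono Set.subset_union_left hy)) (inv_mem k0)))
      (by rw [Subgroup.closure_union]; exact sup_le_sup_left (Subgroup.closure_mono (by rintro _ rfl; exact ⟨hb, rfl⟩)) _)
  exact psl2Pair_of ((MulEquiv.subgroupCongr k2).trans e) (E_two hD ha) (E_two hD hb) h1.symm
    (by rw [← k1, card_map_of_injective (MulAut.conj _).injective, h1]) (fun c => h.not_comm hD ha hb
      (E_comm ha ha rfl a (subset_closure ⟨ha, rfl⟩) b (c ▸ subset_closure ⟨hb, rfl⟩))) (hk.trans h1.symm)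

/-- the rank one pairs for root groups of order two -/
theorem psl2Pair_two (hD : IsRootInvolutionSet D) (ha : a ∈ D) (hb : b ∈ D) (h : orderOf (a * b) = 3)
    {k : Type*} [Field k] [Fintype k] (hk : Fintype.card k = 2) (h1 : ♯(sameCommutingSubgroup D a) = 2)
    (h2 : ♯(sameCommutingSubgroup D b) = 2) :
    IsPSL2PairOver k (sameCommutingSubgroup D a) (sameCommutingSubgroup D b) := by
  have k : ∀ a ∈ D, ♯(sameCommutingSubgroup D a) = 2 → sameCommutingSubgroup D a = zpowers a := fun a ha e =>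
    haveI := Nat.finite_of_card_ne_zero (e.trans_ne two_ne_zero)
    (eq_of_le_of_card_ge (zpowers_le.2 (show a ∈ sameCommutingSubgroup D a from subset_closure ⟨ha, rfl⟩))
      (by rw [e, Nat.card_zpowers, hD.1 a ha])).symm
  rw [k a ha h1, k b hb h2]
  exact psl2Pair_three hk (hD.1 a ha) (hD.1 b hb) h

/-- the class of the root groups -/
theorem kroot_of (hcl : IsRootInvolutionClass D) (hd : d ∈ D) {k : Type*} [Field k]
    (h1 : ∀ a ∈ D, ∀ b ∈ D, Od a b → IsPSL2PairOver k (sameCommutingSubgroup D a) (sameCommutingSubgroup D b))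
    (h2 : ∀ a ∈ D, ∀ b ∈ D, Fo a b → RootCommutatorCase {A | ∃ g : G, A = conjBy (sameCommutingSubgroup D d) g}
      (sameCommutingSubgroup D a) (sameCommutingSubgroup D b)) :
    IsKRootSubgroupSet k {A | ∃ g : G, A = conjBy (sameCommutingSubgroup D d) g} ∧
    IsConjClassOfSubgroups {A | ∃ g : G, A = conjBy (sameCommutingSubgroup D d) g} := by
  have hD := hcl.1
  have k0 : ∀ {A}, A ∈ {A | ∃ g : G, A = conjBy (sameCommutingSubgroup D d) g} ↔ ∃ a ∈ D, A = sameCommutingSubgroup D a :=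
    ⟨fun ⟨g, e⟩ => ⟨_, hD.conj_mem d hd g, e.trans (E_conj hD d g)⟩, fun ⟨a, ha, e⟩ =>
      let ⟨g, e1⟩ := hcl.2.2 d hd a ha; ⟨g, by rw [e, e1, E_conj hD]⟩⟩
  generalize {A | ∃ g : G, A = conjBy (sameCommutingSubgroup D d) g} = S at *
  have k1 : IsRootSubgroupSet S := ⟨fun A hA => by
      obtain ⟨a, ha, rfl⟩ := k0.1 hA
      exact ⟨⟨fun x y => Subtype.ext (E_comm ha ha rfl x.1 x.2 y.1 y.2)⟩⟩,
    fun A hA e => by
      obtain ⟨a, ha, rfl⟩ := k0.1 hA
      exact ne_one hD ha (e.le (subset_closure ⟨ha, rfl⟩)),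
    eq_top_iff.2 (hD.generates ▸ (closure_le _).2 fun a ha =>
      le_iSup₂ (f := fun A (_ : A ∈ S) => A) _ (k0.2 ⟨a, ha, rfl⟩) (subset_closure ⟨ha, rfl⟩)),
    fun A hA g => by
      obtain ⟨a, ha, rfl⟩ := k0.1 hA
      exact k0.2 ⟨_, hD.conj_mem a ha g, E_conj hD a g⟩,
    fun A hA B hB => by
      obtain ⟨a, ha, rfl⟩ := k0.1 hA
      obtain ⟨b, hb, rfl⟩ := k0.1 hB
      exact (tri hD ha hb).imp (fun e => commutator_eq_bot_iff_le_centralizer.2 fun x hx y hy =>
        (E_comm ha hb e x hx y hy).symm) fun e => e.imp (fun e => (special_of_psl2Pair (h1 a ha b hb e)).1) (h2 a ha b hb)⟩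
  refine ⟨⟨k1, fun A hA B hB h => ?_⟩, ⟨_, k0.2 ⟨d, hd, rfl⟩⟩, fun A hA B hB => ?_⟩
  all_goals obtain ⟨a, ha, rfl⟩ := k0.1 hA; obtain ⟨b, hb, rfl⟩ := k0.1 hB
  · rcases tri hD ha hb with e | e | e
    exacts [absurd (E_comm ha hb e) (RO.not_cm h), h1 a ha b hb e, absurd h (RS.not_ro_of_cc k1 hB (h2 a ha b hb e))]
  · obtain ⟨g, rfl⟩ := hcl.2.2 a ha b hb
    exact ⟨g, (E_conj hD a g).symm⟩

/-- the degenerate case of the root involution theorem -/
theorem degen [Finite G] (hD : IsOddTranspositionSet D) (hcl : IsRootInvolutionClass D) (hO : pCore 2 G = ⊥)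
    (hZ : center G = ⊥) (hDD : (D ∩ commutingProducts D).Nonempty) (hc : IsConnectedSet (CommAdj D) D) :
    (∀ d ∈ D, (sameCommutingSubgroup D d : Set G) = sameCommutingClass D d ∪ {1}) ∧
    ∀ d ∈ D, ∃ (F : Type) (_ : Field F) (_ : Fintype F), Fintype.card F = ♯(sameCommutingSubgroup D d) ∧
      IsKRootSubgroupSet F {A | ∃ g : G, A = conjBy (sameCommutingSubgroup D d) g} ∧
      IsConjClassOfSubgroups {A | ∃ g : G, A = conjBy (sameCommutingSubgroup D d) g} := by
  have k := fun d hd => S5052.result hD hcl hO hZ hDD hc (d := d) hd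
  refine ⟨fun d hd => (k d hd).1, fun d hd => ?_⟩
  obtain ⟨x, hx, h0⟩ : ∃ x ∈ D, ¬ Commute d x := by
    by_contra! b
    have := cent_closure fun s hs => (b s hs).symm
    rw [hD.1.generates, coe_top, centralizer_univ, hZ] at this
    exact ne_one hD.1 hd (mem_bot.1 this)
  have h1 := (ot_of hD).od hd hx h0
  obtain ⟨F, _, _, h2, -⟩ := (k d hd).2 x ⟨hx, h1.1.symm, h1.2⟩
  refine ⟨F, _, _, h2, kroot_of hcl hd (fun a ha b hb e => ?_) fun a ha b hb e => absurd e (hD.2 a ha b hb)⟩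
  obtain ⟨F', _, _, h3, ⟨e1⟩⟩ := (k a ha).2 b ⟨hb, e.1.symm, e.2⟩
  exact psl2Pair_of_iso hD.1 ha hb e e1 h3 (h2.trans (card_E hcl ha hd))

end Cfsg.Agent.H7.RT
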