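import Cfsg.Agent.H8.RS2

/-! Root involutions with `|E(d)| = 2`: if there are commuting pairs whose product is not in `D`
then all odd products have order three. -/

set_option autoImplicit false

namespace Cfsg.Agent.H7.RX

open Cfsg.Agent.H8 RI RS

variable {G : Type*} [Group G] {D : Set G} {a b c d e f g h k p q u w x y : G}

/-- the standing hypotheses -/
structure HX (D : Set G) : Prop where
  nc : NC D
  fo : ∃ a ∈ D, ∃ b ∈ D, Fo a b
  two : ∀ a ∈ D, ∀ b ∈ D, Ee D a b → a = b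

theorem HX.hE (H : HX D) : ∀ a ∈ D, ∀ b ∈ D, Ee D a b → a ≠ b → a * b ∈ D :=
  fun a ha b hb h hn => absurd (H.two a ha b hb h) hn

theorem comm_of_conj (aa : a * a = 1) (h : a * b * a = b) : a * b = b * a := by
  calc a * b = a * b * (a * a) := by rw [aa, mul_one]
    _ = b * a := by rw [← mul_assoc, h]

theorem conj_of_comm (aa : a * a = 1) (h : a * b = b * a) : a * b * a = b := by
  rw [h, mul_assoc, aa, mul_one]

theorem conj_mul' (aa : a * a = 1) (x y : G) : a * (x * y) * a = a * x * a * (a * y * a) := by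
  simp only [mul_assoc, ii aa]

variable [Finite G] (H : HX D)
include H

theorem KA (ha : Co D a d) (hb : Co D b d) (hn : a * b ≠ b * a) : K a b = d := by
  rcases thmA' H.nc H.hE H.fo ha hb with e | e
  · exact absurd (comm_of_sq (sq H.nc.rt ha.l) (sq H.nc.rt hb.l) e) hn
  · exact H.two _ e.1 _ ha.r e.2

theorem cA (ha : Co D a d) (hb : Co D b d) (hn : a * b ≠ b * a) : b * a * b = a * d := by
  rw [conj_K (sq H.nc.rt ha.l), KA H ha hb hn]

theorem co_mul (hp : Co D p e) (hq : Co D q e) (h : Co D p q) (hn : p * q ≠ e) : Co D (p * q) e := by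
  have hD := H.nc.rt
  refine (gam H.nc H.hE H.fo hp (h.mul_l hD).symm ?_).resolve_left hn
  rwa [ii (sq hD hp.l)]

theorem polar (hw : w ∈ D) (hd : d ∈ D) (h1 : w * d = d * w) (h2 : w ≠ d) (h3 : ¬ Co D w d) :
    ∃ e k, Co D e d ∧ Co D k d ∧ Co D k w ∧ Co D e k ∧ e * k ≠ d := by
  have hD := H.nc.rt
  obtain ⟨e, he, hn⟩ : ∃ e, Co D e d ∧ e * w ≠ w * e := by
    by_contra hn
    push Not at hn
    exact h2 (H.two _ hw _ hd (tT H.nc H.fo hw hd hn))
  have hf := fo_of hD he.l hw (he.nod hD hw h1) hn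
  have e1 := conj_K (sq hD he.l) w
  have e2 : w * d * w = d := conj_of_comm (sq hD hw) h1
  have c1 : Co D (e * K e w) d := by
    have := he.conj hD w
    rwa [inv_eq hD hw, e1, e2] at this
  have c2 := co_l hD he.l hw hf
  have c3 := co_r hD he.l hw hf
  refine ⟨e, K e w, he, (gam H.nc H.hE H.fo he c2.symm c1).resolve_left fun e => h3 ?_, c3, c2.symm,
    c1.ne hD⟩
  rw [e] at c3
  exact c3.symm

theorem three_of_P (ha : a ∈ D) (hx : x ∈ D) (ho : Od a x) (hb : P D a x b) :
    orderOf (a * x) = 3 := by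
  have hD := H.nc.rt
  have h1 := psi hD ha hx ho hb
  have c1 := co_l hD hb.1 hx hb.2.2.2
  have c2 := (P_co hD ha hb).symm
  exact three' hD c1 ⟨c2, h1.2.2.2, KA H c1 c2 (h1.2.2.2.not_comm hD h1.1 ha)⟩ hx hb.2.2.2 rfl

theorem lemB (he : e ∈ D) (hf : f ∈ D) (ho : Od e f) (hk : P D e f k) (hg : Co D g e)
    (hc : g * k = k * g) : ¬ Od g f ∨ ¬ Od (g * e) f := by
  have hD := H.nc.rt
  have h1 := psi hD he hf ho hk
  have c1 := co_l hD hk.1 hf hk.2.2.2
  have c2 := P_co hD he hk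
  have c3 := P_co hD hf h1
  have e1 := cA H c1 c2.symm (h1.2.2.2.not_comm hD h1.1 he)
  have e2 := conj_K (sq hD hk.1) f
  generalize K k f = k' at *
  have hge := hg.mul_l hD
  have hc' : g * e * k = k * (g * e) := (comm_mul hc.symm c2.c).symm
  by_cases n1 : k' * g = g * k'
  · exact .inl fun o => c3.symm.nod hD hg.l n1.symm o.symm
  by_cases n2 : k' * (g * e) = g * e * k'
  · exact .inr fun o => c3.symm.nod hD hge.l n2.symm o.symm
  have f1 := fo_of hD c1.l hg.l (c1.nod hD hg.l hc) n1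
  have f2 := fo_of hD c1.l hge.l (c1.nod hD hge.l hc') n2
  have m1 := co_l hD c1.l hg.l f1
  have m2 := co_r hD c1.l hg.l f1
  have m4 := co_r hD c1.l hge.l f2
  have e3 := conj_K (sq hD c1.l) g
  have e4 : K k' (g * e) = K k' g * k := by
    refine K_of_conj (sq hD c1.l) ?_
    calc g * e * k' * (g * e) = g * (e * k' * e) * g := by
          rw [mul_assoc (g * e), hg.c, ← mul_assoc, ← hg.c]; simp only [mul_assoc, hg.c, cc hg.c]
      _ = g * k' * g * k := by rw [e1, mul_assoc g, mul_assoc k', ← hc]; simp only [mul_assoc]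
      _ = _ := by rw [e3, mul_assoc]
  rw [e4] at m4
  generalize K k' g = m at *
  by_cases n3 : m * f = f * m
  · exact .inl (m2.symm.nod hD hf n3.symm)
  refine .inr (m4.symm.nod hD hf (comm_of_conj (sq hD hf) ?_))
  rw [conj_mul' (sq hD hf), cA H m1 c3.symm n3, e2, ← c1.c, mul_assoc, ii (sq hD c1.l)]

theorem lemB' (hf : f ∈ D) (ho : Od e f) (hg : Co D g e) (hh : Co D h e)
    (hc : h * g = g * h) (gd : ¬ Od g f ∨ ¬ Od (g * e) f) : ¬ Od h f ∨ ¬ Od (h * e) f := by
  have hD := H.nc.rt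
  rcases gd with gd | gd
  · exact lemB H hg.r hf ho (P_of hD hg hf ho gd) hh hc
  · exact lemB H hg.r hf ho (P_of hD (hg.mul_r hD) hf ho gd) hh (comm_mul hc hh.c)

theorem comm_plane (hp : Co D p e) (hq : Co D q e) (hh : Co D h e) :
    h * p = p * h ∨ h * q = q * h ∨ h * (p * q) = p * q * h := by
  have hD := H.nc.rt
  by_cases n1 : p * h = h * p
  · exact .inl n1.symm
  by_cases n2 : q * h = h * q
  · exact .inr (.inl n2.symm)
  refine .inr (.inr (comm_of_conj (sq hD hh.l) ?_))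
  rw [conj_mul' (sq hD hh.l), cA H hp hh n1, cA H hq hh n2, hq.c, mul_assoc, ii (sq hD hp.r)]

/-- every point lies in a plane -/
def Pl (D : Set G) : Prop := ∀ e ∈ D, ∃ p q, Co D p e ∧ Co D q e ∧ Co D p q ∧ p * q ≠ e

theorem lemC (hpl : Pl D) (hf : f ∈ D) (ho : Od e f) (hk : P D e f k) (hg : Co D g e) :
    ¬ Od g f ∨ ¬ Od (g * e) f := by
  have hD := H.nc.rt
  obtain ⟨p, q, hp, hq, hpq, hn⟩ := hpl e hg.r
  have hr := co_mul H hp hq hpq hn
  have hk' := P_co hD hg.r hk
  have gk : ¬ Od k f ∨ ¬ Od (k * e) f := .inl fun o => o.not_fo hk.2.2.2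
  have c1 := (hpq.mul_l hD).c
  have c2 := (hpq.mul_r hD).c
  have gp : ¬ Od p f ∨ ¬ Od (p * e) f := by
    rcases comm_plane H hp hq hk' with c | c | c
    · exact lemB' H hf ho hk' hp c.symm gk
    · exact lemB' H hf ho hq hp hpq.c (lemB' H hf ho hk' hq c.symm gk)
    · exact lemB' H hf ho hr hp c1.symm (lemB' H hf ho hk' hr c.symm gk)
  rcases comm_plane H hp hq hg with c | c | c
  · exact lemB' H hf ho hp hg c gp
  · exact lemB' H hf ho hq hg c (lemB' H hf ho hp hq hpq.c.symm gp)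
  · exact lemB' H hf ho hr hg c (lemB' H hf ho hp hr c1 gp)

/-- at distance at most three -/
def Near (D : Set G) (x a : G) : Prop := Od a x → ∃ k, P D a x k

theorem near_co (hpl : Pl D) (hx : x ∈ D) (hg : Co D g e) (h : Near D x e) : Near D x g := by
  have hD := H.nc.rt
  intro o
  by_cases o' : Od e x
  · obtain ⟨k, hk⟩ := h o'
    exact ⟨_, P_of hD (hg.mul_l hD) hx o ((lemC H hpl hx o' hk hg).resolve_left (not_not.2 o))⟩
  · exact ⟨e, P_of hD hg.symm hx o o'⟩

theorem all_three (hconn : IsConnectedSet (CommAdj D) D) (hw : w ∈ D) (hd : d ∈ D)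
    (h1 : w * d = d * w) (h2 : w ≠ d) (h3 : ¬ Co D w d) (ha : a ∈ D) (hx : x ∈ D) (ho : Od a x) :
    orderOf (a * x) = 3 := by
  have hD := H.nc.rt
  have hpl : Pl D := by
    obtain ⟨p, q, hp, hq, -, hpq, hn⟩ := polar H hw hd h1 h2 h3
    intro e he
    obtain ⟨g, rfl⟩ := H.nc.cl d hd e he
    refine ⟨_, _, hp.conj hD g, hq.conj hD g, hpq.conj hD g, fun e => hn ?_⟩
    rw [conj_mul] at e
    exact mul_left_cancel (mul_right_cancel e)
  have key : ∀ b, Relation.ReflTransGen (CommAdj D) x b → Near D x b := by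
    intro b hb
    induction hb with
    | refl => exact fun o => absurd rfl o.1
    | @tail b c _ hbc ih =>
      obtain ⟨hb, hc, hne, hcm⟩ := hbc
      by_cases hco : Co D c b
      · exact near_co H hpl hx hco ih
      · obtain ⟨-, k, -, k1, k2, -⟩ := polar H hc hb hcm.symm hne.symm hco
        exact near_co H hpl hx k2.symm (near_co H hpl hx k1 ih)
  obtain ⟨k, hk⟩ := key a (hconn x hx a ha) ho
  exact three_of_P H ha hx ho hk

end Cfsg.Agent.H7.RX
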