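import Cfsg.Agent.H7.Cnt
import Cfsg.Agent.H7.Pf
import Cfsg.Agent.H7.Descent2
import Cfsg.Agent.H6.SS
import Cfsg.Agent.H6.Cnt

/-!
Classes of elements of odd prime order in orthogonal groups.
-/

set_option autoImplicit false

namespace Cfsg.Agent.H7

open QuadraticMap Module Matrix H6

variable {F : Type*} [Field F] {ι : Type} [Fintype ι] [DecidableEq ι] {Q : QuadraticForm F (ι → F)}

theorem o_ss_conj [Finite F] (hQ : ND Q) {A B : Cfsg.isometryGroup F ⇑Q} {n : ℕ} (h0 : A.1.1 ^ n = 1)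
    (hn : (n : F) ≠ 0) (hodd : Odd n) (hc : IsConj A.1.1 B.1.1) : IsConj A B := by
  obtain ⟨g, hg⟩ := hc
  obtain ⟨a, b, P, P', R, C, S⟩ := (ssE_of_pow h0 hn 1).exists_spt
  have hA' := mem_isometryGroup.1 A.2
  have hB' := mem_isometryGroup.1 B.2
  have h1 : IsUnit (C - 1) := by simpa using S.unit
  have hG := det_pG.2 hQ
  have hG' := det_gram_ne_zero (σ := RingHom.id F) hG (GeneralLinearGroup.det_ne_zero g)
  have i1 := pG_isom hA'
  have i2 := isom_of_conj (σ := RingHom.id F) hg.eq (pG_isom hB')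
  obtain ⟨Y, h2, h3⟩ := wall_cong (σ := RingHom.id F) (fun _ => rfl) (S.det (mul_one _) i1 hG).2
    (S.det (mul_one _) i2 hG').2 ((eh_of_symm pG_symm).congr P')
    (((eh_of_symm pG_symm).congr g.1).congr P') (S.isom i1) (S.isom i2) (Or.inr (by
      obtain ⟨k, hk⟩ := hodd
      have h2 := (Commute.one_right (C * C)).mul_geom_sum₂ (k + 1)
      rw [← _root_.sq, ← pow_mul, mul_add, mul_one, pow_succ C (2 * k + 1), ← hk, S.pow h0, one_mul,
        one_pow, _root_.sq] at h2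
      exact isUnit_of_mul_isUnit_left (h2 ▸ h1)))
  have h4 : ∀ x y, polar Q ((P' * Y) *ᵥ x) ((P' * Y) *ᵥ y) =
      polar Q ((g.1 * P') *ᵥ x) ((g.1 * P') *ᵥ y) := fun x y => by
    rw [← bf_pG, ← bf_pG, sf_mulVec, sf_mulVec, gram_mul, gram_mul]
    exact congrArg (bf · x y) h3
  have h5 : ∀ x, A.1.1 *ᵥ ((P' * Y) *ᵥ x) = (P' * Y) *ᵥ (C *ᵥ x) := fun x => by
    rw [mulVec_mulVec, mulVec_mulVec, ← Matrix.mul_assoc, S.res, Matrix.mul_assoc, ← h2,
      Matrix.mul_assoc]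
  have h6 : ∀ x, B.1.1 *ᵥ ((g.1 * P') *ᵥ x) = (g.1 * P') *ᵥ (C *ᵥ x) := fun x => by
    rw [mulVec_mulVec, mulVec_mulVec, ← Matrix.mul_assoc, ← hg.eq, Matrix.mul_assoc, S.res,
      Matrix.mul_assoc]
  have hY := (isUnit_iff_isUnit_det Y).2 (det_ne_zero_of_isom (κ := Unit) (S.det (mul_one _) i2 hG').2 h3).isUnit
  obtain ⟨h, -, hh⟩ := witt_maps hQ gen_top (P' * Y).mulVecLin (g.1 * P').mulVecLin
    (fun x y h => mulVec_injective_iff_isUnit.2 hY (S.inj (by simpa using h)))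
    (fun x y h => S.inj (mulVec_injective_iff_isUnit.2 g.isUnit (by simpa using h))) fun x => by
    obtain ⟨y, rfl⟩ := mulVec_surjective_iff_isUnit.2 h1 x
    simp only [mulVecLin_apply, sub_mulVec, one_mulVec, mulVec_sub]
    rw [Q_sub, Q_sub, h4, ← h5, ← h6, hA', hB', ← two_mul, ← two_mul, ← B_self,
      ← B_self, h4]
  simp only [mulVecLin_apply] at hh
  refine isConj_iff.2 ⟨(isoEquiv Q).symm h, mul_inv_eq_iff_eq_mul.2 (Subtype.ext (Units.ext
    (ext_mulVec fun v => ?_)))⟩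
  simp only [Subgroup.coe_mul, Units.val_mul, ← mulVec_mulVec, isoEquiv_symm_mulVec]
  obtain ⟨x, y, rfl⟩ := S.decomp v
  obtain ⟨y, rfl⟩ := mulVec_surjective_iff_isUnit.2 hY y
  have h7 : A.1.1 *ᵥ (P *ᵥ x) = P *ᵥ x := by rw [mulVec_mulVec, S.eig, one_smul]
  rw [mulVec_mulVec y, mulVec_add, h5, h7, map_add, map_add, hh, hh, mulVec_add, h6, add_left_inj]
  refine ND.ext hQ fun z => ?_
  obtain ⟨z, rfl⟩ := mulVec_surjective_iff_isUnit.2 (B.1 * g).isUnit z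
  obtain ⟨x', y', rfl⟩ := S.decomp z
  have h8 : ∀ y, polar Q (h.1 (P *ᵥ x)) ((g.1 * P') *ᵥ y) = 0 := fun y => by
    rw [← hh, OG.map_B, ← bf_pG, ← mulVec_mulVec, bf_eq, mulVec_mulVec, dotProduct_mulVec,
      ← vecMul_transpose, vecMul_vecMul, ← Matrix.mul_assoc, S.orth (mul_one _) i1]
    simp
  have h9 := polar_map_of B.1.1.mulVecLin hB'
  simp only [mulVecLin_apply] at h9
  erw [Units.val_mul]
  rw [← mulVec_mulVec, h9, mulVec_add, mulVec_add,
    polar_add_right, polar_add_right, mulVec_mulVec y', h6, h8, h8, mulVec_mulVec _ _ g.1, ← hg.eq,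
    ← mulVec_mulVec, mulVec_mulVec _ A.1.1, S.eig, one_smul]

lemma unit_sq_sub_one {C : Matrix ι ι F} {n : ℕ} (h : C ^ n = 1) (ho : Odd n) (h1 : IsUnit (C - 1)) :
    IsUnit (C * C - 1) := by
  obtain ⟨k, rfl⟩ := ho
  have h2 := (Commute.one_right (C * C)).mul_geom_sum₂ (k + 1)
  rw [← pow_two, ← pow_mul, mul_add, mul_one, pow_succ C (2 * k + 1), h, one_mul, one_pow,
    pow_two] at h2
  exact isUnit_of_mul_isUnit_left (h2 ▸ h1)

lemma exists_form_fpf [Finite F] {C G : Matrix ι ι F} {n : ℕ} (h : C ^ n = 1) (ho : Odd n)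
    (h1 : IsUnit (C - 1)) (hG : G.det ≠ 0) (hC : Cᵀ * G * C = G) :
    Even (Fintype.card ι) ∧ ∃ Q : QuadraticForm F (ι → F), ND Q ∧ ∀ v, Q (C *ᵥ v) = Q v := by
  have h2 := unit_sq_sub_one h ho h1
  constructor
  · obtain ⟨H, h3, h4, h5⟩ := wall_exists (σ := RingHom.id F) (ε := -1) (fun _ => rfl) hG (by simp) hC
      (Or.inr h2)
    refine even_card_of_isAlt (fun v => ?_) h3
    obtain ⟨w, rfl⟩ := mulVec_surjective_iff_isUnit.2 h1 v
    have h5 : bf H (C *ᵥ w) (C *ᵥ w) = bf H w w := by rw [sf_mulVec]; exact congrArg (bf · w w) h5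
    have h6 := h4 w w
    have h7 := h4 w (C *ᵥ w)
    simp only [RingHom.id_apply] at h6 h7
    rw [sub_mulVec, one_mulVec, sf_sub_left, sf_sub_right, sf_sub_right]
    linear_combination h5 + h6 - h7
  obtain ⟨H, h3, h4, h5⟩ := wall_exists (σ := RingHom.id F) (ε := 1) (fun _ => rfl) hG (by simp) hC
    (Or.inr h2)
  have h6 : ∀ u v, bf H (C *ᵥ u) (C *ᵥ v) = bf H u v := fun u v => by
    rw [sf_mulVec]; exact congrArg (bf · u v) h5
  have h7 : ∀ u v, bf H u v = bf H v u := fun u v => by simpa using h4 v u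
  have h8 : ∀ v, (C - 1)⁻¹ *ᵥ ((C - 1) *ᵥ v) = v := fun v => by
    rw [mulVec_mulVec, nonsing_inv_mul _ ((isUnit_iff_isUnit_det _).1 h1), one_mulVec]
  have h9 : ∀ u v, bf (-(H * (C - 1)⁻¹)) u ((C - 1) *ᵥ v) = -bf H u v := fun u v => by
    rw [bf_eq, neg_mulVec, ← mulVec_mulVec, h8, dotProduct_neg, bf_eq]
  refine ⟨(-(H * (C - 1)⁻¹)).toQuadraticForm', det_pG.1 ?_, fun v => ?_⟩
  · rw [pG_eq_iff.2 fun u v => ?_]
    · exact h3
    obtain ⟨u, rfl⟩ := mulVec_surjective_iff_isUnit.2 h1 u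
    obtain ⟨v, rfl⟩ := mulVec_surjective_iff_isUnit.2 h1 v
    rw [← bf_pG, pG_qf, bf_eq, add_mulVec, dotProduct_add, ← bf_eq, ← bf_eq, bf_transpose, h9, h9]
    simp only [sub_mulVec, one_mulVec, sf_sub_left, sf_sub_right, h6]
    linear_combination h7 v u - h7 (C *ᵥ v) u
  · obtain ⟨v, rfl⟩ := mulVec_surjective_iff_isUnit.2 h1 v
    have h10 : C *ᵥ ((C - 1) *ᵥ v) = (C - 1) *ᵥ (C *ᵥ v) := by simp [sub_mul, mul_sub]
    rw [qf_apply, qf_apply, h9]
    nth_rw 2 [h10]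
    rw [h9, h6]

lemma exists_ss_form [Finite F] {A G : Matrix ι ι F} {n : ℕ} (h : A ^ n = 1) (hn : (n : F) ≠ 0)
    (ho : Odd n) (hG : G.det ≠ 0) (hA : Aᵀ * G * A = G) :
    ∃ (a b : ℕ) (Q₂ : QuadraticForm F (Fin (2 * b) → F)) (C : OG Q₂), ND Q₂ ∧ C ^ n = 1 ∧
      (∀ v, C.1 v = v → v = 0) ∧ a + 2 * b = Fintype.card ι ∧ (a = 0 → IsUnit (A - 1)) ∧
      ∀ (Q₁ : QuadraticForm F (Fin a → F)) (ψ : ((Fin a → F) × (Fin (2 * b) → F)) ≃ₗ[F] (ι → F)) (c : F),
        (∀ x, Q (ψ x) = c * Q₁.prod Q₂ x) → ∃ g : Cfsg.isometryGroup F ⇑Q, IsConj A g.1.1 := by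
  obtain ⟨a, b, P, P', R, C, S⟩ := (ssE_of_pow h hn 1).exists_spt
  have h1 : IsUnit (C - 1) := by simpa using S.unit
  obtain ⟨h2, Q₂, h3, h4⟩ := exists_form_fpf (S.pow h) ho h1 (S.det (mul_one _) hA hG).2 (S.isom hA)
  obtain ⟨b, rfl⟩ : ∃ k, b = 2 * k := Fintype.card_fin b ▸ h2.two_dvd
  obtain ⟨C, rfl⟩ := IsUnit.of_pow_eq_one (S.pow h) ho.pos.ne'
  let C' := isoEquiv Q₂ ⟨C, mem_isometryGroup.2 h4⟩
  let Φ : ((Fin a → F) × (Fin (2 * b) → F)) ≃ₗ[F] (ι → F) :=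
    (LinearEquiv.sumArrowLequivProdArrow _ _ F F).symm.trans (toLin'OfInv S.qp S.pq)
  have h5 : ∀ x y, Φ (x, y) = P *ᵥ x + P' *ᵥ y := fun x y => fromCols_mulVec_sumElim P P' x y
  have h6 : ∀ x y, A *ᵥ Φ (x, y) = Φ (x, C'.1 y) := fun x y => by
    rw [h5, h5, mulVec_add, mulVec_mulVec, mulVec_mulVec, S.eig, S.res, one_smul, ← mulVec_mulVec]
    rfl
  have h7 : ∀ v, C'.1 v = v → v = 0 := fun v hv => mulVec_injective_iff_isUnit.2 h1 (by
    rw [sub_mulVec, one_mulVec, mulVec_zero]; exact sub_eq_zero.2 hv)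
  refine ⟨a, b, Q₂, C', h3, ?_, h7, by simpa using Φ.finrank_eq, ?_, fun Q₁ ψ c hψ => ?_⟩
  · rw [← map_pow]
    exact (congrArg _ (Subtype.ext (Units.ext (S.pow h)))).trans (map_one _)
  · rintro rfl
    refine mulVec_injective_iff_isUnit.1 ((injective_iff_map_eq_zero (A - 1).mulVecLin).2 fun v hv => ?_)
    obtain ⟨⟨x, y⟩, rfl⟩ := Φ.surjective v
    rw [mulVecLin_apply, sub_mulVec, one_mulVec, h6, sub_eq_zero] at hv
    rw [h7 y (congrArg Prod.snd (Φ.injective hv)), Subsingleton.elim x 0]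
    exact map_zero Φ
  let g : OG Q := ⟨ψ.symm.trans ((sumHom Q₁ Q₂ (1, C')).1.trans ψ), fun v => by
    obtain ⟨v, rfl⟩ := ψ.surjective v
    simp [hψ]⟩
  refine ⟨(isoEquiv Q).symm g, (glEquiv ι F).symm (Φ.symm.trans ψ), ext_mv fun v => ?_⟩
  obtain ⟨⟨x, y⟩, rfl⟩ := Φ.surjective v
  rw [← mulVec_mulVec, ← mulVec_mulVec, h6, glEquiv_symm_mulVec, glEquiv_symm_mulVec,
    isoEquiv_symm_mulVec]
  simp [g, sumHom_apply]

lemma em_zero_eq_zero_iff {L : Type*} [Field L] {e : F →+* L} {ζ : L} {r : ℕ} (A : Matrix ι ι F) :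
    em e ζ r A 0 = 0 ↔ IsUnit (A - 1) := by
  rw [em_eq, ZMod.val_zero, pow_zero, one_smul, show A.map e - 1 = (A - 1).map e by
    simp [Matrix.map_sub], rank_map]
  refine ⟨fun h => mulVec_surjective_iff_isUnit.1 (LinearMap.range_eq_top.1
    (Submodule.eq_top_of_finrank_eq (S := (A - 1).mulVecLin.range) ?_)), fun h => by
      rw [rank_of_isUnit _ h, Nat.sub_self]⟩
  have := rank_le_card_width (A - 1)
  rw [finrank_fintype_fun_eq_card, ← rank]
  omega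

lemma card_invariant' {r : ℕ} [Fact r.Prime] (H : Subgroup (ZMod r)ˣ) (n : ℕ) :
    Nat.card {m : ZMod r → ℕ // ((∀ u ∈ H, ∀ k, m (u.1 * k) = m k) ∧ ∑ k, m k = n + 1 ∧
      m 0 ≠ n + 1) ∧ m 0 ≠ 0} = (n / Nat.card H + H.index).choose H.index - 1 := by
  have h1 : ∀ (m : ZMod r → ℕ) (a : ℕ), (∀ u ∈ H, ∀ k, m (u.1 * k) = m k) →
      ∀ u ∈ H, ∀ k, Function.update m 0 a (u.1 * k) = Function.update m 0 a k := fun m a h u hu k => by
    by_cases hk : k = 0
    · rw [hk, mul_zero]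
    · rw [Function.update_of_ne hk, Function.update_of_ne (mul_ne_zero u.ne_zero hk), h u hu]
  have h2 : ∀ (m : ZMod r → ℕ) (a : ℕ), ∑ k, Function.update m 0 a k + m 0 = ∑ k, m k + a :=
    fun m a => by
      rw [Finset.sum_update_of_mem (Finset.mem_univ _), ← Finset.add_sum_erase _ m (Finset.mem_univ 0),
        Finset.sdiff_singleton_eq_erase]
      ring
  rw [← card_invariant]
  exact Nat.card_congr
    { toFun := fun m => ⟨Function.update m.1 0 (m.1 0 - 1), h1 _ _ m.2.1.1, by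
        have := h2 m.1 (m.1 0 - 1); have := m.2.1.2; have := m.2.2; omega, by
        have := m.2.1.2; have := m.2.2; rw [Function.update_self]; omega⟩
      invFun := fun m => ⟨Function.update m.1 0 (m.1 0 + 1), ⟨h1 _ _ m.2.1, by
        have := h2 m.1 (m.1 0 + 1); have := m.2.2; omega, by
        have := m.2.2; rw [Function.update_self]; omega⟩, by simp⟩
      left_inv := fun m => Subtype.ext (by simp [Nat.sub_add_cancel (Nat.pos_of_ne_zero m.2.2)])
      right_inv := fun m => Subtype.ext (by simp) }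

open Classical in
theorem card_O_classes [Fintype F] (hQ : ND Q) {r i t n : ℕ} [hr : Fact r.Prime] (hr2 : r ≠ 2)
    (h0 : (r : F) ≠ 0) {u : (ZMod r)ˣ} (hu : u.1 = Fintype.card F) (hi : i = orderOf u)
    (ht : t * i = r - 1) (hn : Fintype.card ι = n + 1) (T : Prop)
    (hT : ∀ g : OG Q, g ^ r = 1 → (∀ v, g.1 v = v → v = 0) → T)
    (hex : ∀ (a b : ℕ) (Q₂ : QuadraticForm F (Fin (2 * b) → F)) (C : OG Q₂), ND Q₂ → C ^ r = 1 →
      (∀ v, C.1 v = v → v = 0) → a + 2 * b = n + 1 → (a = 0 → T) →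
      ∃ (Q₁ : QuadraticForm F (Fin a → F)) (ψ : _ ≃ₗ[F] (ι → F)) (c : F),
        ∀ x, Q (ψ x) = c * Q₁.prod Q₂ x) :
    Nat.card {C : ConjClasses (Cfsg.isometryGroup F ⇑Q) // ∃ g, ConjClasses.mk g = C ∧ orderOf g = r} =
      if Odd i then ((if T then n + 1 else n) / (2 * i) + t / 2).choose (t / 2) - 1
      else ((if T then n + 1 else n) / i + t).choose t - 1 := by
  obtain ⟨L, _, _, e, φ, ζ, S⟩ := exists_spl F hr.out h0
  have hpos := orderOf_pos u
  have hr3 := hr.out.two_le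
  have ho := hr.out.odd_of_ne_two hr2
  obtain ⟨w, h1, h2, h3, h4⟩ : ∃ w : (ZMod r)ˣ, (w = u ∨ w = -u) ∧ u ∈ Subgroup.zpowers w ∧
      -1 ∈ Subgroup.zpowers w ∧ orderOf w = if Odd i then 2 * i else i := by
    split_ifs with h
    · have h1 : (-u) ^ i = -1 := by rw [h.neg_pow, hi, pow_orderOf_eq_one]
      exact ⟨-u, Or.inr rfl, ⟨(i + 1 : ℕ), by
        simp only [zpow_natCast]; rw [pow_succ, h1, neg_mul_neg, one_mul]⟩, ⟨i, by simpa using h1⟩,
        by rw [orderOf_neg_zmod hr2 u hi.symm, if_pos h]⟩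
    · obtain ⟨c, hc⟩ := Nat.not_odd_iff_even.1 h
      exact ⟨u, Or.inl rfl, Subgroup.mem_zpowers u, ⟨c, by
        simpa using pow_half_eq_neg_one (c := c) (by omega)⟩, hi.symm⟩
  have key : ∀ A : Matrix ι ι F, A.det ≠ 0 → ∀ k, em e ζ r Aᵀ⁻¹ k = em e ζ r A (-k) :=
    fun A hA k => by rw [em_inv S.prim (by rwa [det_transpose]), em_transpose]
  have h5 : ∀ g : Cfsg.isometryGroup F ⇑Q, g ≠ 1 ↔ em e ζ r g.1.1 0 ≠ n + 1 := fun g => by
    rw [Ne, Ne, ← hn, em_zero_eq_card_iff, Units.val_eq_one, OneMemClass.coe_eq_one]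
  have h6 : ∀ g : Cfsg.isometryGroup F ⇑Q, g ^ r = 1 → g.1.1 ^ r = 1 := fun g hg =>
    congrArg (·.1.1) hg
  simp only [orderOf_eq_prime_iff]
  rw [card_classes (T := {m : ZMod r → ℕ // ((∀ u ∈ Subgroup.zpowers w, ∀ k, m (u.1 * k) = m k) ∧
    ∑ k, m k = n + 1 ∧ m 0 ≠ n + 1) ∧ (m 0 = 0 → T)}) _ (fun g m => em e ζ r g.1.1 = m.1)
    (fun g hg => ?_) (fun m => ?_) fun g g' m m' hg hg' h h' => ⟨fun hc => ?_, fun hc => ?_⟩]
  · have h7 : Nat.card {m : ZMod r → ℕ // ((∀ u ∈ Subgroup.zpowers w, ∀ k, m (u.1 * k) = m k) ∧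
        ∑ k, m k = n + 1 ∧ m 0 ≠ n + 1) ∧ (m 0 = 0 → T)} =
        ((if T then n + 1 else n) / Nat.card (Subgroup.zpowers w) +
        (Subgroup.zpowers w).index).choose (Subgroup.zpowers w).index - 1 := by
      by_cases h : T
      · rw [if_pos h, ← card_invariant]
        exact Nat.card_congr (Equiv.subtypeEquivRight fun _ => and_iff_left fun _ : _ = 0 => h)
      · rw [if_neg h, ← card_invariant']
        exact Nat.card_congr (Equiv.subtypeEquivRight fun _ => and_congr_right' (imp_iff_not h))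
    rw [h7, Nat.card_zpowers, h4]
    by_cases h : Odd i
    · have h6 := (Subgroup.zpowers w).index_mul_card
      rw [Nat.card_zpowers, h4, if_pos h, Nat.card_units, Nat.card_zmod, ← ht, ← mul_assoc] at h6
      rw [if_pos h, if_pos h, ← Nat.eq_of_mul_eq_mul_right (hi ▸ hpos) h6, Nat.mul_div_cancel _ two_pos]
    · rw [if_neg h] at h4
      rw [if_neg h, if_neg h, index_zpowers _ h4 ht]
  · refine ⟨⟨_, ⟨inv_zpowers fun k => ?_, hn ▸ em_sum S.prim (h6 g hg.1), (h5 g).1 hg.2⟩, fun h =>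
      hT (isoEquiv Q g) (by rw [← map_pow, hg.1, map_one]) fun v hv =>
        mulVec_injective_iff_isUnit.2 ((em_zero_eq_zero_iff _).1 h) (by
          rw [sub_mulVec, one_mulVec, mulVec_zero]; exact sub_eq_zero.2 hv)⟩, rfl⟩
    have h7 := S.em_frob g.1.1 k
    rw [← hu] at h7
    rcases h1 with rfl | rfl
    · exact h7
    have h8 := GeneralLinearGroup.det_ne_zero g.1
    rw [Units.val_neg, neg_mul]
    refine (key _ h8 _).symm.trans ((congrFun (IsConj.em_eq ?_) _).trans h7)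
    refine ⟨((isUnit_iff_isUnit_det _).2 (det_pG.2 hQ).isUnit).unit⁻¹, ?_⟩
    refine SemiconjBy.units_inv_symm_left ?_
    rw [SemiconjBy, IsUnit.unit_spec]
    nth_rw 2 [← pG_isom (mem_isometryGroup.1 g.2)]
    rw [mul_assoc, nonsing_inv_mul_cancel_left _ _ (by rw [det_transpose]; exact h8.isUnit)]
  · obtain ⟨m, ⟨hm, hs, h7⟩, h8⟩ := m
    obtain ⟨A, h9, h10⟩ := S.exists_em m (fun k => by rw [← hu, hm _ h2]) (hs.trans hn.symm)
    have hA : A.det ≠ 0 := ((isUnit_iff_isUnit_det A).1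
      (IsUnit.of_pow_eq_one h9 hr.out.ne_zero)).ne_zero
    obtain ⟨c, hc⟩ : IsConj A Aᵀ⁻¹ := isConj_of_em (e := e) S.prim h9 (by
      rw [inv_pow', ← transpose_pow, h9, transpose_one, inv_one]) (funext fun k => by
        rw [key A hA, h10, ← hm _ h3]; simp)
    obtain ⟨a, b, Q₂, C, a1, a2, a3, a4, a5, a6⟩ := exists_ss_form (Q := Q) h9 h0 ho
      (GeneralLinearGroup.det_ne_zero c) (by
        rw [mul_assoc, hc.eq, mul_nonsing_inv_cancel_left _ _ (by rw [det_transpose]; exact hA.isUnit)])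
    obtain ⟨Q₁, ψ, d, hψ⟩ := hex a b Q₂ C a1 a2 a3 (a4.trans hn) fun h =>
      h8 (h10 ▸ (em_zero_eq_zero_iff A).2 (a5 h))
    obtain ⟨g, hg⟩ := a6 Q₁ ψ d hψ
    have h11 := (IsConj.em_eq hg).symm.trans h10
    exact ⟨g, ⟨Subtype.ext (Units.ext (aeval_X_pow_sub_one.1 (IsConj.aeval_eq_zero hg
      (aeval_X_pow_sub_one.2 h9)))), (h5 g).2 (h11 ▸ h7)⟩, h11⟩
  · exact Subtype.ext (h.symm.trans ((IsConj.em_eq (isConj_units_iff.1
      ((Cfsg.isometryGroup F Q).subtype.map_isConj hc))).trans h'))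
  · subst hc
    exact o_ss_conj hQ (h6 g hg.1) h0 ho
      (isConj_of_em S.prim (h6 g hg.1) (h6 g' hg'.1) (h.trans h'.symm))

lemma exists_form_eps [Finite F] (k : ℕ) {s : ℤ} (hs : s = 1 ∨ s = -1) :
    ∃ Q₁ : QuadraticForm F (Fin (2 * (k + 1)) → F), ND Q₁ ∧ eps Q₁ = s := by
  rcases hs with rfl | rfl
  · let φ := LinearEquiv.ofFinrankEq (R := F) (Fin (k + 1) ⊕ Fin (k + 1) → F) (Fin (2 * (k + 1)) → F)
      (by rw [finrank_QP]; simp)
    have h : ∀ x, (QP F (k + 1)).comp φ.symm.toLinearMap (φ x) = QP F (k + 1) x := by simp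
    exact ⟨_, (nd_QP _).congr φ h, eps_plus ((plusType_QP _).congr φ h)⟩
  · obtain ⟨ζ, hζ⟩ : ∃ ζ : F, ∀ t : F, t ^ 2 + t + ζ ≠ 0 := by
      by_contra! h
      exact (neg_ne_zero.2 (one_ne_zero (α := F))).symm (Finite.injective_iff_surjective.2 (fun ζ => (h (-ζ)).imp fun t ht =>
        show t ^ 2 + t = ζ by linear_combination ht) (show (0 : F) ^ 2 + 0 = (-1) ^ 2 + -1 by ring))
    let φ := LinearEquiv.ofFinrankEq (R := F) ((Fin k ⊕ Fin k) ⊕ Fin 2 → F) (Fin (2 * (k + 1)) → F)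
      (by rw [finrank_QM]; simp)
    have h : ∀ x, (QM F k 1 ζ).comp φ.symm.toLinearMap (φ x) = QM F k 1 ζ x := by simp
    exact ⟨_, (nd_QM (disc_ne_zero_of_aniso (aniso_of_no_root hζ))).congr φ h, eps_minus fun h1 =>
      not_plusType_QM (aniso_of_no_root hζ) (h1.congr φ.symm fun _ => rfl)⟩

open Classical in
theorem card_O_classes_even [Fintype F] (hQ : ND Q) {r i t m : ℕ} [hr : Fact r.Prime] (hr2 : r ≠ 2)
    (h0 : (r : F) ≠ 0) {u : (ZMod r)ˣ} (hu : u.1 = Fintype.card F) (hi : i = orderOf u)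
    (ht : t * i = r - 1) (hn : Fintype.card ι = 2 * m) (hm : 1 ≤ m) :
    Nat.card {C : ConjClasses (Cfsg.isometryGroup F ⇑Q) // ∃ g, ConjClasses.mk g = C ∧ orderOf g = r} =
      if Odd i then ((if u.1 ^ m = eps Q then 2 * m else 2 * m - 1) / (2 * i) + t / 2).choose (t / 2) - 1
      else ((if u.1 ^ m = eps Q then 2 * m else 2 * m - 1) / i + t).choose t - 1 := by
  have h1 : (Nat.card F : ZMod r) = u := by rw [hu, Nat.card_eq_fintype_card]
  have hV : finrank F (ι → F) = 2 * m := by simpa using hn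
  have := card_O_classes hQ hr2 h0 hu hi ht (n := 2 * m - 1) (by omega) (u.1 ^ m = eps Q)
    (fun g hg hf => h1 ▸ eps_modEq hQ hV hg hf (h1 ▸ u.ne_zero)) fun a b Q₂ C a1 a2 a3 a4 a5 => by
      obtain ⟨Q₁, b1, b2⟩ : ∃ Q₁ : QuadraticForm F (Fin a → F), ND Q₁ ∧ eps Q₁ * eps Q₂ = eps Q := by
        by_cases h : a = 0
        · subst h
          obtain rfl : b = m := by omega
          refine ⟨0, nd_of fun x _ => Subsingleton.elim _ _, ?_⟩
          have h2 := (a5 rfl).symm.trans (h1 ▸ eps_modEq a1 (by simp) a2 a3 (h1 ▸ u.ne_zero))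
          have : Fact (2 < r) := ⟨lt_of_le_of_ne hr.out.two_le hr2.symm⟩
          rw [eps_plus ⟨⊥, fun u hu => rfl, by simp⟩, one_mul]
          rcases eps_cases Q with h3 | h3 <;> rcases eps_cases Q₂ with h4 | h4 <;>
            simp [h3, h4, ZMod.neg_one_ne_one, ZMod.neg_one_ne_one.symm] at h2 ⊢
        · obtain ⟨k, rfl⟩ : ∃ k, a = 2 * (k + 1) := ⟨a / 2 - 1, by omega⟩
          obtain ⟨Q₁, b1, b2⟩ := exists_form_eps (F := F) k (s := eps Q * eps Q₂) (by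
            rcases eps_cases Q with h3 | h3 <;> rcases eps_cases Q₂ with h4 | h4 <;> simp [h3, h4])
          exact ⟨Q₁, b1, by rw [b2]; rcases eps_cases Q₂ with h4 | h4 <;> simp [h4]⟩
      have h2 : Even a := ⟨m - b, by omega⟩
      obtain ⟨ψ, hψ⟩ := exists_isometry_of_type (b1.prod a1) hQ (by simpa using h2.add (even_two_mul b)) (by simp; omega) (by
        rw [← eps_eq_one_iff, ← eps_eq_one_iff, eps_prod b1 a1 (by simpa using h2) (by simp), b2])
      exact ⟨Q₁, ψ, 1, by simpa using hψ⟩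
  rw [Nat.sub_add_cancel (by omega)] at this
  convert this

theorem card_O_classes_odd [Fintype F] (h2 : (2 : F) ≠ 0) (hQ : ND Q) {r i t m : ℕ}
    [hr : Fact r.Prime] (hr2 : r ≠ 2)
    (h0 : (r : F) ≠ 0) {u : (ZMod r)ˣ} (hu : u.1 = Fintype.card F) (hi : i = orderOf u)
    (ht : t * i = r - 1) (hn : Fintype.card ι = 2 * m + 1) :
    Nat.card {C : ConjClasses (Cfsg.isometryGroup F ⇑Q) // ∃ g, ConjClasses.mk g = C ∧ orderOf g = r} =
      if Odd i then (m / i + t / 2).choose (t / 2) - 1 else ((2 * m + 1) / i + t).choose t - 1 := by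
  have := card_O_classes hQ hr2 h0 hu hi ht hn True (fun _ _ _ => trivial)
    fun a b Q₂ C a1 _ _ a4 _ => by
      obtain ⟨k, rfl⟩ : ∃ k, a = 2 * k + 1 := ⟨m - b, by omega⟩
      let φ := LinearEquiv.ofFinrankEq (R := F) (Unit ⊕ (Fin k ⊕ Fin k) → F) (Fin (2 * k + 1) → F)
        (by simp; omega)
      have h : ∀ x, (QO F k).comp φ.symm.toLinearMap (φ x) = QO F k x := by simp
      obtain ⟨ψ, c, -, hψ⟩ := exists_sim_of_odd h2 (((nd_QO h2).congr φ h).prod a1) hQ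
        ⟨k + b, by simp; omega⟩ (by simp [hn]; omega)
      exact ⟨_, ψ, c, hψ⟩
  rwa [if_pos trivial, ← Nat.div_div_eq_div_mul, show (2 * m + 1) / 2 = m by omega] at this

lemma choose_pred_div {N h t : ℕ} (hN : 1 ≤ N) (ht : 1 ≤ t) (hd : h ∣ N) :
    ((N - 1) / h + t).choose t - 1 = (N / h + t).choose t - 1 - (N / h + t - 1).choose (t - 1) := by
  obtain ⟨N, rfl⟩ := Nat.exists_eq_add_of_le' hN
  obtain ⟨t, rfl⟩ := Nat.exists_eq_add_of_le' ht
  rw [Nat.succ_div_of_dvd hd, Nat.add_sub_cancel, Nat.add_sub_cancel,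
    show N / h + 1 + (t + 1) = N / h + (t + 1) + 1 by ring, Nat.choose_succ_succ' (N / h + (t + 1)),
    Nat.add_sub_cancel]
  omega

lemma pred_div {N h : ℕ} (hN : 1 ≤ N) (hd : ¬ h ∣ N) : (N - 1) / h = N / h := by
  obtain ⟨N, rfl⟩ := Nat.exists_eq_add_of_le' hN
  rw [Nat.succ_div_of_not_dvd hd, Nat.add_sub_cancel]

lemma even_div_iff {m i : ℕ} (hi : 0 < i) (h : i ∣ 2 * m) : Even (2 * m / i) ↔ i ∣ m := by
  obtain ⟨k, hk⟩ := h
  rw [hk, Nat.mul_div_cancel_left _ hi]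
  refine ⟨fun ⟨c, hc⟩ => ⟨c, by rw [hc] at hk; linarith⟩, fun ⟨c, hc⟩ => ⟨c, ?_⟩⟩
  rw [hc] at hk
  exact Nat.eq_of_mul_eq_mul_left hi (by linarith)

theorem card_O_classes_plus [Fintype F] (hQ : ND Q) (hp : PlusType Q) {r i t m : ℕ}
    [hr : Fact r.Prime] (hr2 : r ≠ 2)
    (h0 : (r : F) ≠ 0) {u : (ZMod r)ˣ} (hu : u.1 = Fintype.card F) (hi : i = orderOf u)
    (ht : t * i = r - 1) (hn : Fintype.card ι = 2 * m) (hm : 1 ≤ m) :
    Nat.card {C : ConjClasses (Cfsg.isometryGroup F ⇑Q) // ∃ g, ConjClasses.mk g = C ∧ orderOf g = r} =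
      if Odd i then (m / i + t / 2).choose (t / 2) - 1 else (2 * m / i + t).choose t - 1 -
        (if i ∣ 2 * m ∧ Odd (2 * m / i) then (2 * m / i + t - 1).choose (t - 1) else 0) := by
  have h1 : u.1 ^ m = eps Q ↔ i ∣ m := by
    rw [eps_plus hp, Int.cast_one, ← Units.val_pow_eq_pow_val, Units.val_eq_one, hi,
      orderOf_dvd_iff_pow_eq_one]
  have hpos : 0 < i := hi ▸ orderOf_pos u
  have hr3 := hr.out.two_le
  have ht1 : 1 ≤ t := Nat.pos_of_ne_zero fun h => by rw [h] at ht; omega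
  rw [card_O_classes_even hQ hr2 h0 hu hi ht hn hm]
  simp only [h1]
  split_ifs with a1 a2 a2 a3 a3
  · rw [Nat.mul_div_mul_left _ _ two_pos]
  · rw [pred_div (by omega) (by rwa [Nat.mul_dvd_mul_iff_left two_pos]), Nat.mul_div_mul_left _ _ two_pos]
  · exact absurd ((even_div_iff hpos a3.1).2 a2) (Nat.not_even_iff_odd.2 a3.2)
  · rfl
  · exact choose_pred_div (by omega) ht1 a3.1
  · rw [pred_div (by omega) fun h => a3 ⟨h, Nat.not_even_iff_odd.1 (mt (even_div_iff hpos h).1 a2)⟩]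
    rfl

theorem card_O_classes_minus [Fintype F] (hQ : ND Q) (hp : ¬ PlusType Q) {r i t m : ℕ}
    [hr : Fact r.Prime] (hr2 : r ≠ 2)
    (h0 : (r : F) ≠ 0) {u : (ZMod r)ˣ} (hu : u.1 = Fintype.card F) (hi : i = orderOf u)
    (ht : t * i = r - 1) (hn : Fintype.card ι = 2 * m) (hm : 1 ≤ m) :
    Nat.card {C : ConjClasses (Cfsg.isometryGroup F ⇑Q) // ∃ g, ConjClasses.mk g = C ∧ orderOf g = r} =
      if Odd i then (m / i + t / 2).choose (t / 2) - 1 -
        (if i ∣ m then (m / i + t / 2 - 1).choose (t / 2 - 1) else 0)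
      else (2 * m / i + t).choose t - 1 -
        (if i ∣ 2 * m ∧ Even (2 * m / i) then (2 * m / i + t - 1).choose (t - 1) else 0) := by
  have : Fact (2 < r) := ⟨lt_of_le_of_ne hr.out.two_le hr2.symm⟩
  have h1 : u.1 ^ m = eps Q ↔ i ∣ 2 * m ∧ ¬ i ∣ m := by
    rw [eps_minus hp, Int.cast_neg, Int.cast_one, hi, orderOf_dvd_iff_pow_eq_one,
      orderOf_dvd_iff_pow_eq_one, ← Units.val_eq_one, ← Units.val_eq_one, Units.val_pow_eq_pow_val,
      Units.val_pow_eq_pow_val, pow_mul', sq_eq_one_iff]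
    exact ⟨fun h => ⟨Or.inr h, fun h' => ZMod.neg_one_ne_one (h.symm.trans h')⟩,
      fun h => h.1.resolve_left h.2⟩
  have hpos : 0 < i := hi ▸ orderOf_pos u
  have hr3 := hr.out.two_le
  have ht1 : 1 ≤ t := Nat.pos_of_ne_zero fun h => by rw [h] at ht; omega
  rw [card_O_classes_even hQ hr2 h0 hu hi ht hn hm]
  simp only [h1]
  split_ifs with a1 a2 a3 a3 a2 a3 a3
  · exact absurd a3 a2.2
  · exact absurd ((Nat.coprime_two_right.2 a1).dvd_of_dvd_mul_left a2.1) a3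
  · have h2 : Even t := by
      have := hr.out.even_sub_one hr2
      rw [← ht, Nat.even_mul] at this
      exact this.resolve_right (Nat.not_even_iff_odd.2 a1)
    rw [choose_pred_div (by omega) (by obtain ⟨c, rfl⟩ := h2; omega) (Nat.mul_dvd_mul_left 2 a3),
      Nat.mul_div_mul_left _ _ two_pos]
  · rw [pred_div (by omega) (by rwa [Nat.mul_dvd_mul_iff_left two_pos]), Nat.mul_div_mul_left _ _ two_pos]
    rfl
  · exact absurd ((even_div_iff hpos a2.1).1 a3.2) a2.2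
  · rfl
  · exact choose_pred_div (by omega) ht1 a3.1
  · rw [pred_div (by omega) fun h => a2 ⟨h, fun h' => a3 ⟨h, (even_div_iff hpos h).2 h'⟩⟩]
    rfl

end Cfsg.Agent.H7
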