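import Cfsg.Agent.H7.Parity

set_option autoImplicit false

namespace Cfsg.Agent.H7

open QuadraticMap Module Matrix

variable {F : Type*} [Field F] {ι κ : Type} [Fintype ι] [DecidableEq ι] [Fintype κ] [DecidableEq κ]
  {Q₁ : QuadraticForm F (ι → F)} {Q₂ : QuadraticForm F (κ → F)}

/-- block sum of isometries -/
def qsumHom (Q₁ : QuadraticForm F (ι → F)) (Q₂ : QuadraticForm F (κ → F)) :
    OG Q₁ × OG Q₂ →* OG (QSum Q₁ Q₂) :=
  (OG.congr _ (QSum_equiv Q₁ Q₂)).toMonoidHom.comp (sumHom Q₁ Q₂)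

lemma qsumHom_apply (g₁ : Cfsg.isometryGroup F ⇑Q₁) (g₂ : Cfsg.isometryGroup F ⇑Q₂)
    (x : ι ⊕ κ → F) : (qsumHom Q₁ Q₂ (isoEquiv Q₁ g₁, isoEquiv Q₂ g₂)).1 x =
      fromBlocks ((g₁ : GL ι F) : Matrix ι ι F) 0 0 ((g₂ : GL κ F) : Matrix κ κ F) *ᵥ x := by
  rw [fromBlocks_mulVec]
  simp only [zero_mulVec, add_zero, zero_add]
  rfl

omit [Fintype ι] [DecidableEq ι] [Fintype κ] [DecidableEq κ] in
lemma nd_QSum (h₁ : ND Q₁) (h₂ : ND Q₂) : ND (QSum Q₁ Q₂) :=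
  (h₁.prod h₂).congr _ (QSum_equiv Q₁ Q₂)

omit [Fintype ι] [DecidableEq ι] [Fintype κ] [DecidableEq κ] in
lemma qsumHom_refl_left (v : ι → F) :
    qsumHom Q₁ Q₂ (refl Q₁ v, 1) = refl (QSum Q₁ Q₂) (Sum.elim v 0) := by
  simp only [qsumHom, MonoidHom.comp_apply, sumHom_refl_left, MulEquiv.coe_toMonoidHom,
    OG.congr_refl]
  rfl

end Cfsg.Agent.H7
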